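import Cfsg.Agent.H29.CoStab

/-!
The stabiliser in `Co1` of the class of a vector of norm 8.
-/
set_option autoImplicit false

namespace Cfsg.Agent.H29
open Cfsg Cfsg.Agent.H7
open scoped Pointwise

/-- conjugation by `g⁻¹` followed by the quotient map -/
def fc (g : Co0) : Co0 →* Co1Q := cq.comp (MulAut.conj g⁻¹).toMonoidHom

theorem fc_apply (g x : Co0) : fc g x = cq (g⁻¹ * x * g) := by
  unfold fc
  rw [MonoidHom.comp_apply]
  show cq (MulAut.conj g⁻¹ x) = _
  rw [MulAut.conj_apply, inv_inv]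

theorem mem_CS_conj {v w : leechLattice} {g x : Co0} (h : g • v = w) :
    g⁻¹ * x * g ∈ CS v ↔ x ∈ CS w := by
  rw [mem_CS, mem_CS, mul_smul, mul_smul, h, ← lcong_smul_iff g, smul_inv_smul, h]

theorem CS_map_eq {v w : leechLattice} {g : Co0} (h : g • v = w) :
    (CS v).map cq = (CS w).map (fc g) := by
  ext x
  constructor
  · rintro ⟨y, hy, rfl⟩
    refine ⟨g * y * g⁻¹, (mem_CS_conj h).1 ?_, ?_⟩
    · have e : g⁻¹ * (g * y * g⁻¹) * g = y := by group
      rw [e]; exact hy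
    · rw [fc_apply]
      have e : g⁻¹ * (g * y * g⁻¹) * g = y := by group
      rw [e]
  · rintro ⟨y, hy, rfl⟩
    exact ⟨g⁻¹ * y * g, (mem_CS_conj h).2 hy, (fc_apply g y).symm⟩

theorem negOne_comm (x : Co0) : x * negOne = negOne * x :=
  Subgroup.mem_center_iff.1 negOne_center x

theorem fc_eq_iff {g x y : Co0} : fc g x = fc g y ↔ y = x ∨ y = negOne * x := by
  rw [fc_apply, fc_apply, cq_eq_iff]
  constructor
  · rintro (h | h)
    · left
      exact mul_left_cancel (mul_right_cancel h)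
    · right
      have h1 : g⁻¹ * y * g = g⁻¹ * (negOne * x) * g := by
        rw [h, ← mul_assoc, ← mul_assoc, ← mul_assoc, negOne_comm g⁻¹]
      exact mul_left_cancel (mul_right_cancel h1)
  · rintro (rfl | rfl)
    · exact Or.inl rfl
    · right
      rw [← mul_assoc, ← mul_assoc, ← mul_assoc, negOne_comm g⁻¹]

theorem fc_surj (g : Co0) : Function.Surjective (fc g) := by
  intro x
  obtain ⟨y, rfl⟩ := cq_surj x
  refine ⟨g * y * g⁻¹, ?_⟩
  rw [fc_apply]
  congr 1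
  group

theorem negOne_mem_CS (v : leechLattice) : negOne ∈ CS v := by
  rw [mem_CS, negOne_smul]; exact LCong.neg v

theorem norm8_bound {v : leechLattice} {g : Co0} (h : g • v = e8 none) (P : Subgroup Co1Q)
    (hP : IsPGroup 2 P) (hle : P ≤ (CS v).map cq)
    (hn : ∀ x ∈ (CS v).map cq, ∀ y ∈ P, x * y * x⁻¹ ∈ P) : P ≤ Sg.map (fc g) := by
  rw [CS_map_eq h] at hle hn
  have h1 : P.comap (fc g) ≤ Sg := by
    apply mono_bound
    · intro x
      have hx : fc g (x : Co0) ∈ P := x.2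
      obtain ⟨k, hk⟩ := hP ⟨_, hx⟩
      have hk' : fc g ((x : Co0) ^ 2 ^ k) = fc g 1 := by
        rw [map_pow, map_one]
        exact congrArg Subtype.val hk
      rw [fc_eq_iff] at hk'
      refine ⟨k + 1, ?_⟩
      apply Subtype.ext
      show (x : Co0) ^ 2 ^ (k + 1) = 1
      rw [pow_succ, pow_mul]
      rcases hk' with h2 | h2
      · rw [← h2, one_pow]
      · have h3 : (x : Co0) ^ 2 ^ k = negOne := by
          have h4 : negOne * (negOne * (x : Co0) ^ 2 ^ k) = (x : Co0) ^ 2 ^ k := by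
            rw [← mul_assoc, negOne_sq, one_mul]
          rw [← h4, ← h2, mul_one]
        rw [h3, pow_two, negOne_sq]
    · intro x hx
      obtain ⟨y, hy, hxy⟩ := hle (show fc g x ∈ P from hx)
      rw [fc_eq_iff] at hxy
      rcases hxy with rfl | rfl
      · exact hy
      · exact (CS (e8 none)).mul_mem (negOne_mem_CS _) hy
    · intro x hx y hy
      rw [Subgroup.mem_comap] at hy ⊢
      rw [map_mul, map_mul, map_inv]
      exact hn _ ⟨x, hx, rfl⟩ _ hy
  intro x hx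
  obtain ⟨y, rfl⟩ := fc_surj g x
  exact ⟨y, h1 hx, rfl⟩

theorem Sg_map_card_le (g : Co0) : Nat.card (Sg.map (fc g)) ≤ 2048 := by
  have hfin : {c : Finset GolayPt | c ∈ GC ∧ (none : GolayPt) ∉ c}.Finite := Set.toFinite _
  let F : {c : Finset GolayPt // c ∈ GC ∧ (none : GolayPt) ∉ c} → Sg.map (fc g) := fun c =>
    ⟨fc g (sgEl c.1 c.2.1), ⟨_, ⟨c.1, c.2.1, rfl⟩, rfl⟩⟩
  have hF : Function.Surjective F := by
    rintro ⟨_, _, ⟨c, hc, rfl⟩, rfl⟩
    by_cases hn : (none : GolayPt) ∈ c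
    · refine ⟨⟨cᶜ, GC_compl hc, by simpa using hn⟩, ?_⟩
      apply Subtype.ext
      show fc g (sgEl cᶜ (GC_compl hc)) = fc g (sgEl c hc)
      rw [fc_eq_iff]
      right
      show sgEl c hc = sgEl Finset.univ GC_univ * sgEl cᶜ (GC_compl hc)
      rw [sg_mul]
      congr 1
      ext i
      simp [Finset.mem_symmDiff]
    · exact ⟨⟨c, hc, hn⟩, rfl⟩
  have h1 := Nat.card_le_card_of_surjective F hF
  have h2 : Nat.card {c : Finset GolayPt // c ∈ GC ∧ (none : GolayPt) ∉ c} = 2048 := card_GC_none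
  rw [h2] at h1
  exact h1

theorem Sg_map_sq (g : Co0) {x : Co1Q} (hx : x ∈ Sg.map (fc g)) : x * x = 1 := by
  obtain ⟨_, ⟨c, hc, rfl⟩, rfl⟩ := hx
  rw [← map_mul, sgEl_sq, map_one]

theorem Sg_map_comm (g : Co0) {x y : Co1Q} (hx : x ∈ Sg.map (fc g)) (hy : y ∈ Sg.map (fc g)) :
    x * y = y * x := by
  obtain ⟨_, ⟨c, hc, rfl⟩, rfl⟩ := hx
  obtain ⟨_, ⟨d, hd, rfl⟩, rfl⟩ := hy
  rw [← map_mul, ← map_mul, sg_mul, sg_mul]
  congr 2
  exact symmDiff_comm c d

/-- the complement -/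
def KM (g : Co0) : Subgroup Co1Q := pmHom.range.map (fc g)

theorem KM_equiv (g : Co0) : Nonempty (KM g ≃* M24) := by
  have hinj : Function.Injective ((fc g).comp pmHom) := by
    intro σ τ h
    have h1 : fc g (pmHom σ) = fc g (pmHom τ) := h
    rw [fc_eq_iff] at h1
    rcases h1 with h1 | h1
    · exact (pmHom_injective h1).symm
    · exfalso
      have h2 : sgEl ∅ GC_empty * pmEl (τ : Equiv.Perm GolayPt) τ.2 =
          sgEl Finset.univ GC_univ * pmEl (σ : Equiv.Perm GolayPt) σ.2 := by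
        rw [sgEl_empty, one_mul]
        exact h1
      have h3 := (sg_pm_inj h2).2
      have h4 : (none : GolayPt) ∈ (∅ : Finset GolayPt) := by rw [h3]; exact Finset.mem_univ _
      simp at h4
  have e : KM g = ((fc g).comp pmHom).range := by
    unfold KM
    rw [MonoidHom.range_comp]
  rw [e]
  exact ⟨(MonoidHom.ofInjective hinj).symm⟩

theorem KM_le {v : leechLattice} {g : Co0} (h : g • v = e8 none) : KM g ≤ (CS v).map cq := by
  rw [CS_map_eq h]
  rintro _ ⟨_, ⟨σ, rfl⟩, rfl⟩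
  exact ⟨_, pmEl_mono σ.2, rfl⟩

theorem Sg_le {v : leechLattice} {g : Co0} (h : g • v = e8 none) :
    Sg.map (fc g) ≤ (CS v).map cq := by
  rw [CS_map_eq h]
  rintro _ ⟨_, ⟨c, hc, rfl⟩, rfl⟩
  exact ⟨_, sgEl_mono hc, rfl⟩

theorem Sg_inf_KM (g : Co0) : Sg.map (fc g) ⊓ KM g = ⊥ := by
  rw [Subgroup.eq_bot_iff_forall]
  rintro x ⟨⟨_, ⟨c, hc, rfl⟩, rfl⟩, ⟨_, ⟨σ, rfl⟩, h⟩⟩
  have h : fc g (pmHom σ) = fc g (sgEl c hc) := h
  rw [fc_eq_iff] at h
  have h1 : σ = 1 := by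
    rcases h with h | h
    · have h2 : sgEl c hc * pmEl 1 M24.one_mem = sgEl ∅ GC_empty * pmEl (σ : Equiv.Perm GolayPt) σ.2 := by
        rw [pmEl_one, mul_one, sgEl_empty, one_mul]
        exact h
      exact Subtype.ext (sg_pm_inj h2).1.symm
    · have h2 : sgEl c hc * pmEl 1 M24.one_mem = sgEl Finset.univ GC_univ * pmEl (σ : Equiv.Perm GolayPt) σ.2 := by
        rw [pmEl_one, mul_one]
        exact h
      exact Subtype.ext (sg_pm_inj h2).1.symm
  rw [h1, map_one, mul_one] at h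
  rcases h with h | h
  · rw [h, map_one]
  · rw [h, fc_apply, ← mul_one (g⁻¹ * negOne * g)]
    have : g⁻¹ * negOne * g = negOne := by
      rw [negOne_comm]; group
    rw [this, cq_negOne, map_one]

theorem Sg_sup_KM {v : leechLattice} {g : Co0} (h : g • v = e8 none) :
    Sg.map (fc g) ⊔ KM g = (CS v).map cq := by
  apply le_antisymm
  · exact sup_le (Sg_le h) (KM_le h)
  · rw [CS_map_eq h]
    rintro _ ⟨x, hx, rfl⟩
    obtain ⟨σ, hσ, c, hc, rfl⟩ := mono_form (mem_CS_e8.1 hx)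
    rw [map_mul]
    exact Subgroup.mul_mem_sup ⟨_, ⟨c, hc, rfl⟩, rfl⟩ ⟨_, ⟨⟨σ, hσ⟩, rfl⟩, rfl⟩

end Cfsg.Agent.H29
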