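import Cfsg.Agent.H29.McLConf
import Cfsg.Agent.H7.Conway10
import Cfsg.Agent.H29.CoPairs
import Cfsg.Agent.H29.Trans2

/-!
The McLaughlin configuration: moving vectors into standard position.
-/
set_option autoImplicit false

namespace Cfsg.Agent.H29
open Cfsg Cfsg.Agent.H7
open scoped Pointwise

theorem Enm.ex {A : Set (Finset GolayPt)} {L : List ℕ} (h : Enm A L) {ins outs : List ℕ} {ims : List (ℕ × ℕ)}
    (hi : (ins ++ outs).all (fun i => Nat.blt i 24) = true) {ms : List ℕ} {k : ℕ}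
    (hd : (L.all fun n => bif cp ins outs ims n then ms.any (fun m => cp [] [] [(m, k)] n) else true) = true)
    {s : Finset GolayPt} (hs : s ∈ A) (hP : CP ins outs ims s) : ∃ m ∈ ms, (toSet m ∩ s).card = k := by
  obtain ⟨n, hn, rfl⟩ := h.all s hs
  have h1 := List.all_eq_true.1 hd n hn
  rw [(cp_iff hi).1 hP, cond_true, List.any_eq_true] at h1
  obtain ⟨m, hm, h2⟩ := h1
  have h3 := (cp_iff (by decide)).2 h2
  exact ⟨m, hm, h3.2.2 (m, k) (by simp)⟩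

/-- test for octads containing given points -/
def octB (ins : List ℕ) (m : ℕ) : Bool := isCW m && (Nat.beq (popc m) 8 && cp ins [] [] m)

theorem octB_spec {ins : List ℕ} {m : ℕ} (hi : ins.all (fun i => Nat.blt i 24) = true) (h : octB ins m = true) :
    toSet m ∈ octads ∧ ∀ i ∈ ins, gpt i ∈ toSet m := by
  unfold octB at h
  rw [Bool.and_eq_true, Bool.and_eq_true] at h
  refine ⟨⟨mem_GC_mask.mpr ⟨m, h.1, rfl⟩, ?_⟩, ?_⟩
  · rw [card_toSet]; exact Nat.eq_of_beq_eq_true h.2.1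
  · exact ((cp_iff (by rw [List.append_nil]; exact hi)).2 h.2.2).1

theorem oct3a {o : Finset GolayPt} (ho : o ∈ octads) (h23 : gpt 23 ∈ o) (h0 : gpt 0 ∉ o) :
    ∃ O ∈ octads, gpt 23 ∈ O ∧ gpt 0 ∈ O ∧ (O ∩ o).card = 2 := by
  obtain ⟨m, hm, h⟩ := enm_oct.ex (ins := [23]) (outs := [0]) (ims := []) (by decide)
    (ms := [13062145, 11575377, 8536111, 8716939]) (k := 2) (by decide +kernel) ho
    ⟨by simpa using h23, by simpa using h0, by simp⟩
  have h1 := octB_spec (ins := [23, 0]) (by decide)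
    (List.all_eq_true.1 (show ([13062145, 11575377, 8536111, 8716939].all (octB [23, 0])) = true by decide +kernel) m hm)
  exact ⟨_, h1.1, h1.2 23 (by simp), h1.2 0 (by simp), h⟩

theorem oct3b {o : Finset GolayPt} (ho : o ∈ octads) (h23 : gpt 23 ∈ o) (h0 : gpt 0 ∉ o) (h1 : gpt 1 ∉ o) :
    ∃ O ∈ octads, gpt 23 ∈ O ∧ gpt 0 ∈ O ∧ gpt 1 ∈ O ∧ (O ∩ o).card = 2 := by
  obtain ⟨m, hm, h⟩ := enm_oct.ex (ins := [23]) (outs := [0, 1]) (ims := []) (by decide)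
    (ms := [9347075, 14716939, 12656663, 8536111]) (k := 2) (by decide +kernel) ho
    ⟨by simpa using h23, by simpa using ⟨h0, h1⟩, by simp⟩
  have h1 := octB_spec (ins := [23, 0, 1]) (by decide)
    (List.all_eq_true.1 (show ([9347075, 14716939, 12656663, 8536111].all (octB [23, 0, 1])) = true by decide +kernel) m hm)
  exact ⟨_, h1.1, h1.2 23 (by simp), h1.2 0 (by simp), h1.2 1 (by simp), h⟩

theorem oct3c {o : Finset GolayPt} (ho : o ∈ octads) (h23 : gpt 23 ∈ o) (h0 : gpt 0 ∉ o) (h1 : gpt 1 ∈ o) :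
    ∃ O ∈ octads, gpt 23 ∈ O ∧ gpt 0 ∈ O ∧ gpt 1 ∈ O ∧ (O ∩ o).card = 4 := by
  obtain ⟨m, hm, h⟩ := enm_oct.ex (ins := [23, 1]) (outs := [0]) (ims := []) (by decide)
    (ms := [9347075, 14716939, 8421811]) (k := 4) (by decide +kernel) ho
    ⟨by simpa using ⟨h23, h1⟩, by simpa using h0, by simp⟩
  have h1 := octB_spec (ins := [23, 0, 1]) (by decide)
    (List.all_eq_true.1 (show ([9347075, 14716939, 8421811].all (octB [23, 0, 1])) = true by decide +kernel) m hm)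
  exact ⟨_, h1.1, h1.2 23 (by simp), h1.2 0 (by simp), h1.2 1 (by simp), h⟩

/-- changing the frame -/
theorem frame_w {w : leechLattice} (hw : bL w w = 4) (h2 : bL w t2 = 0) (h3 : bL w t3 = 2) :
    ∃ g : Co0, g • t3 = t3 ∧ g • t2 = t2 ∧ ∀ x ∈ X275,
      (bL w x = 2 → ∃ i, i ≠ gpt 23 ∧ i ≠ gpt 0 ∧ g • x = pp (gpt 23) i) ∧
      (bL w x = 0 → ∃ o, ∃ ho : o ∈ octads, gpt 23 ∈ o ∧ gpt 0 ∈ o ∧ g • x = twoV o ho) := by
  have n2 := bL_t2_t2
  have n23 : bL t3 t2 = 3 := by rw [bL_comm]; exact t2_mem_V552.2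
  have h2' : bL t2 w = 0 := by rw [bL_comm]; exact h2
  have h3' : bL t3 w = 2 := by rw [bL_comm]; exact h3
  obtain ⟨g, g1, g2, g3⟩ := frame_norm (t2 + w) (t2 - w) t3 (-w)
    (by rw [bL_add, bL_add_right, bL_add_right, n2, hw, h2, h2']; norm_num)
    (by rw [bL_sub, bL_sub_right, bL_sub_right, n2, hw, h2, h2']; norm_num)
    (by rw [bL_add, bL_sub_right, bL_sub_right, n2, hw, h2, h2']; norm_num)
    (by rw [two_smul]; abel)
    t3_norm
    (by rw [bL_add_right, n23, h3']; norm_num)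
    (by rw [bL_sub_right, n23, h3']; norm_num)
  have g4 : g • t2 = t2 := by
    apply two_inj
    have e : (2 : ℤ) • t2 = (t2 + w) + (t2 - w) := by rw [two_smul]; abel
    calc (2 : ℤ) • (g • t2) = g • ((2 : ℤ) • t2) := (co0_zsmul g 2 t2).symm
      _ = g • (t2 + w) + g • (t2 - w) := by rw [e, co0_add]
      _ = (2 : ℤ) • t2 := by rw [g1, g2, two_t2]
  refine ⟨g, g3, g4, fun x hx => ?_⟩
  have hgx : g • x ∈ X275 := by
    refine ⟨⟨by rw [co0_bL]; exact hx.1.1, ?_⟩, ?_⟩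
    · rw [← g3, co0_bL]; exact hx.1.2
    · rw [← g4, co0_bL]; exact hx.2
  have e23 : ((g • x : leechLattice) : GolayPt → ℤ) (gpt 23) = 2 + bL w x := by
    rw [← bL_e8, ← g1, co0_bL, bL_add_right, bL_comm x t2, hx.2, bL_comm x w]
  have hne := g23_ne_g0
  rcases X275_iff.1 hgx with ⟨i, a, b, c⟩ | ⟨o, ho, a, b, c⟩ | ⟨o, ho, a, b, c⟩ | ⟨j, -, h, -⟩
  · refine ⟨fun _ => ⟨i, a, b, coe_four c⟩, fun h => ?_⟩
    rw [val_four c, if_pos rfl, if_neg (Ne.symm a), h] at e23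
    omega
  · refine ⟨fun h => ?_, fun _ => ⟨o, ho, a, b, coe_twoV ho c⟩⟩
    rw [val_two c, if_pos a, h] at e23
    omega
  · have e : ((g • x : leechLattice) : GolayPt → ℤ) (gpt 23) = 3 := by
      rw [c, oddv_apply', if_pos a, if_pos rfl]; norm_num
    rw [e] at e23
    exact ⟨fun h => by omega, fun h => by omega⟩
  · exact h.elim

theorem exists_ne4 {s : Finset GolayPt} (h : 5 ≤ s.card) (a b c d : GolayPt) :
    ∃ j ∈ s, j ≠ a ∧ j ≠ b ∧ j ≠ c ∧ j ≠ d := by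
  have h4 : ({a, b, c, d} : Finset GolayPt).card ≤ 4 := Finset.card_le_four
  obtain ⟨j, h1, h2⟩ := Finset.exists_mem_notMem_of_card_lt_card (s := {a, b, c, d}) (t := s) (by omega)
  simp only [Finset.mem_insert, Finset.mem_singleton, not_or] at h2
  exact ⟨j, h1, h2⟩

theorem oct_cover : ∀ p : GolayPt, ∃ m ∈ ([9347075, 14716939, 8421811, 9471495, 8505411] : List ℕ), p ∈ toSet m := by decide +kernel

theorem oct_through (p : GolayPt) : ∃ O ∈ octads, gpt 23 ∈ O ∧ gpt 0 ∈ O ∧ gpt 1 ∈ O ∧ p ∈ O := by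
  obtain ⟨m, hm, h⟩ := oct_cover p
  have h1 := octB_spec (ins := [23, 0, 1]) (by decide)
    (List.all_eq_true.1 (show (([9347075, 14716939, 8421811, 9471495, 8505411] : List ℕ).all (octB [23, 0, 1])) = true by decide +kernel) m hm)
  exact ⟨_, h1.1, h1.2 23 (by simp), h1.2 0 (by simp), h1.2 1 (by simp), h⟩

theorem ww_pp {O : Finset GolayPt} (hO : O ∈ octads) {i j : GolayPt} (h23 : gpt 23 ∈ O) (hi : i ∈ O)
    (hj : j ≠ gpt 23) (hji : j ≠ i) (hi0 : i ≠ gpt 0) : bL (ww O hO j) (pp (gpt 23) i) = 2 := by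
  have h := two_bL_pp (ww O hO j) (gpt 23) i
  rw [ww_val, ww_val, if_pos h23, if_pos hi, if_neg g23_ne_g0, if_neg (Ne.symm hj), if_neg hi0,
    if_neg (Ne.symm hji)] at h
  omega

theorem ww_two {O : Finset GolayPt} (hO : O ∈ octads) {j : GolayPt} {y : leechLattice}
    (hy : (y : GolayPt → ℤ) = (2 : ℤ) • ind O) (h0 : gpt 0 ∈ O) (hj : j ∈ O) : bL (ww O hO j) y = 2 := by
  have h := ww_bL hO j y
  rw [sum_two hy, Finset.inter_self, (mem_octads.1 hO).2, val_two hy, val_two hy, if_pos h0, if_pos hj] at h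
  norm_num at h
  omega

theorem ww_odd {O o : Finset GolayPt} (hO : O ∈ octads) {j : GolayPt} {y : leechLattice}
    (hy : (y : GolayPt → ℤ) = oddv o (gpt 23)) (h23 : gpt 23 ∈ O) (h : gpt 23 ∈ o) (h0 : gpt 0 ∉ o)
    (hj : j ≠ gpt 23) :
    8 * bL (ww O hO j) y = 20 - 4 * ((O ∩ o).card : ℤ) + (if j ∈ o then 4 else -4) := by
  have h1 := ww_bL hO j y
  rw [sum_odd hy h23 h, (mem_octads.1 hO).2, hy, oddv_apply', oddv_apply', if_neg h0,
    if_neg (Ne.symm g23_ne_g0), if_neg hj] at h1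
  rw [h1]
  by_cases hjo : j ∈ o
  · rw [if_pos hjo, if_pos hjo]; push_cast; ring
  · rw [if_neg hjo, if_neg hjo]; push_cast; ring

theorem exists_mem_ne {s : Finset GolayPt} (h : 2 ≤ s.card) (a : GolayPt) : ∃ p ∈ s, p ≠ a := by
  obtain ⟨p, h1, h2⟩ := Finset.exists_mem_notMem_of_card_lt_card (s := {a}) (t := s)
    (by rw [Finset.card_singleton]; omega)
  exact ⟨p, h1, fun e => h2 (Finset.mem_singleton.2 e)⟩

theorem exists_w1 {x : leechLattice} (hx : x ∈ X275) :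
    ∃ w : leechLattice, bL w w = 4 ∧ bL w t2 = 0 ∧ bL w t3 = 2 ∧ bL w x = 2 := by
  rcases X275_iff.1 hx with ⟨i, a, b, c⟩ | ⟨o, ho, a, b, c⟩ | ⟨o, ho, a, b, c⟩ | ⟨j, -, h, -⟩
  · obtain ⟨O, hO, h23, h0, h1, hi⟩ := oct_through i
    obtain ⟨j, hj, j23, j0, ji, -⟩ := exists_ne4 (s := O) (by rw [(mem_octads.1 hO).2]; norm_num)
      (gpt 23) (gpt 0) i i
    refine ⟨ww O hO j, ww_norm hO h23 h0 hj j23 j0, ww_t2 hO h23 h0 hj j23 j0, ww_t3 hO h23 h0 hj j23 j0, ?_⟩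
    rw [coe_four c]
    exact ww_pp hO h23 hi j23 ji b
  · obtain ⟨j, hj, j23, j0, -, -⟩ := exists_ne4 (s := o) (by rw [(mem_octads.1 ho).2]; norm_num)
      (gpt 23) (gpt 0) (gpt 0) (gpt 0)
    exact ⟨ww o ho j, ww_norm ho a b hj j23 j0, ww_t2 ho a b hj j23 j0, ww_t3 ho a b hj j23 j0, ww_two ho c b hj⟩
  · obtain ⟨O, hO, h23, h0, hc⟩ := oct3a ho a b
    obtain ⟨j, hj, j23⟩ := exists_mem_ne (s := O ∩ o) hc.ge (gpt 23)
    have hjO := (Finset.mem_inter.1 hj).1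
    have hjo := (Finset.mem_inter.1 hj).2
    have j0 : j ≠ gpt 0 := fun e => b (e ▸ hjo)
    refine ⟨ww O hO j, ww_norm hO h23 h0 hjO j23 j0, ww_t2 hO h23 h0 hjO j23 j0,
      ww_t3 hO h23 h0 hjO j23 j0, ?_⟩
    have h := ww_odd hO c h23 a b j23
    rw [hc, if_pos hjo] at h
    norm_num at h
    omega
  · exact h.elim

/-- the base point -/
def x1 : leechLattice := pp (gpt 23) (gpt 1)

theorem g1_ne : gpt 1 ≠ gpt 23 ∧ gpt 1 ≠ gpt 0 := by decide +kernel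

theorem bL_x1_four {y : leechLattice} {i : GolayPt} (hi : i ≠ gpt 23) (hy : (y : GolayPt → ℤ) = (4 : ℤ) • (ind {gpt 23} + ind {i})) :
    2 * bL x1 y = 4 + (if gpt 1 = i then 4 else 0) := by
  rw [bL_comm]
  show 2 * bL y (pp (gpt 23) (gpt 1)) = _
  rw [two_bL_pp, val_four hy, val_four hy, if_pos rfl, if_neg (Ne.symm hi), if_neg g1_ne.1]
  split_ifs <;> norm_num

theorem bL_x1_two {y : leechLattice} {o : Finset GolayPt} (h23 : gpt 23 ∈ o) (hy : (y : GolayPt → ℤ) = (2 : ℤ) • ind o) :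
    bL x1 y = 1 + (if gpt 1 ∈ o then 1 else 0) := by
  have h : 2 * bL x1 y = 2 * (1 + (if gpt 1 ∈ o then 1 else 0)) := by
    rw [bL_comm]
    show 2 * bL y (pp (gpt 23) (gpt 1)) = _
    rw [two_bL_pp, val_two hy, val_two hy, if_pos h23]
    ring
  linarith

theorem bL_x1_odd {y : leechLattice} {o : Finset GolayPt} (h23 : gpt 23 ∈ o) (hy : (y : GolayPt → ℤ) = oddv o (gpt 23)) :
    bL x1 y = 1 + (if gpt 1 ∈ o then 0 else 1) := by
  have h : 2 * bL x1 y = 2 * (1 + (if gpt 1 ∈ o then 0 else 1)) := by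
    rw [bL_comm]
    show 2 * bL y (pp (gpt 23) (gpt 1)) = _
    rw [two_bL_pp, hy, oddv_apply', oddv_apply', if_pos h23, if_pos rfl, if_neg g1_ne.1]
    split_ifs <;> norm_num
  linarith

theorem x1_mem : x1 ∈ X275 := X275_iff.2 (Or.inl ⟨gpt 1, g1_ne.1, g1_ne.2, pp_coe _ _⟩)

theorem exists_w2 {y : leechLattice} (hy : y ∈ X275) (h2 : bL x1 y = 2) :
    ∃ w : leechLattice, bL w w = 4 ∧ bL w t2 = 0 ∧ bL w t3 = 2 ∧ bL w x1 = 2 ∧ bL w y = 2 := by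
  rcases X275_iff.1 hy with ⟨i, a, b, c⟩ | ⟨o, ho, a, b, c⟩ | ⟨o, ho, a, b, c⟩ | ⟨j, -, h, -⟩
  · obtain ⟨O, hO, h23, h0, h1, hi⟩ := oct_through i
    obtain ⟨j, hj, j23, j0, ji, j1⟩ := exists_ne4 (s := O) (by rw [(mem_octads.1 hO).2]; norm_num)
      (gpt 23) (gpt 0) i (gpt 1)
    refine ⟨ww O hO j, ww_norm hO h23 h0 hj j23 j0, ww_t2 hO h23 h0 hj j23 j0, ww_t3 hO h23 h0 hj j23 j0,
      ww_pp hO h23 h1 j23 j1 g1_ne.2, ?_⟩
    rw [coe_four c]
    exact ww_pp hO h23 hi j23 ji b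
  · have h1 : gpt 1 ∈ o := by
      by_contra h
      rw [bL_x1_two a c, if_neg h] at h2
      norm_num at h2
    obtain ⟨j, hj, j23, j0, j1, -⟩ := exists_ne4 (s := o) (by rw [(mem_octads.1 ho).2]; norm_num)
      (gpt 23) (gpt 0) (gpt 1) (gpt 0)
    exact ⟨ww o ho j, ww_norm ho a b hj j23 j0, ww_t2 ho a b hj j23 j0, ww_t3 ho a b hj j23 j0,
      ww_pp ho a h1 j23 j1 g1_ne.2, ww_two ho c b hj⟩
  · have h1 : gpt 1 ∉ o := by
      intro h
      rw [bL_x1_odd a c, if_pos h] at h2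
      norm_num at h2
    obtain ⟨O, hO, h23, h0, h1O, hc⟩ := oct3b ho a b h1
    obtain ⟨j, hj, j23⟩ := exists_mem_ne (s := O ∩ o) hc.ge (gpt 23)
    have hjO := (Finset.mem_inter.1 hj).1
    have hjo := (Finset.mem_inter.1 hj).2
    have j0 : j ≠ gpt 0 := fun e => b (e ▸ hjo)
    have j1 : j ≠ gpt 1 := fun e => h1 (e ▸ hjo)
    refine ⟨ww O hO j, ww_norm hO h23 h0 hjO j23 j0, ww_t2 hO h23 h0 hjO j23 j0,
      ww_t3 hO h23 h0 hjO j23 j0, ww_pp hO h23 h1O j23 j1 g1_ne.2, ?_⟩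
    have h := ww_odd hO c h23 a b j23
    rw [hc, if_pos hjo] at h
    norm_num at h
    omega
  · exact h.elim

theorem exists_w3 {y : leechLattice} {o : Finset GolayPt} (ho : o ∈ octads) (a : gpt 23 ∈ o) (b : gpt 0 ∉ o)
    (c : (y : GolayPt → ℤ) = oddv o (gpt 23)) (h1 : bL x1 y = 1) :
    ∃ w : leechLattice, bL w w = 4 ∧ bL w t2 = 0 ∧ bL w t3 = 2 ∧ bL w x1 = 2 ∧ bL w y = 0 := by
  have h1 : gpt 1 ∈ o := by
    by_contra h
    rw [bL_x1_odd a c, if_neg h] at h1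
    norm_num at h1
  obtain ⟨O, hO, h23, h0, h1O, hc⟩ := oct3c ho a b h1
  have hcard : 2 ≤ (O \ o).card := by
    have := Finset.card_sdiff_add_card_inter O o
    rw [(mem_octads.1 hO).2] at this
    omega
  obtain ⟨j, hj, j0⟩ := exists_mem_ne hcard (gpt 0)
  have hjO := (Finset.mem_sdiff.1 hj).1
  have hjo := (Finset.mem_sdiff.1 hj).2
  have j23 : j ≠ gpt 23 := fun e => hjo (e ▸ a)
  have j1 : j ≠ gpt 1 := fun e => hjo (e ▸ h1)
  refine ⟨ww O hO j, ww_norm hO h23 h0 hjO j23 j0, ww_t2 hO h23 h0 hjO j23 j0,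
    ww_t3 hO h23 h0 hjO j23 j0, ww_pp hO h23 h1O j23 j1 g1_ne.2, ?_⟩
  have h := ww_odd hO c h23 a b j23
  rw [hc, if_neg hjo] at h
  norm_num at h
  omega

theorem two_pp (i j : GolayPt) : (2 : ℤ) • pp i j = e8 i + e8 j := by
  apply Subtype.ext
  funext k
  show 2 * (pp i j : GolayPt → ℤ) k = (e8 i : GolayPt → ℤ) k + (e8 j : GolayPt → ℤ) k
  rw [pp_coe, e8_apply, e8_apply]
  show 2 * (4 * (ind {i} k + ind {j} k)) = _
  rw [ind_single, ind_single]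
  split_ifs <;> norm_num

theorem pmEl_pp {σ : Equiv.Perm GolayPt} (hσ : σ ∈ M24) (i j : GolayPt) : pmEl σ hσ • pp i j = pp (σ i) (σ j) := by
  apply two_inj
  rw [← co0_zsmul, two_pp, two_pp, co0_add, pmEl_e8, pmEl_e8]

theorem pmEl_fix {σ : Equiv.Perm GolayPt} (hσ : σ ∈ M24) (h1 : σ (gpt 23) = gpt 23) (h2 : σ (gpt 0) = gpt 0) :
    pmEl σ hσ • t3 = t3 ∧ pmEl σ hσ • t2 = t2 :=
  ⟨(pm_std hσ h1 h2).1, (pm_std hσ h1 h2).2.1⟩

theorem to_x1 {x : leechLattice} (hx : x ∈ X275) : ∃ g : Co0, g • t3 = t3 ∧ g • t2 = t2 ∧ g • x = x1 := by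
  obtain ⟨w, w1, w2, w3, w4⟩ := exists_w1 hx
  obtain ⟨g, g1, g2, g3⟩ := frame_w w1 w2 w3
  obtain ⟨i, a, b, c⟩ := (g3 x hx).1 w4
  obtain ⟨σ, hσ, h1, h2, h3⟩ := M24_to_triple a b
  obtain ⟨k1, k2⟩ := pmEl_fix hσ h1 h2
  refine ⟨pmEl σ hσ * g, ?_, ?_, ?_⟩
  · rw [mul_smul, g1, k1]
  · rw [mul_smul, g2, k2]
  · rw [mul_smul, c, pmEl_pp, h1, h3]; rfl

theorem inj4 {a b c d : GolayPt} (h1 : a ≠ b) (h2 : a ≠ c) (h3 : a ≠ d) (h4 : b ≠ c) (h5 : b ≠ d) (h6 : c ≠ d) :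
    Function.Injective ![a, b, c, d] := by
  intro x y hab
  fin_cases x <;> fin_cases y <;> simp_all [eq_comm]

theorem inj2' {a b : GolayPt} (h1 : a ≠ b) : Function.Injective ![a, b] := by
  intro x y hab
  fin_cases x <;> fin_cases y <;> simp_all [eq_comm]

theorem pp_inj {i i' : GolayPt} (hi : i ≠ gpt 23) (h : pp (gpt 23) i = pp (gpt 23) i') : i = i' := by
  have h1 : (pp (gpt 23) i : GolayPt → ℤ) i = (pp (gpt 23) i' : GolayPt → ℤ) i := by rw [h]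
  rw [val_four (pp_coe _ _), val_four (pp_coe _ _), if_neg hi, if_pos rfl] at h1
  by_contra hne
  rw [if_neg hne] at h1
  norm_num at h1

theorem to_x1x2 {y : leechLattice} (hy : y ∈ X275) (hne : y ≠ x1) (h2 : bL x1 y = 2) :
    ∃ g : Co0, g • (t3, t2, x1) = (t3, t2, x1) ∧ g • y = pp (gpt 23) (gpt 2) := by
  obtain ⟨w, w1, w2, w3, w4, w5⟩ := exists_w2 hy h2
  obtain ⟨g, g1, g2, g3⟩ := frame_w w1 w2 w3
  obtain ⟨i, a, b, c⟩ := (g3 x1 x1_mem).1 w4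
  obtain ⟨i', a', b', c'⟩ := (g3 y hy).1 w5
  have hii : i ≠ i' := by
    intro e
    apply hne
    rw [e, ← c'] at c
    exact (smul_left_cancel g c).symm
  obtain ⟨σ, hσ, h⟩ := M24_mapn (n := 4) (by norm_num) ![gpt 23, gpt 0, i, i'] ![gpt 23, gpt 0, gpt 1, gpt 2]
    (inj4 g23_ne_g0 (Ne.symm a) (Ne.symm a') (Ne.symm b) (Ne.symm b') hii)
    (inj4 (by decide +kernel) (by decide +kernel) (by decide +kernel) (by decide +kernel) (by decide +kernel)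
      (by decide +kernel))
  have h0 : σ (gpt 23) = gpt 23 := h 0
  have h1 : σ (gpt 0) = gpt 0 := h 1
  have h2 : σ i = gpt 1 := h 2
  have h3 : σ i' = gpt 2 := h 3
  obtain ⟨k1, k2⟩ := pmEl_fix hσ h0 h1
  refine ⟨pmEl σ hσ * g, ?_, ?_⟩
  · refine Prod.ext ?_ (Prod.ext ?_ ?_)
    · show (pmEl σ hσ * g) • t3 = t3
      rw [mul_smul, g1, k1]
    · show (pmEl σ hσ * g) • t2 = t2
      rw [mul_smul, g2, k2]
    · show (pmEl σ hσ * g) • x1 = x1
      rw [mul_smul, c, pmEl_pp, h0, h2]; rfl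
  · rw [mul_smul, c', pmEl_pp, h0, h3]

theorem oS_oct : toSet 13062145 ∈ octads ∧ gpt 23 ∈ toSet 13062145 ∧ gpt 0 ∈ toSet 13062145 ∧
    gpt 1 ∉ toSet 13062145 :=
  ⟨(octB_spec (ins := [23, 0]) (m := 13062145) (by decide) (by decide +kernel)).1, by decide +kernel,
    by decide +kernel, by decide +kernel⟩

theorem to_std1 {y : leechLattice} (hy : y ∈ X275) (h1 : bL x1 y = 1) :
    ∃ g : Co0, g • (t3, t2, x1) = (t3, t2, x1) ∧ g • y = twoV (toSet 13062145) oS_oct.1 := by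
  -- first make `y` of the second kind
  obtain ⟨g, g1, g2, i, a, b, c, o, ho, p, q, r⟩ : ∃ g : Co0, g • t3 = t3 ∧ g • t2 = t2 ∧ ∃ i, i ≠ gpt 23 ∧
      i ≠ gpt 0 ∧ g • x1 = pp (gpt 23) i ∧ ∃ o, ∃ ho : o ∈ octads, gpt 23 ∈ o ∧ gpt 0 ∈ o ∧ g • y = twoV o ho := by
    rcases X275_iff.1 hy with ⟨i, a, b, c⟩ | ⟨o, ho, a, b, c⟩ | ⟨o, ho, a, b, c⟩ | ⟨j, -, h, -⟩
    · have := bL_x1_four a c
      rw [h1] at this
      split_ifs at this <;> norm_num at this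
    · exact ⟨1, one_smul _ _, one_smul _ _, gpt 1, g1_ne.1, g1_ne.2, one_smul _ _, o, ho, a, b,
        by rw [one_smul]; exact coe_twoV ho c⟩
    · obtain ⟨w, w1, w2, w3, w4, w5⟩ := exists_w3 ho a b c h1
      obtain ⟨g, g1, g2, g3⟩ := frame_w w1 w2 w3
      obtain ⟨i, p, q, r⟩ := (g3 x1 x1_mem).1 w4
      obtain ⟨o', ho', p', q', r'⟩ := (g3 y hy).2 w5
      exact ⟨g, g1, g2, i, p, q, r, o', ho', p', q', r'⟩
    · exact h.elim
  have hi : i ∉ o := by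
    intro h
    have h3 : bL (g • x1) (g • y) = 1 := by rw [co0_bL]; exact h1
    rw [c, r, bL_comm] at h3
    have h4 := two_bL_pp (twoV o ho) (gpt 23) i
    rw [h3, twoV_apply, twoV_apply, if_pos p, if_pos h] at h4
    norm_num at h4
  obtain ⟨σ, hσ, k, k2, k3⟩ := oct_mapn_out (n := 2) (by norm_num) ![gpt 23, gpt 0] ![gpt 23, gpt 0]
    (inj2' g23_ne_g0) (inj2' g23_ne_g0) ho oS_oct.1
    (by intro i; fin_cases i; exacts [p, q]) (by intro i; fin_cases i; exacts [oS_oct.2.1, oS_oct.2.2.1]) hi oS_oct.2.2.2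
  have e0 : σ (gpt 23) = gpt 23 := k 0
  have e1 : σ (gpt 0) = gpt 0 := k 1
  obtain ⟨m1, m2⟩ := pmEl_fix hσ e0 e1
  refine ⟨pmEl σ hσ * g, ?_, ?_⟩
  · refine Prod.ext ?_ (Prod.ext ?_ ?_)
    · show (pmEl σ hσ * g) • t3 = t3
      rw [mul_smul, g1, m1]
    · show (pmEl σ hσ * g) • t2 = t2
      rw [mul_smul, g2, m2]
    · show (pmEl σ hσ * g) • x1 = x1
      rw [mul_smul, c, pmEl_pp, e0, k3]; rfl
  · rw [mul_smul, r, pm_twoV hσ ho]
    congr 1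

theorem n112a : {o : Finset GolayPt | o ∈ octads ∧ gpt 23 ∈ o ∧ (gpt 0 ∈ o ∧ gpt 1 ∉ o)}.ncard = 56 := by
  have h : {s | s ∈ octads ∧ CP [23, 0] [1] [] s}.ncard = 56 := enm_oct.countC (by decide) (by decide +kernel)
  rw [← h]
  congr 1
  ext s
  simp [CP, and_assoc]

theorem n112b : {o : Finset GolayPt | o ∈ octads ∧ gpt 23 ∈ o ∧ (gpt 0 ∉ o ∧ gpt 1 ∈ o)}.ncard = 56 := by
  have h : {s | s ∈ octads ∧ CP [23, 1] [0] [] s}.ncard = 56 := enm_oct.countC (by decide) (by decide +kernel)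
  rw [← h]
  congr 1
  ext s
  simp only [CP, Set.mem_ofPred_eq, List.mem_cons, List.not_mem_nil, or_false, forall_eq_or_imp, forall_eq,
    IsEmpty.forall_iff, implies_true, and_true]
  constructor
  · rintro ⟨p, q, r, s⟩; exact ⟨p, ⟨q, s⟩, r⟩
  · rintro ⟨p, ⟨q, s⟩, r⟩; exact ⟨p, q, r, s⟩

theorem n162a : {o : Finset GolayPt | o ∈ octads ∧ gpt 23 ∈ o ∧ (gpt 0 ∈ o ∧ gpt 1 ∈ o)}.ncard = 21 := by
  have h : {s | s ∈ octads ∧ CP [23, 0, 1] [] [] s}.ncard = 21 := enm_oct.countC (by decide) (by decide +kernel)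
  rw [← h]
  congr 1
  ext s
  simp [CP]

theorem n162b : {o : Finset GolayPt | o ∈ octads ∧ gpt 23 ∈ o ∧ (gpt 0 ∉ o ∧ gpt 1 ∉ o)}.ncard = 120 := by
  have h : {s | s ∈ octads ∧ CP [23] [0, 1] [] s}.ncard = 120 := enm_oct.countC (by decide) (by decide +kernel)
  rw [← h]
  congr 1
  ext s
  simp [CP]

theorem n21 : {j : GolayPt | j ≠ gpt 23 ∧ (j ≠ gpt 0 ∧ j ≠ gpt 1)}.ncard = 21 := by
  have e : {j : GolayPt | j ≠ gpt 23 ∧ (j ≠ gpt 0 ∧ j ≠ gpt 1)}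
      = ((((Finset.univ.erase (gpt 1)).erase (gpt 0)).erase (gpt 23) : Finset GolayPt) : Set GolayPt) := by
    ext j
    simp only [Set.mem_ofPred_eq, Finset.coe_erase, Finset.coe_univ, Set.mem_sdiff, Set.mem_univ, true_and,
      Set.mem_singleton_iff]
    constructor
    · rintro ⟨a, b, c⟩; exact ⟨⟨c, b⟩, a⟩
    · rintro ⟨⟨c, b⟩, a⟩; exact ⟨a, b, c⟩
  rw [e, Set.ncard_coe_finset]
  decide

theorem Y112 : {y : leechLattice | y ∈ X275 ∧ bL x1 y = 1}.ncard = 112 := by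
  have h := V552_ncard_aux (fun _ => False) (fun o => gpt 0 ∈ o ∧ gpt 1 ∉ o) (fun o => gpt 0 ∉ o ∧ gpt 1 ∈ o)
    (fun _ => False) {y : leechLattice | y ∈ X275 ∧ bL x1 y = 1} (fun x => by
      constructor
      · rintro ⟨h1, h2⟩
        rcases X275_iff.1 h1 with ⟨i, a, b, c⟩ | ⟨o, ho, a, b, c⟩ | ⟨o, ho, a, b, c⟩ | ⟨j, -, h, -⟩
        · exfalso
          have := bL_x1_four a c
          rw [h2] at this
          split_ifs at this <;> norm_num at this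
        · refine Or.inr (Or.inl ⟨o, ho, a, ⟨b, fun h => ?_⟩, c⟩)
          rw [bL_x1_two a c, if_pos h] at h2
          norm_num at h2
        · refine Or.inr (Or.inr (Or.inl ⟨o, ho, a, ⟨b, ?_⟩, c⟩))
          by_contra h
          rw [bL_x1_odd a c, if_neg h] at h2
          norm_num at h2
        · exact h.elim
      · rintro (⟨i, h1, h2, h3⟩ | ⟨o, ho, h1, h2, h3⟩ | ⟨o, ho, h1, h2, h3⟩ | ⟨j, h1, h2, h3⟩)
        · exact h2.elim
        · exact ⟨X275_iff.2 (Or.inr (Or.inl ⟨o, ho, h1, h2.1, h3⟩)), by rw [bL_x1_two h1 h3, if_neg h2.2]; norm_num⟩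
        · exact ⟨X275_iff.2 (Or.inr (Or.inr (Or.inl ⟨o, ho, h1, h2.1, h3⟩))),
            by rw [bL_x1_odd h1 h3, if_pos h2.2]; norm_num⟩
        · exact h2.elim)
  rw [h, n112a, n112b]
  simp

theorem Y162 : {y : leechLattice | y ∈ X275 ∧ y ≠ x1 ∧ bL x1 y = 2}.ncard = 162 := by
  have h := V552_ncard_aux (fun j => j ≠ gpt 0 ∧ j ≠ gpt 1) (fun o => gpt 0 ∈ o ∧ gpt 1 ∈ o)
    (fun o => gpt 0 ∉ o ∧ gpt 1 ∉ o)
    (fun _ => False) {y : leechLattice | y ∈ X275 ∧ y ≠ x1 ∧ bL x1 y = 2} (fun x => by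
      constructor
      · rintro ⟨h1, hne, h2⟩
        rcases X275_iff.1 h1 with ⟨i, a, b, c⟩ | ⟨o, ho, a, b, c⟩ | ⟨o, ho, a, b, c⟩ | ⟨j, -, h, -⟩
        · refine Or.inl ⟨i, a, ⟨b, fun h => ?_⟩, c⟩
          subst h
          exact hne (coe_four c)
        · refine Or.inr (Or.inl ⟨o, ho, a, ⟨b, ?_⟩, c⟩)
          by_contra h
          rw [bL_x1_two a c, if_neg h] at h2
          norm_num at h2
        · refine Or.inr (Or.inr (Or.inl ⟨o, ho, a, ⟨b, fun h => ?_⟩, c⟩))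
          rw [bL_x1_odd a c, if_pos h] at h2
          norm_num at h2
        · exact h.elim
      · have key : ∀ z : leechLattice, bL x1 z = 2 → z ≠ x1 := by
          intro z hz e
          rw [e, x1_mem.1.1] at hz
          norm_num at hz
        rintro (⟨i, h1, h2, h3⟩ | ⟨o, ho, h1, h2, h3⟩ | ⟨o, ho, h1, h2, h3⟩ | ⟨j, h1, h2, h3⟩)
        · have e : bL x1 x = 2 := by
            have := bL_x1_four h1 h3
            rw [if_neg (Ne.symm h2.2)] at this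
            omega
          exact ⟨X275_iff.2 (Or.inl ⟨i, h1, h2.1, h3⟩), key _ e, e⟩
        · have e : bL x1 x = 2 := by rw [bL_x1_two h1 h3, if_pos h2.2]; norm_num
          exact ⟨X275_iff.2 (Or.inr (Or.inl ⟨o, ho, h1, h2.1, h3⟩)), key _ e, e⟩
        · have e : bL x1 x = 2 := by rw [bL_x1_odd h1 h3, if_neg h2.2]; norm_num
          exact ⟨X275_iff.2 (Or.inr (Or.inr (Or.inl ⟨o, ho, h1, h2.1, h3⟩))), key _ e, e⟩
        · exact h2.elim)
  rw [h, n21, n162a, n162b]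
  simp

theorem X275_cases {y : leechLattice} (hy : y ∈ X275) (hne : y ≠ x1) : bL x1 y = 1 ∨ bL x1 y = 2 := by
  rcases X275_iff.1 hy with ⟨i, a, b, c⟩ | ⟨o, ho, a, b, c⟩ | ⟨o, ho, a, b, c⟩ | ⟨j, -, h, -⟩
  · have h := bL_x1_four a c
    rw [if_neg (fun e => hne (by rw [coe_four c, ← e]; rfl))] at h
    omega
  · rw [bL_x1_two a c]
    split_ifs <;> norm_num
  · rw [bL_x1_odd a c]
    split_ifs <;> norm_num
  · exact h.elim

end Cfsg.Agent.H29
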