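import Cfsg.Agent.S1568
import Cfsg.Agent.H29.McLConf2
import Cfsg.Agent.H29.Trans3
import Cfsg.Agent.H7.GolayM12

/-!
Subgroups of the Conway group containing the monomial group: orbit sizes.
-/
set_option autoImplicit false

namespace Cfsg.Agent.H29
open Cfsg Cfsg.Agent.H7
open Cfsg.Agent.S1568 (ind01 ind_one ind_zero ind_iff dcount par_ncard sg sg_cases sg_inj)
open scoped Pointwise

theorem ncard_fam {X ι : Type*} [DecidableEq ι] (Cl : ι → Set X) (hfin : ∀ i, (Cl i).Finite)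
    (hdisj : ∀ i j, i ≠ j → Disjoint (Cl i) (Cl j)) (T : Finset ι) :
    (⋃ i ∈ T, Cl i).ncard = ∑ i ∈ T, (Cl i).ncard := by
  induction T using Finset.induction_on with
  | empty => simp
  | insert a T ha ih =>
    have hfU : (⋃ i ∈ T, Cl i).Finite := Set.Finite.biUnion T.finite_toSet fun b _ => hfin b
    rw [Finset.set_biUnion_insert, Set.ncard_union_eq ?_ (hfin a) hfU, ih, Finset.sum_insert ha]
    rw [Set.disjoint_left]
    intro p hp h2
    rw [Set.mem_iUnion₂] at h2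
    obtain ⟨b, hb, hpb⟩ := h2
    exact Set.disjoint_left.1 (hdisj a b (fun e => ha (e ▸ hb))) hp hpb

/-- the orbit of a subgroup is a union of the given classes -/
theorem orbit_sizes {G X ι : Type*} [Group G] [MulAction G X] [Fintype ι] [DecidableEq ι] (K : Subgroup G) (x : X)
    (Cl : ι → Set X) (i0 : ι) (hfin : ∀ i, (Cl i).Finite) (hdisj : ∀ i j, i ≠ j → Disjoint (Cl i) (Cl j))
    (hinv : ∀ g ∈ K, ∃ j, g • x ∈ Cl j) (hx : x ∈ Cl i0)
    (htr : ∀ i, ∃ r, ∀ y ∈ Cl i, ∃ g ∈ K, g • y = r) :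
    ∃ T : Finset ι, i0 ∈ T ∧ (MulAction.orbit K x).ncard = ∑ i ∈ T, (Cl i).ncard := by
  classical
  refine ⟨Finset.univ.filter fun i => ∃ y ∈ Cl i, y ∈ MulAction.orbit K x, ?_, ?_⟩
  · rw [Finset.mem_filter]
    exact ⟨Finset.mem_univ _, x, hx, MulAction.mem_orbit_self _⟩
  · rw [← ncard_fam Cl hfin hdisj]
    congr 1
    ext y
    rw [Set.mem_iUnion₂]
    constructor
    · rintro ⟨g, rfl⟩
      obtain ⟨j, hj⟩ := hinv g g.2
      exact ⟨j, Finset.mem_filter.2 ⟨Finset.mem_univ _, _, hj, ⟨g, rfl⟩⟩, hj⟩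
    · rintro ⟨i, hi, hy⟩
      obtain ⟨-, z, hz, g, hg⟩ := Finset.mem_filter.1 hi
      obtain ⟨r, hr⟩ := htr i
      obtain ⟨g1, h1, e1⟩ := hr z hz
      obtain ⟨g2, h2, e2⟩ := hr y hy
      refine ⟨⟨g2, h2⟩⁻¹ * ⟨g1, h1⟩ * g, ?_⟩
      have hg' : (g : G) • x = z := hg
      show (g2⁻¹ * g1 * (g : G)) • x = y
      rw [mul_smul, mul_smul, hg', e1, ← e2, inv_smul_smul]

/-! ### even subsets of an octad -/

theorem pair_sub {o : Finset GolayPt} (ho : o ∈ octads) {p q : GolayPt} (hp : p ∈ o) (hq : q ∈ o) (hpq : p ≠ q) :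
    ∃ c ∈ GC, c ∩ o = {p, q} := by
  obtain ⟨σ, hσ, k, k2⟩ := oct_mapn (n := 2) (by norm_num) ![gpt 23, gpt 0] ![p, q]
    (inj2' g23_ne_g0) (inj2' hpq) oct0_octad ho
    (by intro i; fin_cases i; exacts [g23_oct0, g0_oct0]) (by intro i; fin_cases i; exacts [hp, hq])
  have e0 : σ (gpt 23) = p := k 0
  have e1 : σ (gpt 0) = q := k 1
  have hm : toSet 11575377 ∈ octads ∧ ∀ i ∈ ([] : List ℕ), gpt i ∈ toSet 11575377 := octB_spec (by decide) (by decide +kernel)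
  refine ⟨σ • toSet 11575377, M24_smul_mem hσ hm.1.1, ?_⟩
  have h : toSet 11575377 ∩ toSet oct0 = {gpt 23, gpt 0} := by decide +kernel
  rw [← k2, ← Finset.smul_finset_inter, h, Finset.smul_finset_insert, Finset.smul_finset_singleton]
  show insert (σ (gpt 23)) {σ (gpt 0)} = _
  rw [e0, e1]

theorem even_sub {o : Finset GolayPt} (ho : o ∈ octads) : ∀ D : Finset GolayPt, D ⊆ o → D.card % 2 = 0 →
    ∃ c ∈ GC, c ∩ o = D := by
  intro s
  induction s using Finset.strongInduction with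
  | H s ih =>
    intro hso he
    by_cases hs : s = ∅
    · exact ⟨∅, GC_empty, by rw [hs, Finset.empty_inter]⟩
    have hc : 1 < s.card := by
      have : s.card ≠ 0 := fun h' => hs (Finset.card_eq_zero.1 h')
      omega
    obtain ⟨c, hcs, d, hds, hcd⟩ := Finset.one_lt_card.1 hc
    have hsub : ({c, d} : Finset GolayPt) ⊆ s := by
      intro x hx
      rw [Finset.mem_insert, Finset.mem_singleton] at hx
      rcases hx with rfl | rfl <;> assumption
    have hcard : (s \ {c, d}).card = s.card - 2 := by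
      rw [Finset.card_sdiff_of_subset hsub, Finset.card_pair hcd]
    obtain ⟨c1, h1, h2⟩ := ih (s \ {c, d}) (Finset.ssubset_iff_subset_ne.2 ⟨Finset.sdiff_subset, by
      intro h'
      rw [h'] at hcard
      omega⟩) (Finset.sdiff_subset.trans hso) (by rw [hcard]; omega)
    obtain ⟨c2, h3, h4⟩ := pair_sub ho (hso hcs) (hso hds) hcd
    refine ⟨symmDiff c1 c2, GC_symmDiff h1 h3, ?_⟩
    ext x
    have e1 := Finset.ext_iff.1 h2 x
    have e2 := Finset.ext_iff.1 h4 x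
    have e3 := @hsub x
    simp only [Finset.mem_inter, Finset.mem_sdiff, Finset.mem_symmDiff] at e1 e2 ⊢
    have e4 := @hso x
    by_cases hx1 : x ∈ ({c, d} : Finset GolayPt) <;> by_cases hx2 : x ∈ s <;> by_cases hx3 : x ∈ o <;>
      simp_all

/-! ### action on the shapes -/

theorem sgnv_val (S D : Finset GolayPt) (m : ℤ) (k : GolayPt) : (m • sgnv S D) k = m * (ind S k - 2 * ind D k) := by
  rw [Pi.smul_apply, smul_eq_mul, sgnv_apply]

theorem ind_smul (σ : Equiv.Perm GolayPt) (S : Finset GolayPt) (k : GolayPt) : ind (σ • S) k = ind S (σ⁻¹ k) := by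
  have : k ∈ σ • S ↔ σ⁻¹ k ∈ S := by
    rw [← Finset.inv_smul_mem_iff]; rfl
  by_cases h : k ∈ σ • S
  · rw [ind_one h, ind_one (this.1 h)]
  · rw [ind_zero h, ind_zero (fun h' => h (this.2 h'))]

theorem ind_sing_smul (σ : Equiv.Perm GolayPt) (p k : GolayPt) : ind {p} (σ⁻¹ k) = ind {σ p} k := by
  rw [← ind_smul, Finset.smul_finset_singleton]; rfl

theorem pm_sgnv {σ : Equiv.Perm GolayPt} (hσ : σ ∈ M24) {x : leechLattice} {m : ℤ} {S D : Finset GolayPt}
    (hx : (x : GolayPt → ℤ) = m • sgnv S D) :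
    ((pmEl σ hσ • x : leechLattice) : GolayPt → ℤ) = m • sgnv (σ • S) (σ • D) := by
  funext k
  rw [pmEl_apply, hx, sgnv_val, sgnv_val, ind_smul, ind_smul]

theorem ind_inter (c S : Finset GolayPt) (k : GolayPt) : ind (c ∩ S) k = ind c k * ind S k := by
  unfold ind
  by_cases h1 : k ∈ c <;> by_cases h2 : k ∈ S <;> simp [h1, h2]

theorem sg_sgnv {c : Finset GolayPt} (hc : c ∈ GC) {x : leechLattice} {m : ℤ} {S D : Finset GolayPt}
    (hx : (x : GolayPt → ℤ) = m • sgnv S D) (h : c ∩ S = D) :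
    ((sgEl c hc • x : leechLattice) : GolayPt → ℤ) = m • ind S := by
  funext k
  rw [sgEl_apply, hx, sgnv_val, ← h, ind_inter]
  show _ = m * ind S k
  rcases ind01 c k with h1 | h1 <;> rw [h1] <;> ring

theorem pm_oddv {σ : Equiv.Perm GolayPt} (hσ : σ ∈ M24) {x : leechLattice} {N : Finset GolayPt} {j : GolayPt}
    (hx : (x : GolayPt → ℤ) = oddv N j) :
    ((pmEl σ hσ • x : leechLattice) : GolayPt → ℤ) = oddv (σ • N) (σ j) := by
  funext k
  rw [pmEl_apply, hx]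
  unfold oddv
  rw [ind_smul, ind_sing_smul]

theorem sg_oddv {c : Finset GolayPt} (hc : c ∈ GC) {x : leechLattice} {N : Finset GolayPt} {j : GolayPt}
    (hx : (x : GolayPt → ℤ) = oddv N j) :
    ((sgEl c hc • x : leechLattice) : GolayPt → ℤ) = oddv (symmDiff c N) j := by
  funext k
  rw [sgEl_apply, hx]
  unfold oddv
  have : 1 - 2 * ind (symmDiff c N) k = (1 - 2 * ind c k) * (1 - 2 * ind N k) := by
    unfold ind
    by_cases h1 : k ∈ c <;> by_cases h2 : k ∈ N <;> simp [h1, h2, Finset.mem_symmDiff]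
  rw [this]; ring

/-- vectors with two nonzero coordinates -/
def AP (p j : GolayPt) (s : Bool) (k : GolayPt) : ℤ := 4 * ind {p} k + 4 * sg s * ind {j} k

theorem pm_AP {σ : Equiv.Perm GolayPt} (hσ : σ ∈ M24) {x : leechLattice} {p j : GolayPt} {s : Bool}
    (hx : (x : GolayPt → ℤ) = AP p j s) :
    ((pmEl σ hσ • x : leechLattice) : GolayPt → ℤ) = AP (σ p) (σ j) s := by
  funext k
  rw [pmEl_apply, hx]
  unfold AP
  rw [ind_sing_smul, ind_sing_smul]

theorem sing_one (p : GolayPt) : ind {p} p = 1 := ind_one (Finset.mem_singleton_self p)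

theorem sing_zero {p k : GolayPt} (h : k ≠ p) : ind {p} k = 0 := ind_zero (fun h' => h (Finset.mem_singleton.1 h'))

theorem AP_true {x : leechLattice} {p j : GolayPt} (hx : (x : GolayPt → ℤ) = AP p j true) : x = pp p j := by
  apply Subtype.ext
  rw [hx, pp_coe]
  funext k
  show 4 * ind {p} k + 4 * 1 * ind {j} k = 4 * (ind {p} k + ind {j} k)
  ring

theorem pp_AP (p j : GolayPt) : (pp p j : GolayPt → ℤ) = AP p j true := by
  rw [pp_coe]
  funext k
  show 4 * (ind {p} k + ind {j} k) = 4 * ind {p} k + 4 * 1 * ind {j} k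
  ring

theorem sg_AP {c : Finset GolayPt} (hc : c ∈ GC) {x : leechLattice} {p j : GolayPt}
    (hx : (x : GolayPt → ℤ) = AP p j false) (hp : p ∉ c) (hj : j ∈ c) : sgEl c hc • x = pp p j := by
  apply AP_true
  funext k
  rw [sgEl_apply, hx]
  show (1 - 2 * ind c k) * (4 * ind {p} k + 4 * (-1) * ind {j} k) = 4 * ind {p} k + 4 * 1 * ind {j} k
  by_cases h1 : k = p
  · subst h1
    have hkj : k ≠ j := fun e => hp (e ▸ hj)
    rw [ind_zero hp, sing_zero hkj]
    ring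
  · rw [sing_zero h1]
    by_cases h2 : k = j
    · subst h2
      rw [ind_one hj]; ring
    · rw [sing_zero h2]; ring

theorem sg_fix {c : Finset GolayPt} (hc : c ∈ GC) {p q : GolayPt} (hp : p ∉ c) (hq : q ∉ c) :
    sgEl c hc • pp p q = pp p q := by
  apply AP_true
  funext k
  rw [sgEl_apply, pp_AP]
  unfold AP
  by_cases h1 : k = p
  · subst h1; rw [ind_zero hp]; ring
  · by_cases h2 : k = q
    · subst h2; rw [ind_zero hq]; ring
    · rw [sing_zero h1, sing_zero h2]; ring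

theorem mono_sg {c : Finset GolayPt} (hc : c ∈ GC) : IsMono (sgEl c hc) := by
  intro i
  refine ⟨i, ?_⟩
  rw [sgEl_e8]
  split_ifs
  · exact Or.inr rfl
  · exact Or.inl rfl

theorem mono_pm {σ : Equiv.Perm GolayPt} (hσ : σ ∈ M24) : IsMono (pmEl σ hσ) :=
  fun i => ⟨σ i, Or.inl (pmEl_e8 hσ i)⟩

theorem mono_mul {g h : Co0} (hg : IsMono g) (hh : IsMono h) : IsMono (g * h) := by
  intro i
  obtain ⟨j, hj | hj⟩ := hh i
  · obtain ⟨k, hk⟩ := hg j
    exact ⟨k, by rw [mul_smul, hj]; exact hk⟩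
  · obtain ⟨k, hk | hk⟩ := hg j
    · exact ⟨k, Or.inr (by rw [mul_smul, hj, co0_neg, hk])⟩
    · exact ⟨k, Or.inl (by rw [mul_smul, hj, co0_neg, hk, neg_neg])⟩

theorem t2_pp : t2 = pp (gpt 23) (gpt 0) := by
  apply two_inj
  rw [two_t2, two_pp]

/-! ### the classes -/

def PA1 (x : GolayPt → ℤ) : Prop := ∃ S D : Finset GolayPt, S.card = 2 ∧ D ⊆ S ∧ x = (4 : ℤ) • sgnv S D

def PB (P : Finset GolayPt) (x : GolayPt → ℤ) : Prop :=
  ∃ o ∈ octads, P ⊆ o ∧ ∃ D : Finset GolayPt, D ⊆ o \ P ∧ D.card % 2 = 0 ∧ x = (2 : ℤ) • sgnv o D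

def PC (R : GolayPt → Finset GolayPt → Prop) (x : GolayPt → ℤ) : Prop :=
  ∃ c ∈ GC, ∃ i, R i c ∧ x = oddv c i

def PA (J K : Finset GolayPt) (x : GolayPt → ℤ) : Prop := ∃ p ∈ J, ∃ j ∈ K, ∃ s : Bool, x = AP p j s

def R2 (i : GolayPt) (c : Finset GolayPt) : Prop :=
  (i = gpt 23 ∧ gpt 23 ∈ c ∧ gpt 0 ∉ c) ∨ (i = gpt 0 ∧ gpt 0 ∈ c ∧ gpt 23 ∉ c)

def R3 (i : GolayPt) (c : Finset GolayPt) : Prop :=
  i = gpt 23 ∧ gpt 23 ∈ c ∧ gpt 0 ∉ c ∧ gpt 1 ∉ c

theorem trA1 {x : leechLattice} (h : PA1 x) : ∃ g : Co0, IsMono g ∧ g • x = t2 := by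
  obtain ⟨S, D, hS, hD, hx⟩ := h
  obtain ⟨i, j, hij, rfl⟩ := Finset.card_eq_two.1 hS
  obtain ⟨σ, hσ, h1, h2⟩ := M24_to_pair hij
  obtain ⟨c, hc, h3, h4⟩ := sign_two (gpt 23 ∈ σ • D) (gpt 0 ∈ σ • D)
  have hS' : σ • ({i, j} : Finset GolayPt) = {gpt 23, gpt 0} := by
    rw [Finset.smul_finset_insert, Finset.smul_finset_singleton]
    show insert (σ i) {σ j} = _
    rw [h1, h2]
  have hx' := pm_sgnv hσ hx
  rw [hS'] at hx'
  have hD' : σ • D ⊆ {gpt 23, gpt 0} := by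
    rw [← hS']; exact Finset.smul_finset_subset_smul_finset hD
  have hcD : c ∩ {gpt 23, gpt 0} = σ • D := by
    ext k
    rw [Finset.mem_inter, Finset.mem_insert, Finset.mem_singleton]
    constructor
    · rintro ⟨hk, rfl | rfl⟩
      · exact h3.1 hk
      · exact h4.1 hk
    · intro hk
      have := hD' hk
      rw [Finset.mem_insert, Finset.mem_singleton] at this
      rcases this with rfl | rfl
      · exact ⟨h3.2 hk, Or.inl rfl⟩
      · exact ⟨h4.2 hk, Or.inr rfl⟩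
  refine ⟨sgEl c hc * pmEl σ hσ, mono_mul (mono_sg hc) (mono_pm hσ), ?_⟩
  rw [mul_smul, t2_pp]
  apply Subtype.ext
  rw [sg_sgnv hc hx' hcD, pp_coe]
  congr 1
  funext k
  show ind {gpt 23, gpt 0} k = ind {gpt 23} k + ind {gpt 0} k
  have hne := g23_ne_g0
  by_cases e1 : k = gpt 23
  · subst e1; rw [ind_one (by simp), sing_one, sing_zero hne]; norm_num
  · by_cases e2 : k = gpt 0
    · subst e2; rw [ind_one (by simp), sing_one, sing_zero e1]; norm_num
    · rw [ind_zero (by simp [e1, e2]), sing_zero e1, sing_zero e2]; norm_num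

theorem trB_gen {n : ℕ} (hn : n ≤ 5) (v : Fin n → GolayPt) (hv : Function.Injective v)
    (hvo : ∀ i, v i ∈ toSet oct0) {x : leechLattice} {o : Finset GolayPt} (ho : o ∈ octads) {D : Finset GolayPt}
    (hPo : ∀ i, v i ∈ o) (hPD : ∀ i, v i ∉ D) (hD : D ⊆ o) (he : D.card % 2 = 0)
    (hx : (x : GolayPt → ℤ) = (2 : ℤ) • sgnv o D) :
    ∃ g : Co0, IsMono g ∧ (∀ i j, g • pp (v i) (v j) = pp (v i) (v j)) ∧ g • x = twoV (toSet oct0) oct0_octad := by
  obtain ⟨σ, hσ, h1, h2⟩ := oct_mapn hn v v hv hv ho oct0_octad hPo hvo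
  have hx' := pm_sgnv hσ hx
  rw [h2] at hx'
  have hD' : σ • D ⊆ toSet oct0 := by
    rw [← h2]; exact Finset.smul_finset_subset_smul_finset hD
  obtain ⟨c, hc, hcD⟩ := even_sub oct0_octad (σ • D) hD' (by rw [Finset.card_smul_finset]; exact he)
  have hvc : ∀ i, v i ∉ c := by
    intro i hi
    have h3 : v i ∈ σ • D := by rw [← hcD]; exact Finset.mem_inter.2 ⟨hi, hvo i⟩
    rw [← h1 i] at h3
    exact hPD i ((smul_mem_smul' σ D (v i)).1 h3)
  refine ⟨sgEl c hc * pmEl σ hσ, mono_mul (mono_sg hc) (mono_pm hσ), fun i j => ?_, ?_⟩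
  · rw [mul_smul, pmEl_pp, h1, h1, sg_fix hc (hvc i) (hvc j)]
  · rw [mul_smul]
    apply Subtype.ext
    rw [sg_sgnv hc hx' hcD]; rfl

theorem trB1 {x : leechLattice} (h : PB ∅ x) : ∃ g : Co0, IsMono g ∧ g • x = twoV (toSet oct0) oct0_octad := by
  obtain ⟨o, ho, -, D, hD, he, hx⟩ := h
  obtain ⟨g, g1, -, g3⟩ := trB_gen (n := 0) (by norm_num) ![] (fun i => i.elim0) (fun i => i.elim0) ho (D := D)
    (fun i => i.elim0) (fun i => i.elim0) (hD.trans Finset.sdiff_subset) he hx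
  exact ⟨g, g1, g3⟩

theorem trB2 {x : leechLattice} (h : PB {gpt 23, gpt 0} x) :
    ∃ g : Co0, IsMono g ∧ g • t2 = t2 ∧ g • x = twoV (toSet oct0) oct0_octad := by
  obtain ⟨o, ho, hP, D, hD, he, hx⟩ := h
  obtain ⟨g, g1, g2, g3⟩ := trB_gen (n := 2) (by norm_num) ![gpt 23, gpt 0] (inj2' g23_ne_g0)
    (by intro i; fin_cases i; exacts [g23_oct0, g0_oct0]) ho (D := D)
    (by intro i; fin_cases i; exacts [hP (by simp), hP (by simp)])
    (by
      intro i h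
      have := (Finset.mem_sdiff.1 (hD h)).2
      fin_cases i <;> simp at this) (hD.trans Finset.sdiff_subset) he hx
  exact ⟨g, g1, by rw [t2_pp]; exact g2 0 1, g3⟩

theorem g1_oct0 : gpt 1 ∈ toSet oct0 := by decide +kernel

theorem inj3 {a b c : GolayPt} (h1 : a ≠ b) (h2 : a ≠ c) (h4 : b ≠ c) :
    Function.Injective ![a, b, c] := by
  intro x y hab
  fin_cases x <;> fin_cases y <;> simp_all [eq_comm]

theorem trB3 {x : leechLattice} (h : PB {gpt 23, gpt 0, gpt 1} x) :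
    ∃ g : Co0, IsMono g ∧ g • t2 = t2 ∧ g • x1 = x1 ∧ g • x = twoV (toSet oct0) oct0_octad := by
  obtain ⟨o, ho, hP, D, hD, he, hx⟩ := h
  obtain ⟨g, g1, g2, g3⟩ := trB_gen (n := 3) (by norm_num) ![gpt 23, gpt 0, gpt 1]
    (inj3 g23_ne_g0 (Ne.symm g1_ne.1) (Ne.symm g1_ne.2))
    (by intro i; fin_cases i; exacts [g23_oct0, g0_oct0, g1_oct0]) ho (D := D)
    (by intro i; fin_cases i; exacts [hP (by simp), hP (by simp), hP (by simp)])
    (by
      intro i h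
      have := (Finset.mem_sdiff.1 (hD h)).2
      fin_cases i <;> simp at this) (hD.trans Finset.sdiff_subset) he hx
  exact ⟨g, g1, by rw [t2_pp]; exact g2 0 1, g2 0 2, g3⟩

theorem trC1 {x : leechLattice} (h : PC (fun _ _ => True) x) :
    ∃ g : Co0, IsMono g ∧ g • x = oddV ∅ GC_empty (gpt 23) := by
  obtain ⟨c, hc, i, -, hx⟩ := h
  obtain ⟨σ, hσ, h1⟩ := M24_to_none i
  have h2 := sg_oddv hc hx
  rw [symmDiff_self] at h2
  have h3 := pm_oddv hσ h2
  refine ⟨pmEl σ hσ * sgEl c hc, mono_mul (mono_pm hσ) (mono_sg hc), ?_⟩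
  rw [mul_smul]
  apply Subtype.ext
  rw [h3, h1]
  show oddv (σ • ⊥) none = oddv ∅ (gpt 23)
  have : σ • (⊥ : Finset GolayPt) = ∅ := Finset.smul_finset_empty σ
  rw [this, none_eq]

/-- standard codeword -/
theorem c0_spec : toSet 13938692 ∈ octads ∧ gpt 23 ∈ toSet 13938692 ∧ gpt 0 ∉ toSet 13938692 ∧ gpt 1 ∉ toSet 13938692 :=
  ⟨(octB_spec (ins := []) (m := 13938692) (by decide) (by decide +kernel)).1, by decide +kernel, by decide +kernel,
    by decide +kernel⟩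

theorem trC_aux {x : leechLattice} {c : Finset GolayPt} (hc : c ∈ GC) (h1 : gpt 23 ∈ c) (h0 : gpt 0 ∉ c)
    (hx : (x : GolayPt → ℤ) = oddv c (gpt 23)) :
    ∃ g : Co0, IsMono g ∧ g • t2 = t2 ∧ (gpt 1 ∉ c → g • x1 = x1) ∧ g • x = oddV (toSet 13938692) c0_spec.1.1 (gpt 23) := by
  have hd := GC_symmDiff hc c0_spec.1.1
  refine ⟨sgEl _ hd, mono_sg hd, ?_, fun h => ?_, ?_⟩
  · rw [t2_pp]
    exact sg_fix hd (by simp [Finset.mem_symmDiff, h1, c0_spec.2.1]) (by simp [Finset.mem_symmDiff, h0, c0_spec.2.2.1])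
  · exact sg_fix hd (by simp [Finset.mem_symmDiff, h1, c0_spec.2.1]) (by simp [Finset.mem_symmDiff, h, c0_spec.2.2.2])
  · apply Subtype.ext
    rw [sg_oddv hd hx]
    show oddv _ _ = oddv _ _
    congr 1
    rw [symmDiff_comm c, symmDiff_assoc, symmDiff_self, symmDiff_bot]

theorem trC2 {x : leechLattice} (h : PC R2 x) :
    ∃ g : Co0, IsMono g ∧ g • t2 = t2 ∧ g • x = oddV (toSet 13938692) c0_spec.1.1 (gpt 23) := by
  obtain ⟨c, hc, i, ⟨rfl, h1, h2⟩ | ⟨rfl, h1, h2⟩, hx⟩ := h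
  · obtain ⟨g, g1, g2, -, g3⟩ := trC_aux hc h1 h2 hx
    exact ⟨g, g1, g2, g3⟩
  · obtain ⟨σ, hσ, s1, s2⟩ := M24_to_pair (Ne.symm g23_ne_g0)
    have hx' := pm_oddv hσ hx
    rw [s1] at hx'
    obtain ⟨g, g1, g2, -, g3⟩ := trC_aux (M24_smul_mem hσ hc)
      (by rw [← s1]; exact (smul_mem_smul' σ c _).2 h1) (by rw [← s2]; exact fun h => h2 ((smul_mem_smul' σ c _).1 h)) hx'
    refine ⟨g * pmEl σ hσ, mono_mul g1 (mono_pm hσ), ?_, by rw [mul_smul]; exact g3⟩
    rw [mul_smul]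
    have : pmEl σ hσ • t2 = t2 := by
      apply two_inj
      rw [← co0_zsmul, two_t2, co0_add, pmEl_e8, pmEl_e8, s1, s2, add_comm]
    rw [this, g2]

theorem trC3 {x : leechLattice} (h : PC R3 x) :
    ∃ g : Co0, IsMono g ∧ g • t2 = t2 ∧ g • x1 = x1 ∧ g • x = oddV (toSet 13938692) c0_spec.1.1 (gpt 23) := by
  obtain ⟨c, hc, i, ⟨rfl, h1, h2, h3⟩, hx⟩ := h
  obtain ⟨g, g1, g2, g4, g3⟩ := trC_aux hc h1 h2 hx
  exact ⟨g, g1, g2, g4 h3, g3⟩

theorem c1_spec : toSet 4845570 ∈ octads ∧ gpt 23 ∉ toSet 4845570 ∧ gpt 0 ∉ toSet 4845570 ∧ gpt 1 ∈ toSet 4845570 :=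
  ⟨(octB_spec (ins := []) (m := 4845570) (by decide) (by decide +kernel)).1, by decide +kernel, by decide +kernel,
    by decide +kernel⟩

theorem c2_spec : toSet 5210132 ∈ octads ∧ gpt 23 ∉ toSet 5210132 ∧ gpt 0 ∉ toSet 5210132 ∧ gpt 1 ∉ toSet 5210132 ∧ gpt 2 ∈ toSet 5210132 :=
  ⟨(octB_spec (ins := []) (m := 5210132) (by decide) (by decide +kernel)).1, by decide +kernel, by decide +kernel,
    by decide +kernel, by decide +kernel⟩

theorem trA2_aux {x : leechLattice} {j : GolayPt} {s : Bool} (h1 : j ≠ gpt 23) (h0 : j ≠ gpt 0)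
    (hx : (x : GolayPt → ℤ) = AP (gpt 23) j s) : ∃ g : Co0, IsMono g ∧ g • t2 = t2 ∧ g • x = x1 := by
  obtain ⟨σ, hσ, s1, s2, s3⟩ := M24_to_triple h1 h0
  have hx' := pm_AP hσ hx
  rw [s1, s3] at hx'
  have ht : pmEl σ hσ • t2 = t2 := (pmEl_fix hσ s1 s2).2
  cases s with
  | true => exact ⟨pmEl σ hσ, mono_pm hσ, ht, AP_true hx'⟩
  | false =>
    refine ⟨sgEl _ c1_spec.1.1 * pmEl σ hσ, mono_mul (mono_sg _) (mono_pm hσ), ?_, ?_⟩
    · rw [mul_smul, ht, t2_pp]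
      exact sg_fix _ c1_spec.2.1 c1_spec.2.2.1
    · rw [mul_smul]
      exact sg_AP _ hx' c1_spec.2.1 c1_spec.2.2.2

theorem trA2 {x : leechLattice} (h : PA {gpt 23, gpt 0} ({gpt 23, gpt 0} : Finset GolayPt)ᶜ x) :
    ∃ g : Co0, IsMono g ∧ g • t2 = t2 ∧ g • x = x1 := by
  obtain ⟨p, hp, j, hj, s, hx⟩ := h
  simp only [Finset.mem_compl, Finset.mem_insert, Finset.mem_singleton, not_or] at hp hj
  rcases hp with rfl | rfl
  · exact trA2_aux hj.1 hj.2 hx
  · obtain ⟨σ, hσ, s1, s2⟩ := M24_to_pair (Ne.symm g23_ne_g0)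
    have hx' := pm_AP hσ hx
    rw [s1] at hx'
    obtain ⟨g, g1, g2, g3⟩ := trA2_aux (j := σ j) (fun e => hj.2 (σ.injective (e.trans s1.symm)))
      (fun e => hj.1 (σ.injective (e.trans s2.symm))) hx'
    refine ⟨g * pmEl σ hσ, mono_mul g1 (mono_pm hσ), ?_, by rw [mul_smul]; exact g3⟩
    rw [mul_smul]
    have : pmEl σ hσ • t2 = t2 := by
      apply two_inj
      rw [← co0_zsmul, two_t2, co0_add, pmEl_e8, pmEl_e8, s1, s2, add_comm]
    rw [this, g2]

theorem trA3 {x : leechLattice} (h : PA {gpt 23} ({gpt 23, gpt 0, gpt 1} : Finset GolayPt)ᶜ x) :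
    ∃ g : Co0, IsMono g ∧ g • t2 = t2 ∧ g • x1 = x1 ∧ g • x = pp (gpt 23) (gpt 2) := by
  obtain ⟨p, hp, j, hj, s, hx⟩ := h
  simp only [Finset.mem_compl, Finset.mem_insert, Finset.mem_singleton, not_or] at hp hj
  subst hp
  obtain ⟨σ, hσ, h⟩ := M24_mapn (n := 4) (by norm_num) ![gpt 23, gpt 0, gpt 1, j] ![gpt 23, gpt 0, gpt 1, gpt 2]
    (inj4 g23_ne_g0 (Ne.symm g1_ne.1) (Ne.symm hj.1) (Ne.symm g1_ne.2) (Ne.symm hj.2.1) (Ne.symm hj.2.2))
    (inj4 (by decide +kernel) (by decide +kernel) (by decide +kernel) (by decide +kernel) (by decide +kernel)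
      (by decide +kernel))
  have s1 : σ (gpt 23) = gpt 23 := h 0
  have s2 : σ (gpt 0) = gpt 0 := h 1
  have s3 : σ (gpt 1) = gpt 1 := h 2
  have s4 : σ j = gpt 2 := h 3
  have hx' := pm_AP hσ hx
  rw [s1, s4] at hx'
  have ht : pmEl σ hσ • t2 = t2 := (pmEl_fix hσ s1 s2).2
  have ht' : pmEl σ hσ • x1 = x1 := by
    show pmEl σ hσ • pp _ _ = pp _ _
    rw [pmEl_pp, s1, s3]
  cases s with
  | true => exact ⟨pmEl σ hσ, mono_pm hσ, ht, ht', AP_true hx'⟩
  | false =>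
    refine ⟨sgEl _ c2_spec.1.1 * pmEl σ hσ, mono_mul (mono_sg _) (mono_pm hσ), ?_, ?_, ?_⟩
    · rw [mul_smul, ht, t2_pp]
      exact sg_fix _ c2_spec.2.1 c2_spec.2.2.1
    · rw [mul_smul, ht']
      exact sg_fix _ c2_spec.2.1 c2_spec.2.2.2.1
    · rw [mul_smul]
      exact sg_AP _ hx' c2_spec.2.1 c2_spec.2.2.2.2

/-! ### classification -/

theorem min_shape {x : leechLattice} (hx : bL x x = 4) :
    PA1 (x : GolayPt → ℤ) ∨ PB ∅ (x : GolayPt → ℤ) ∨ PC (fun _ _ => True) (x : GolayPt → ℤ) := by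
  have hn : sqNorm (x : GolayPt → ℤ) = 32 := by rw [← bL_self, hx]; norm_num
  set z := (x : GolayPt → ℤ) with hz
  rcases mem_leech_cases.mp x.2 with ⟨s, y, h1, h2, h4⟩ | ⟨s, y, h1, h2, h4⟩
  · have h2' : ∀ i, z i = 0 + 2 * ind s i + 4 * y i := h2
    by_cases hs : s = ∅
    · subst hs
      have e : z = (4 : ℤ) • y := by
        funext i
        rw [h2' i]
        simp [ind]
      have hn' := hn
      rw [e, sqNorm_smul] at hn'
      have h5 : sqNorm y = 2 := by omega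
      obtain ⟨S, D, hS, hD, hy⟩ := shape_four h5
      exact Or.inl ⟨S, D, hS, hD, by rw [e, hy]⟩
    · have h8 : 8 ≤ s.card := by
        have h4 := GC_weights s h1
        have h5 : s.card ≠ 0 := by rwa [Ne, Finset.card_eq_zero]
        omega
      obtain ⟨hs8, D, hD, hxD⟩ := shape_two (x := z) h8 (by
        intro i hi
        rw [h2' i]; unfold ind; rw [if_pos hi]; omega) (by
        intro i
        rw [h2' i]; exact ⟨ind s i + 2 * y i, by ring⟩) hn
      refine Or.inr (Or.inl ⟨s, ⟨h1, hs8⟩, Finset.empty_subset _, D, by rw [Finset.sdiff_empty]; exact hD, ?_, hxD⟩)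
      have hy : ∀ i ∈ (Finset.univ : Finset GolayPt), y i = - ind D i := by
        intro i _
        have e1 := h2' i
        rw [hxD, sgnv_val] at e1
        linarith
      have h4' : (2 : ℤ) ∣ (∑ i, y i) - 0 := h4
      rw [Finset.sum_congr rfl hy, Finset.sum_neg_distrib, ind_sum] at h4'
      omega
  · obtain ⟨j, hj⟩ := shape_odd (x := z) (by
      intro i
      have h4 : z i = 1 + 2 * ind s i + 4 * y i := h2 i
      rw [h4]; omega) hn
    have ho : ¬ (2 : ℤ) ∣ z none := by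
      have h4 : z none = 1 + 2 * ind s none + 4 * y none := h2 none
      rw [h4]; omega
    exact Or.inr (Or.inr ⟨_, (oddN_GC x.2 ho).1, j, trivial, hj⟩)

end Cfsg.Agent.H29
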