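import Cfsg.Agent.H29.CrossMax

/-!
Subgroups of the Conway group containing the monomial group: counting the classes.
-/
set_option autoImplicit false

namespace Cfsg.Agent.H29
open Cfsg Cfsg.Agent.H7
open Cfsg.Agent.S1568 (ind01 ind_one ind_zero ind_iff ind_sub dcount par_ncard sg sg_cases sg_inj subs_ncard HH HH_mem GC_fin)
open scoped Pointwise

/-! ### restriction of the shapes -/

theorem A_of_four {x : GolayPt → ℤ} (h : PA1 x) {k : GolayPt} (hk : x k = 4) :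
    ∃ j, j ≠ k ∧ ∃ s, x = AP k j s := by
  obtain ⟨S, D, hS, hD, hx⟩ := h
  have h1 := hk
  rw [hx, sgnv_val] at h1
  have hkS : ind S k = 1 ∧ ind D k = 0 := by
    have h4 := ind_sub hD k
    rcases ind01 S k with a | a <;> rcases ind01 D k with b | b <;> rw [a, b] at h1 <;>
      first | (exfalso; omega) | exact ⟨a, b⟩
  obtain ⟨i, j, hij, hSe⟩ := Finset.card_eq_two.1 hS
  have hkS' : k ∈ S := ind_iff.2 hkS.1
  obtain ⟨j', hj', hSe'⟩ : ∃ j', j' ≠ k ∧ S = {k, j'} := by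
    rw [hSe, Finset.mem_insert, Finset.mem_singleton] at hkS'
    rcases hkS' with rfl | rfl
    · exact ⟨j, Ne.symm hij, hSe⟩
    · exact ⟨i, hij, by rw [hSe]; exact Finset.pair_comm i k⟩
  refine ⟨j', hj', decide (j' ∉ D), ?_⟩
  funext l
  rw [hx, sgnv_val]
  unfold AP
  by_cases h1 : l = k
  · subst h1
    rw [hkS.1, hkS.2, sing_one, sing_zero (Ne.symm hj')]; ring
  · rw [sing_zero h1]
    by_cases h2 : l = j'
    · subst h2
      rw [sing_one, ind_one (by rw [hSe']; simp)]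
      by_cases h3 : l ∈ D
      · rw [ind_one h3, decide_eq_false (by simpa using h3)]
        show _ = 4 * 0 + 4 * (-1) * 1
        norm_num
      · rw [ind_zero h3, decide_eq_true h3]
        show _ = 4 * 0 + 4 * 1 * 1
        norm_num
    · rw [sing_zero h2]
      have h3 : l ∉ S := by rw [hSe']; simp [h1, h2]
      rw [ind_zero h3, ind_zero (fun h => h3 (hD h))]
      ring

theorem AP_val_ne {p j k : GolayPt} {s : Bool} (h1 : k ≠ p) (h2 : k ≠ j) : AP p j s k = 0 := by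
  unfold AP
  rw [sing_zero h1, sing_zero h2]; ring

theorem AP_val_p {p j : GolayPt} {s : Bool} (h : p ≠ j) : AP p j s p = 4 := by
  unfold AP
  rw [sing_one, sing_zero h]; ring

theorem AP_val_j {p j : GolayPt} {s : Bool} (h : j ≠ p) : AP p j s j = 4 * sg s := by
  unfold AP
  rw [sing_one, sing_zero h]; ring

theorem res_A2 {x : GolayPt → ℤ} (h : PA1 x) (h2 : x (gpt 23) + x (gpt 0) = 4) :
    PA {gpt 23, gpt 0} ({gpt 23, gpt 0} : Finset GolayPt)ᶜ x := by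
  have hcase : x (gpt 23) = 4 ∨ x (gpt 0) = 4 := by
    obtain ⟨S, D, hS, hD, hx⟩ := h
    rw [hx, sgnv_val, sgnv_val] at h2 ⊢
    have h4 := ind_sub hD (gpt 23)
    have h5 := ind_sub hD (gpt 0)
    rcases ind01 S (gpt 23) with a | a <;> rcases ind01 D (gpt 23) with b | b <;>
      rcases ind01 S (gpt 0) with c | c <;> rcases ind01 D (gpt 0) with d | d <;> rw [a, b, c, d] at h2 ⊢ <;> omega
  have hne := g23_ne_g0
  rcases hcase with h3 | h3
  · obtain ⟨j, hj, s, hx⟩ := A_of_four h h3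
    refine ⟨gpt 23, by simp, j, ?_, s, hx⟩
    rw [Finset.mem_compl, Finset.mem_insert, Finset.mem_singleton, not_or]
    refine ⟨hj, ?_⟩
    rintro rfl
    have h4 : x (gpt 0) = 0 := by omega
    rw [hx, AP_val_j hj] at h4
    rcases sg_cases s with h5 | h5 <;> rw [h5] at h4 <;> omega
  · obtain ⟨j, hj, s, hx⟩ := A_of_four h h3
    refine ⟨gpt 0, by simp, j, ?_, s, hx⟩
    rw [Finset.mem_compl, Finset.mem_insert, Finset.mem_singleton, not_or]
    refine ⟨?_, hj⟩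
    rintro rfl
    have h4 : x (gpt 23) = 0 := by omega
    rw [hx, AP_val_j hj] at h4
    rcases sg_cases s with h5 | h5 <;> rw [h5] at h4 <;> omega

theorem res_A3 {x : leechLattice} (h : PA {gpt 23, gpt 0} ({gpt 23, gpt 0} : Finset GolayPt)ᶜ (x : GolayPt → ℤ))
    (h2 : (x : GolayPt → ℤ) (gpt 23) + (x : GolayPt → ℤ) (gpt 1) = 4) :
    PA {gpt 23} ({gpt 23, gpt 0, gpt 1} : Finset GolayPt)ᶜ (x : GolayPt → ℤ) ∨ x = pp (gpt 0) (gpt 1) := by
  obtain ⟨p, hp, j, hj, s, hx⟩ := h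
  simp only [Finset.mem_compl, Finset.mem_insert, Finset.mem_singleton, not_or] at hp hj
  have hne := g23_ne_g0
  have h10 := g1_ne
  rcases hp with rfl | rfl
  · left
    refine ⟨gpt 23, by simp, j, ?_, s, hx⟩
    simp only [Finset.mem_compl, Finset.mem_insert, Finset.mem_singleton, not_or]
    refine ⟨hj.1, hj.2, ?_⟩
    rintro rfl
    rw [hx, AP_val_p (Ne.symm hj.1), AP_val_j hj.1] at h2
    rcases sg_cases s with h5 | h5 <;> rw [h5] at h2 <;> omega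
  · right
    rw [hx, AP_val_ne hne (Ne.symm hj.1)] at h2
    have h3 : j = gpt 1 := by
      by_contra h
      rw [AP_val_ne h10.2 (Ne.symm h)] at h2
      omega
    subst h3
    rw [AP_val_j hj.2] at h2
    cases s with
    | true => exact AP_true hx
    | false => exfalso; have : sg false = -1 := rfl; rw [this] at h2; omega

theorem val_two_cases {o D : Finset GolayPt} (hD : D ⊆ o) (k : GolayPt) :
    ((2 : ℤ) • sgnv o D) k ≤ 2 ∧ (((2 : ℤ) • sgnv o D) k = 2 → k ∈ o ∧ k ∉ D) := by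
  rw [sgnv_val]
  have h4 := ind_sub hD k
  by_cases h1 : k ∈ o <;> by_cases h2 : k ∈ D
  · rw [ind_one h1, ind_one h2]; exact ⟨by norm_num, fun h => by norm_num at h⟩
  · rw [ind_one h1, ind_zero h2]; exact ⟨by norm_num, fun _ => ⟨h1, h2⟩⟩
  · exact absurd (hD h2) h1
  · rw [ind_zero h1, ind_zero h2]; exact ⟨by norm_num, fun h => by norm_num at h⟩

theorem res_B {P : Finset GolayPt} {q : GolayPt} {x : GolayPt → ℤ} (h : PB P x) (hq : x q = 2) :
    PB (insert q P) x := by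
  obtain ⟨o, ho, hP, D, hD, he, hx⟩ := h
  have hDo := hD.trans Finset.sdiff_subset
  have h2 := (val_two_cases hDo q).2 (by rw [← hx]; exact hq)
  refine ⟨o, ho, Finset.insert_subset h2.1 hP, D, ?_, he, hx⟩
  intro k hk
  rw [Finset.mem_sdiff, Finset.mem_insert, not_or]
  refine ⟨hDo hk, ?_, (Finset.mem_sdiff.1 (hD hk)).2⟩
  rintro rfl
  exact h2.2 hk

theorem B_le {P : Finset GolayPt} {x : GolayPt → ℤ} (h : PB P x) (k : GolayPt) : x k ≤ 2 := by
  obtain ⟨o, ho, hP, D, hD, he, hx⟩ := h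
  rw [hx]; exact (val_two_cases (hD.trans Finset.sdiff_subset) k).1

theorem oddv_cases (c : Finset GolayPt) (i k : GolayPt) : (k = i ∧ k ∈ c ∧ oddv c i k = 3) ∨
    (k = i ∧ k ∉ c ∧ oddv c i k = -3) ∨ (k ≠ i ∧ k ∈ c ∧ oddv c i k = -1) ∨ (k ≠ i ∧ k ∉ c ∧ oddv c i k = 1) := by
  rw [oddv_apply']
  by_cases h1 : k = i <;> by_cases h2 : k ∈ c <;> simp [h1, h2] <;> subst h1 <;> simp [h2]

theorem res_C2 {x : GolayPt → ℤ} (h : PC (fun _ _ => True) x) (h2 : x (gpt 23) + x (gpt 0) = 4) : PC R2 x := by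
  obtain ⟨c, hc, i, -, hx⟩ := h
  refine ⟨c, hc, i, ?_, hx⟩
  rw [hx] at h2
  rcases oddv_cases c i (gpt 23) with ⟨a1, a2, a3⟩ | ⟨a1, a2, a3⟩ | ⟨a1, a2, a3⟩ | ⟨a1, a2, a3⟩ <;>
    rcases oddv_cases c i (gpt 0) with ⟨b1, b2, b3⟩ | ⟨b1, b2, b3⟩ | ⟨b1, b2, b3⟩ | ⟨b1, b2, b3⟩ <;>
    rw [a3, b3] at h2 <;> first | (exfalso; omega) | exact Or.inl ⟨a1.symm, a2, b2⟩ | exact Or.inr ⟨b1.symm, b2, a2⟩

theorem res_C3 {x : GolayPt → ℤ} (h : PC R2 x) (h2 : x (gpt 23) + x (gpt 1) = 4) : PC R3 x := by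
  obtain ⟨c, hc, i, hi, hx⟩ := h
  have h10 := g1_ne
  refine ⟨c, hc, i, ?_, hx⟩
  rw [hx] at h2
  rcases hi with ⟨rfl, p, q⟩ | ⟨rfl, p, q⟩
  · rcases oddv_cases c (gpt 23) (gpt 23) with ⟨a1, a2, a3⟩ | ⟨a1, a2, a3⟩ | ⟨a1, a2, a3⟩ | ⟨a1, a2, a3⟩ <;>
    rcases oddv_cases c (gpt 23) (gpt 1) with ⟨b1, b2, b3⟩ | ⟨b1, b2, b3⟩ | ⟨b1, b2, b3⟩ | ⟨b1, b2, b3⟩ <;>
    rw [a3, b3] at h2 <;> first | (exfalso; omega) | exact absurd b1 h10.1 | exact ⟨rfl, p, q, b2⟩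
  · exfalso
    rcases oddv_cases c (gpt 0) (gpt 23) with ⟨a1, a2, a3⟩ | ⟨a1, a2, a3⟩ | ⟨a1, a2, a3⟩ | ⟨a1, a2, a3⟩ <;>
    rcases oddv_cases c (gpt 0) (gpt 1) with ⟨b1, b2, b3⟩ | ⟨b1, b2, b3⟩ | ⟨b1, b2, b3⟩ | ⟨b1, b2, b3⟩ <;>
    rw [a3, b3] at h2 <;> first | omega | exact absurd a1 g23_ne_g0 | exact absurd b1 h10.2

/-! ### disjointness -/

theorem A_dvd {x : GolayPt → ℤ} (h : PA1 x) (k : GolayPt) : (4 : ℤ) ∣ x k := by
  obtain ⟨S, D, hS, hD, hx⟩ := h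
  rw [hx, sgnv_val]; exact Dvd.intro _ rfl

theorem PA_dvd {J K : Finset GolayPt} {x : GolayPt → ℤ} (h : PA J K x) (k : GolayPt) : (4 : ℤ) ∣ x k := by
  obtain ⟨p, hp, j, hj, s, hx⟩ := h
  rw [hx]
  exact ⟨ind {p} k + sg s * ind {j} k, by unfold AP; ring⟩

theorem B_two {P : Finset GolayPt} {x : GolayPt → ℤ} (h : PB P x) : (∀ k, (2 : ℤ) ∣ x k) ∧ ∃ k, x k % 4 = 2 := by
  obtain ⟨o, ho, hP, D, hD, he, hx⟩ := h
  constructor
  · intro k
    rw [hx, sgnv_val]; exact Dvd.intro _ rfl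
  · obtain ⟨k, hk⟩ : o.Nonempty := Finset.card_pos.1 (by rw [(mem_octads.1 ho).2]; norm_num)
    refine ⟨k, ?_⟩
    rw [hx, sgnv_val, ind_one hk]
    rcases ind01 D k with h | h <;> rw [h] <;> norm_num

theorem C_odd {R : GolayPt → Finset GolayPt → Prop} {x : GolayPt → ℤ} (h : PC R x) (k : GolayPt) : ¬ (2 : ℤ) ∣ x k := by
  obtain ⟨c, hc, i, hi, hx⟩ := h
  rw [hx]
  rcases oddv_cases c i k with ⟨a1, a2, a3⟩ | ⟨a1, a2, a3⟩ | ⟨a1, a2, a3⟩ | ⟨a1, a2, a3⟩ <;> rw [a3] <;> norm_num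

/-! ### counting -/

theorem sgnv_inj {m : ℤ} (hm : m ≠ 0) {S D S' D' : Finset GolayPt} (hD : D ⊆ S) (hD' : D' ⊆ S')
    (h : m • sgnv S D = m • sgnv S' D') : S = S' ∧ D = D' := by
  have key : ∀ k, ind S k = ind S' k ∧ ind D k = ind D' k := by
    intro k
    have h1 := congrFun h k
    rw [sgnv_val, sgnv_val] at h1
    have h2 := mul_left_cancel₀ hm h1
    have h4 := ind_sub hD k
    have h5 := ind_sub hD' k
    rcases ind01 S k with a | a <;> rcases ind01 D k with b | b <;>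
      rcases ind01 S' k with c | c <;> rcases ind01 D' k with d | d <;> rw [a, b, c, d] at h2 <;>
      rw [a, b] at h4 <;> rw [c, d] at h5 <;> first | (exfalso; omega) | exact ⟨a.trans c.symm, b.trans d.symm⟩
  constructor
  · ext i; rw [ind_iff, ind_iff, (key i).1]
  · ext i; rw [ind_iff, ind_iff, (key i).2]

theorem oddv_inj {c c' : Finset GolayPt} {i i' : GolayPt} (h : oddv c i = oddv c' i') : c = c' ∧ i = i' := by
  have hi : i = i' := by
    have h1 := congrFun h i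
    rcases oddv_cases c i i with ⟨a1, a2, a3⟩ | ⟨a1, a2, a3⟩ | ⟨a1, a2, a3⟩ | ⟨a1, a2, a3⟩ <;>
    rcases oddv_cases c' i' i with ⟨b1, b2, b3⟩ | ⟨b1, b2, b3⟩ | ⟨b1, b2, b3⟩ | ⟨b1, b2, b3⟩ <;>
    rw [a3, b3] at h1 <;> first | exact b1 | exact absurd rfl a1 | omega
  subst hi
  refine ⟨?_, rfl⟩
  ext k
  have h1 := congrFun h k
  rcases oddv_cases c i k with ⟨a1, a2, a3⟩ | ⟨a1, a2, a3⟩ | ⟨a1, a2, a3⟩ | ⟨a1, a2, a3⟩ <;>
    rcases oddv_cases c' i k with ⟨b1, b2, b3⟩ | ⟨b1, b2, b3⟩ | ⟨b1, b2, b3⟩ | ⟨b1, b2, b3⟩ <;>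
    rw [a3, b3] at h1 <;> first | exact iff_of_true a2 b2 | exact iff_of_false a2 b2 | omega

theorem cardA1 : {x : leechLattice | PA1 (x : GolayPt → ℤ)}.ncard = 1104 := by
  rw [← ncard_coe]
  have e : {x : GolayPt → ℤ | x ∈ leechLattice ∧ PA1 x} =
      (fun p : Finset GolayPt × Finset GolayPt => (4 : ℤ) • sgnv p.1 p.2) ''
        {p | p.1 ∈ {S : Finset GolayPt | S.card = 2} ∧ p.2 ∈ {D : Finset GolayPt | D ⊆ p.1}} := by
    ext x
    constructor
    · rintro ⟨-, S, D, hS, hD, hx⟩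
      exact ⟨(S, D), ⟨hS, hD⟩, hx.symm⟩
    · rintro ⟨⟨S, D⟩, ⟨hS, hD⟩, rfl⟩
      refine ⟨leech_four ?_, S, D, hS, hD, rfl⟩
      have hS' : S.card = 2 := hS
      have : ∑ i, sgnv S D i = (S.card : ℤ) - 2 * D.card := by
        have e1 : ∀ i ∈ (Finset.univ : Finset GolayPt), sgnv S D i = ind S i - 2 * ind D i := fun i _ => sgnv_apply S D i
        rw [Finset.sum_congr rfl e1, Finset.sum_sub_distrib, ← Finset.mul_sum, ind_sum, ind_sum]
      show (2 : ℤ) ∣ ∑ i, sgnv S D i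
      rw [this, hS']
      omega
  have hinj : Set.InjOn (fun p : Finset GolayPt × Finset GolayPt => (4 : ℤ) • sgnv p.1 p.2)
      {p | p.1 ∈ {S : Finset GolayPt | S.card = 2} ∧ p.2 ∈ {D : Finset GolayPt | D ⊆ p.1}} := by
    rintro ⟨S, D⟩ ⟨-, h1⟩ ⟨S', D'⟩ ⟨-, h2⟩ h
    obtain ⟨h3, h4⟩ := sgnv_inj (by norm_num) h1 h2 h
    exact Prod.ext h3 h4
  have hR : ∀ S ∈ {S : Finset GolayPt | S.card = 2}, {D : Finset GolayPt | D ⊆ S}.ncard = 4 := by
    intro S hS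
    have e2 : {D : Finset GolayPt | D ⊆ S} = ((S.powerset : Finset (Finset GolayPt)) : Set (Finset GolayPt)) := by
      ext D; simp
    have hS' : S.card = 2 := hS
    rw [e2, Set.ncard_coe_finset, Finset.card_powerset, hS']
    norm_num
  rw [e, hinj.ncard_image, dcount (Set.toFinite _) (R := fun S => {D : Finset GolayPt | D ⊆ S}) hR
    (fun _ _ => Set.toFinite _), subs_ncard 2]
  decide

theorem cardB (P : Finset GolayPt) {n k : ℕ} (hk : P.card + k = 7)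
    (hn : {o : Finset GolayPt | o ∈ octads ∧ P ⊆ o}.ncard = n) :
    {x : leechLattice | PB P (x : GolayPt → ℤ)}.ncard = n * 2 ^ k := by
  rw [← ncard_coe]
  have e : {x : GolayPt → ℤ | x ∈ leechLattice ∧ PB P x} =
      (fun p : Finset GolayPt × Finset GolayPt => (2 : ℤ) • sgnv p.1 p.2) ''
        {p | p.1 ∈ {o : Finset GolayPt | o ∈ octads ∧ P ⊆ o} ∧
          p.2 ∈ {D : Finset GolayPt | D ⊆ p.1 \ P ∧ D.card % 2 = 0}} := by
    ext x
    constructor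
    · rintro ⟨-, o, ho, hP, D, hD, he, hx⟩
      exact ⟨(o, D), ⟨⟨ho, hP⟩, hD, he⟩, hx.symm⟩
    · rintro ⟨⟨o, D⟩, ⟨⟨ho, hP⟩, hD, he⟩, rfl⟩
      refine ⟨?_, o, ho, hP, D, hD, he, rfl⟩
      have he' : D.card % 2 = 0 := he
      have : ((2 : ℤ) • sgnv o D) = HH o D 0 none := by
        funext k
        rw [sgnv_val]
        unfold HH; ring
      show (2 : ℤ) • sgnv o D ∈ leechLattice
      rw [this]
      exact HH_mem (mem_octads.1 ho).1 (by omega)
  have hinj : Set.InjOn (fun p : Finset GolayPt × Finset GolayPt => (2 : ℤ) • sgnv p.1 p.2)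
      {p | p.1 ∈ {o : Finset GolayPt | o ∈ octads ∧ P ⊆ o} ∧
          p.2 ∈ {D : Finset GolayPt | D ⊆ p.1 \ P ∧ D.card % 2 = 0}} := by
    rintro ⟨S, D⟩ ⟨-, h1, -⟩ ⟨S', D'⟩ ⟨-, h2, -⟩ h
    obtain ⟨h3, h4⟩ := sgnv_inj (by norm_num) (Finset.Subset.trans h1 Finset.sdiff_subset)
      (Finset.Subset.trans h2 Finset.sdiff_subset) h
    exact Prod.ext h3 h4
  have hR : ∀ o ∈ {o : Finset GolayPt | o ∈ octads ∧ P ⊆ o},
      {D : Finset GolayPt | D ⊆ o \ P ∧ D.card % 2 = 0}.ncard = 2 ^ k := by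
    rintro o ⟨ho, hP⟩
    have h1 : (o \ P).card = 8 - P.card := by
      rw [Finset.card_sdiff_of_subset hP, (mem_octads.1 ho).2]
    rw [par_ncard (o \ P) (Finset.card_pos.1 (by omega)) 0 (Or.inl rfl), h1]
    congr 1
    omega
  rw [e, hinj.ncard_image, dcount (Set.toFinite _) (R := fun o => {D : Finset GolayPt | D ⊆ o \ P ∧ D.card % 2 = 0}) hR
    (fun _ _ => Set.toFinite _), hn]

theorem cardC (R : GolayPt → Finset GolayPt → Prop) (A : Finset GolayPt) {n : ℕ} (hRA : ∀ i c, R i c → i ∈ A)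
    (hn : ∀ i ∈ A, {c : Finset GolayPt | c ∈ GC ∧ R i c}.ncard = n) :
    {x : leechLattice | PC R (x : GolayPt → ℤ)}.ncard = A.card * n := by
  rw [← ncard_coe]
  have e : {x : GolayPt → ℤ | x ∈ leechLattice ∧ PC R x} =
      (fun p : GolayPt × Finset GolayPt => oddv p.2 p.1) ''
        {p | p.1 ∈ (A : Set GolayPt) ∧ p.2 ∈ {c : Finset GolayPt | c ∈ GC ∧ R p.1 c}} := by
    ext x
    constructor
    · rintro ⟨-, c, hc, i, hi, hx⟩
      exact ⟨(i, c), ⟨hRA i c hi, hc, hi⟩, hx.symm⟩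
    · rintro ⟨⟨i, c⟩, ⟨-, hc, hi⟩, rfl⟩
      exact ⟨oddv_mem hc i, c, hc, i, hi, rfl⟩
  have hinj : Set.InjOn (fun p : GolayPt × Finset GolayPt => oddv p.2 p.1)
      {p | p.1 ∈ (A : Set GolayPt) ∧ p.2 ∈ {c : Finset GolayPt | c ∈ GC ∧ R p.1 c}} := by
    rintro ⟨i, c⟩ - ⟨i', c'⟩ - h
    obtain ⟨h3, h4⟩ := oddv_inj h
    exact Prod.ext h4 h3
  rw [e, hinj.ncard_image, dcount (Set.toFinite _) (R := fun i => {c : Finset GolayPt | c ∈ GC ∧ R i c}) hn
    (fun _ _ => Set.toFinite _), Set.ncard_coe_finset]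

theorem cardPA {J K : Finset GolayPt} (hJK : ∀ k, k ∈ J → k ∉ K) :
    {x : leechLattice | PA J K (x : GolayPt → ℤ)}.ncard = J.card * (K.card * 2) := by
  rw [← ncard_coe]
  have e : {x : GolayPt → ℤ | x ∈ leechLattice ∧ PA J K x} =
      (fun p : GolayPt × (GolayPt × Bool) => AP p.1 p.2.1 p.2.2) ''
        ((J : Set GolayPt) ×ˢ ((K : Set GolayPt) ×ˢ (Set.univ : Set Bool))) := by
    ext x
    constructor
    · rintro ⟨-, p, hp, j, hj, s, hx⟩
      exact ⟨(p, j, s), ⟨hp, hj, Set.mem_univ _⟩, hx.symm⟩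
    · rintro ⟨⟨p, j, s⟩, ⟨hp, hj, -⟩, rfl⟩
      refine ⟨?_, p, hp, j, hj, s, rfl⟩
      have e1 : AP p j s = (4 : ℤ) • (fun k => ind {p} k + sg s * ind {j} k) := by
        funext k
        show AP p j s k = 4 * (ind {p} k + sg s * ind {j} k)
        unfold AP; ring
      show AP p j s ∈ leechLattice
      rw [e1]
      apply leech_four
      rw [Finset.sum_add_distrib, ← Finset.mul_sum, ind_sum, ind_sum, Finset.card_singleton, Finset.card_singleton]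
      rcases sg_cases s with h | h <;> rw [h] <;> norm_num
  have hinj : Set.InjOn (fun p : GolayPt × (GolayPt × Bool) => AP p.1 p.2.1 p.2.2)
      ((J : Set GolayPt) ×ˢ ((K : Set GolayPt) ×ˢ (Set.univ : Set Bool))) := by
    rintro ⟨p, j, s⟩ ⟨hp, hj, -⟩ ⟨p', j', s'⟩ ⟨hp', hj', -⟩ h
    have hpJ : p ∈ J := hp
    have hpJ' : p' ∈ J := hp'
    have hjK : j ∈ K := hj
    have hjK' : j' ∈ K := hj'
    have n1 : p ≠ j := fun e => hJK p hpJ (e ▸ hjK)
    have n2 : p' ≠ j' := fun e => hJK p' hpJ' (e ▸ hjK')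
    have n3 : p ≠ j' := fun e => hJK p hpJ (e ▸ hjK')
    have n4 : p' ≠ j := fun e => hJK p' hpJ' (e ▸ hjK)
    have h' : AP p j s = AP p' j' s' := h
    have hpp : p = p' := by
      by_contra hne
      have h1 := congrFun h' p
      rw [AP_val_p n1, AP_val_ne hne n3] at h1
      omega
    subst hpp
    have hjj : j = j' := by
      by_contra hne
      have h1 := congrFun h' j
      rw [AP_val_j (Ne.symm n1), AP_val_ne (Ne.symm n1) hne] at h1
      rcases sg_cases s with h5 | h5 <;> rw [h5] at h1 <;> omega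
    subst hjj
    have hss : s = s' := by
      have h1 := congrFun h' j
      rw [AP_val_j (Ne.symm n1), AP_val_j (Ne.symm n1)] at h1
      exact sg_inj (by linarith)
    subst hss
    rfl
  rw [e, hinj.ncard_image, Set.ncard_prod, Set.ncard_prod, Set.ncard_coe_finset, Set.ncard_coe_finset, Set.ncard_univ]
  simp

end Cfsg.Agent.H29
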