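import Cfsg.Agent.H29.CrossMax2

/-!
Subgroups of the Conway group containing the monomial group: the orders.
-/
set_option autoImplicit false

namespace Cfsg.Agent.H29
open Cfsg Cfsg.Agent.H7
open Cfsg.Agent.S1568 (ind01 ind_one ind_zero ind_iff ind_sub dcount par_ncard sg sg_cases sg_inj subs_ncard HH HH_mem GC_fin)
open scoped Pointwise

theorem fin_of_ncard {X : Type*} {s : Set X} {n : ℕ} (h : s.ncard = n) (hn : n ≠ 0) : s.Finite :=
  Set.finite_of_ncard_ne_zero (by rw [h]; exact hn)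

/-! ### the three families of classes -/

def Cl1 : Fin 3 → Set leechLattice := ![{x | PA1 (x : GolayPt → ℤ)}, {x | PB ∅ (x : GolayPt → ℤ)},
  {x | PC (fun _ _ => True) (x : GolayPt → ℤ)}]

def Cl2 : Fin 3 → Set leechLattice := ![{x | PA {gpt 23, gpt 0} ({gpt 23, gpt 0} : Finset GolayPt)ᶜ (x : GolayPt → ℤ)},
  {x | PB {gpt 23, gpt 0} (x : GolayPt → ℤ)}, {x | PC R2 (x : GolayPt → ℤ)}]

def Cl3 : Fin 4 → Set leechLattice := ![{pp (gpt 0) (gpt 1)},
  {x | PA {gpt 23} ({gpt 23, gpt 0, gpt 1} : Finset GolayPt)ᶜ (x : GolayPt → ℤ)},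
  {x | PB {gpt 23, gpt 0, gpt 1} (x : GolayPt → ℤ)}, {x | PC R3 (x : GolayPt → ℤ)}]

theorem n1B : {x : leechLattice | PB ∅ (x : GolayPt → ℤ)}.ncard = 97152 := by
  have h : {s | s ∈ octads ∧ CP [] [] [] s}.ncard = 759 := enm_oct.countC (by decide) (by decide +kernel)
  rw [cardB ∅ (n := 759) (k := 7) (by simp) (by
    rw [← h]; congr 1; ext s; simp [CP])]
  norm_num

theorem n2B : {x : leechLattice | PB {gpt 23, gpt 0} (x : GolayPt → ℤ)}.ncard = 2464 := by
  have h : {s | s ∈ octads ∧ CP [23, 0] [] [] s}.ncard = 77 := enm_oct.countC (by decide) (by decide +kernel)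
  rw [cardB {gpt 23, gpt 0} (n := 77) (k := 5) (by rw [Finset.card_pair g23_ne_g0]) (by
    rw [← h]; congr 1; ext s; simp [CP, Finset.insert_subset_iff])]
  norm_num

theorem n3B : {x : leechLattice | PB {gpt 23, gpt 0, gpt 1} (x : GolayPt → ℤ)}.ncard = 336 := by
  have h : {s | s ∈ octads ∧ CP [23, 0, 1] [] [] s}.ncard = 21 := enm_oct.countC (by decide) (by decide +kernel)
  rw [cardB {gpt 23, gpt 0, gpt 1} (n := 21) (k := 4) (by decide +kernel) (by
    rw [← h]; congr 1; ext s; simp [CP, Finset.insert_subset_iff])]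
  norm_num

theorem n1C : {x : leechLattice | PC (fun _ _ => True) (x : GolayPt → ℤ)}.ncard = 98304 := by
  rw [cardC (fun _ _ => True) Finset.univ (n := 4096) (fun _ _ _ => Finset.mem_univ _) (by
    intro i _
    have : {c : Finset GolayPt | c ∈ GC ∧ True} = GC := by ext c; simp
    rw [this, enm_cw.ncard]; simp)]
  have : (Finset.univ : Finset GolayPt).card = 24 := by decide
  rw [this]

theorem n2C : {x : leechLattice | PC R2 (x : GolayPt → ℤ)}.ncard = 2048 := by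
  have h : {s | s ∈ GC ∧ CP [23] [0] [] s}.ncard = 1024 := enm_cw.countC (by decide) (by decide +kernel)
  have h' : {s | s ∈ GC ∧ CP [0] [23] [] s}.ncard = 1024 := enm_cw.countC (by decide) (by decide +kernel)
  have hne := g23_ne_g0
  rw [cardC R2 {gpt 23, gpt 0} (n := 1024) (fun i c h => by
    rcases h with ⟨rfl, -⟩ | ⟨rfl, -⟩ <;> simp) (by
    intro i hi
    rw [Finset.mem_insert, Finset.mem_singleton] at hi
    rcases hi with rfl | rfl
    · rw [← h]; congr 1; ext s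
      simp only [CP, R2, Set.mem_ofPred_eq, List.mem_singleton, forall_eq, List.not_mem_nil, IsEmpty.forall_iff,
        implies_true, and_true, true_and, hne, false_and, or_false]
    · rw [← h']; congr 1; ext s
      simp only [CP, R2, Set.mem_ofPred_eq, List.mem_singleton, forall_eq, List.not_mem_nil, IsEmpty.forall_iff,
        implies_true, and_true, true_and, Ne.symm hne, false_and, false_or]), Finset.card_pair hne]

theorem n3C : {x : leechLattice | PC R3 (x : GolayPt → ℤ)}.ncard = 512 := by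
  have h : {s | s ∈ GC ∧ CP [23] [0, 1] [] s}.ncard = 512 := enm_cw.countC (by decide) (by decide +kernel)
  rw [cardC R3 {gpt 23} (n := 512) (fun i c h => by
    rcases h with ⟨rfl, -⟩; simp) (by
    intro i hi
    rw [Finset.mem_singleton] at hi
    subst hi
    rw [← h]; congr 1; ext s
    simp [CP, R3]), Finset.card_singleton]

theorem n2A : {x : leechLattice | PA {gpt 23, gpt 0} ({gpt 23, gpt 0} : Finset GolayPt)ᶜ (x : GolayPt → ℤ)}.ncard = 88 := by
  rw [cardPA (fun k hk h => (Finset.mem_compl.1 h) hk)]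
  decide +kernel

theorem n3A : {x : leechLattice | PA {gpt 23} ({gpt 23, gpt 0, gpt 1} : Finset GolayPt)ᶜ (x : GolayPt → ℤ)}.ncard = 42 := by
  rw [cardPA (fun k hk h => (Finset.mem_compl.1 h) (by rw [Finset.mem_singleton.1 hk]; simp))]
  decide +kernel

theorem sz1 : ∀ i, (Cl1 i).ncard = ![1104, 97152, 98304] i := by
  intro i; fin_cases i
  · exact cardA1
  · exact n1B
  · exact n1C

theorem sz2 : ∀ i, (Cl2 i).ncard = ![88, 2464, 2048] i := by
  intro i; fin_cases i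
  · exact n2A
  · exact n2B
  · exact n2C

theorem sz3 : ∀ i, (Cl3 i).ncard = ![1, 42, 336, 512] i := by
  intro i; fin_cases i
  · exact Set.ncard_singleton _
  · exact n3A
  · exact n3B
  · exact n3C

theorem AB_disj {x : GolayPt → ℤ} {P : Finset GolayPt} (h : ∀ k, (4 : ℤ) ∣ x k) (h2 : PB P x) : False := by
  obtain ⟨-, k, hk⟩ := B_two h2
  have := h k
  omega

theorem AC_disj {x : GolayPt → ℤ} {R : GolayPt → Finset GolayPt → Prop} (h : ∀ k, (4 : ℤ) ∣ x k) (h2 : PC R x) : False := by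
  have h3 := C_odd h2 none
  have := h none
  omega

theorem BC_disj {x : GolayPt → ℤ} {P : Finset GolayPt} {R : GolayPt → Finset GolayPt → Prop} (h : PB P x)
    (h2 : PC R x) : False := C_odd h2 none ((B_two h).1 none)

theorem dj1 : ∀ i j, i ≠ j → Disjoint (Cl1 i) (Cl1 j) := by
  intro i j hij
  rw [Set.disjoint_left]
  intro x hx hy
  fin_cases i <;> fin_cases j <;> first | exact hij rfl | skip
  · exact AB_disj (A_dvd hx) hy
  · exact AC_disj (A_dvd hx) hy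
  · exact AB_disj (A_dvd hy) hx
  · exact BC_disj hx hy
  · exact AC_disj (A_dvd hy) hx
  · exact BC_disj hy hx

theorem dj2 : ∀ i j, i ≠ j → Disjoint (Cl2 i) (Cl2 j) := by
  intro i j hij
  rw [Set.disjoint_left]
  intro x hx hy
  fin_cases i <;> fin_cases j <;> first | exact hij rfl | skip
  · exact AB_disj (PA_dvd hx) hy
  · exact AC_disj (PA_dvd hx) hy
  · exact AB_disj (PA_dvd hy) hx
  · exact BC_disj hx hy
  · exact AC_disj (PA_dvd hy) hx
  · exact BC_disj hy hx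

theorem z_dvd {x : leechLattice} (h : x = pp (gpt 0) (gpt 1)) (k : GolayPt) : (4 : ℤ) ∣ (x : GolayPt → ℤ) k := by
  rw [h, pp_AP]
  exact ⟨ind {gpt 0} k + sg true * ind {gpt 1} k, by unfold AP; ring⟩

theorem zA_disj {x : leechLattice} (h : x = pp (gpt 0) (gpt 1))
    (h2 : PA {gpt 23} ({gpt 23, gpt 0, gpt 1} : Finset GolayPt)ᶜ (x : GolayPt → ℤ)) : False := by
  obtain ⟨p, hp, j, hj, s, hx⟩ := h2
  rw [Finset.mem_singleton] at hp
  subst hp
  rw [h, pp_AP] at hx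
  simp only [Finset.mem_compl, Finset.mem_insert, Finset.mem_singleton, not_or] at hj
  have h3 := congrFun hx (gpt 23)
  rw [AP_val_ne g23_ne_g0 (Ne.symm g1_ne.1), AP_val_p (Ne.symm hj.1)] at h3
  omega

theorem dj3 : ∀ i j, i ≠ j → Disjoint (Cl3 i) (Cl3 j) := by
  intro i j hij
  rw [Set.disjoint_left]
  intro x hx hy
  fin_cases i <;> fin_cases j <;> first | exact hij rfl | skip
  · exact zA_disj hx hy
  · exact AB_disj (z_dvd hx) hy
  · exact AC_disj (z_dvd hx) hy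
  · exact zA_disj hy hx
  · exact AB_disj (PA_dvd hx) hy
  · exact AC_disj (PA_dvd hx) hy
  · exact AB_disj (z_dvd hy) hx
  · exact AB_disj (PA_dvd hy) hx
  · exact BC_disj hx hy
  · exact AC_disj (z_dvd hy) hx
  · exact AC_disj (PA_dvd hy) hx
  · exact BC_disj hy hx

theorem finCl1 (i : Fin 3) : (Cl1 i).Finite := fin_of_ncard (sz1 i) (by fin_cases i <;> decide)
theorem finCl2 (i : Fin 3) : (Cl2 i).Finite := fin_of_ncard (sz2 i) (by fin_cases i <;> decide)
theorem finCl3 (i : Fin 4) : (Cl3 i).Finite := fin_of_ncard (sz3 i) (by fin_cases i <;> decide)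

section
variable (H : Subgroup Co0) (hH : ∀ g, IsMono g → g ∈ H)
include hH

theorem lev1 : ∃ T : Finset (Fin 3), 0 ∈ T ∧ (MulAction.orbit H t2).ncard = ∑ i ∈ T, ![1104, 97152, 98304] i := by
  obtain ⟨T, h1, h2⟩ := orbit_sizes H t2 Cl1 0 finCl1 dj1 (by
    intro g _
    have h4 : bL (g • t2) (g • t2) = 4 := by rw [co0_bL]; exact bL_t2_t2
    rcases min_shape h4 with h | h | h
    · exact ⟨0, h⟩
    · exact ⟨1, h⟩
    · exact ⟨2, h⟩) (by
    show PA1 (t2 : GolayPt → ℤ)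
    refine ⟨{gpt 23, gpt 0}, ∅, Finset.card_pair g23_ne_g0, Finset.empty_subset _, ?_⟩
    funext k
    rw [sgnv_val, t2_pp, pp_AP]
    have hne := g23_ne_g0
    by_cases e1 : k = gpt 23
    · subst e1; rw [AP_val_p hne, ind_one (by simp), ind_zero (by simp)]; norm_num
    · by_cases e2 : k = gpt 0
      · subst e2; rw [AP_val_j e1, ind_one (by simp), ind_zero (by simp)]; rfl
      · rw [AP_val_ne e1 e2, ind_zero (by simp [e1, e2]), ind_zero (by simp)]; norm_num) (by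
    intro i
    fin_cases i
    · exact ⟨t2, fun y hy => by
        obtain ⟨g, g1, g2⟩ := trA1 hy
        exact ⟨g, hH g g1, g2⟩⟩
    · exact ⟨_, fun y hy => by
        obtain ⟨g, g1, g2⟩ := trB1 hy
        exact ⟨g, hH g g1, g2⟩⟩
    · exact ⟨_, fun y hy => by
        obtain ⟨g, g1, g2⟩ := trC1 hy
        exact ⟨g, hH g g1, g2⟩⟩)
  exact ⟨T, h1, by rw [h2]; exact Finset.sum_congr rfl fun i _ => sz1 i⟩

theorem lev2 : ∃ T : Finset (Fin 3), 0 ∈ T ∧
    (MulAction.orbit (H ⊓ MulAction.stabilizer Co0 t2 : Subgroup Co0) x1).ncard = ∑ i ∈ T, ![88, 2464, 2048] i := by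
  have hx1 : bL x1 x1 = 4 ∧ bL t2 x1 = 2 := ⟨x1_mem.1.1, x1_mem.2⟩
  obtain ⟨T, h1, h2⟩ := orbit_sizes (H ⊓ MulAction.stabilizer Co0 t2) x1 Cl2 0 finCl2 dj2 (by
    intro g hg
    have h4 : bL (g • x1) (g • x1) = 4 := by rw [co0_bL]; exact hx1.1
    have h5 : bL t2 (g • x1) = 2 := by
      have e : g • t2 = t2 := (Subgroup.mem_inf.1 hg).2
      rw [← e, co0_bL]; exact hx1.2
    have h6 := (t2_two_iff _).1 h5
    rcases min_shape h4 with h | h | h
    · exact ⟨0, res_A2 h h6⟩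
    · refine ⟨1, ?_⟩
      have b1 := B_le h (gpt 23)
      have b2 := B_le h (gpt 0)
      have c1 := res_B h (q := gpt 0) (by omega)
      have c2 := res_B c1 (q := gpt 23) (by omega)
      have e : insert (gpt 23) (insert (gpt 0) (∅ : Finset GolayPt)) = {gpt 23, gpt 0} := rfl
      rw [e] at c2
      exact c2
    · exact ⟨2, res_C2 h h6⟩) (by
    show PA _ _ (x1 : GolayPt → ℤ)
    refine ⟨gpt 23, by simp, gpt 1, ?_, true, pp_AP _ _⟩
    simp only [Finset.mem_compl, Finset.mem_insert, Finset.mem_singleton, not_or]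
    exact g1_ne) (by
    intro i
    fin_cases i
    · exact ⟨x1, fun y hy => by
        obtain ⟨g, g1, g3, g2⟩ := trA2 hy
        exact ⟨g, Subgroup.mem_inf.2 ⟨hH g g1, g3⟩, g2⟩⟩
    · exact ⟨_, fun y hy => by
        obtain ⟨g, g1, g3, g2⟩ := trB2 hy
        exact ⟨g, Subgroup.mem_inf.2 ⟨hH g g1, g3⟩, g2⟩⟩
    · exact ⟨_, fun y hy => by
        obtain ⟨g, g1, g3, g2⟩ := trC2 hy
        exact ⟨g, Subgroup.mem_inf.2 ⟨hH g g1, g3⟩, g2⟩⟩)
  exact ⟨T, h1, by rw [h2]; exact Finset.sum_congr rfl fun i _ => sz2 i⟩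

theorem lev3 : ∃ T : Finset (Fin 4), 0 ∈ T ∧
    (MulAction.orbit (H ⊓ MulAction.stabilizer Co0 t2 ⊓ MulAction.stabilizer Co0 x1 : Subgroup Co0)
      (pp (gpt 0) (gpt 1))).ncard = ∑ i ∈ T, ![1, 42, 336, 512] i := by
  have hne := g23_ne_g0
  have h10 := g1_ne
  have z4 : bL (pp (gpt 0) (gpt 1)) (pp (gpt 0) (gpt 1)) = 4 := pp_norm (Ne.symm h10.2)
  have zt : bL t2 (pp (gpt 0) (gpt 1)) = 2 := by
    rw [t2_two_iff, pp_AP, AP_val_ne hne (Ne.symm h10.1), AP_val_p (Ne.symm h10.2)]; norm_num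
  have zx : bL (pp (gpt 0) (gpt 1)) x1 = 2 := by
    have h := two_bL_pp (pp (gpt 0) (gpt 1)) (gpt 23) (gpt 1)
    rw [pp_AP, AP_val_ne hne (Ne.symm h10.1), AP_val_j h10.2] at h
    have : sg true = 1 := rfl
    rw [this] at h
    show bL (pp (gpt 0) (gpt 1)) (pp (gpt 23) (gpt 1)) = 2
    omega
  obtain ⟨T, h1, h2⟩ := orbit_sizes (H ⊓ MulAction.stabilizer Co0 t2 ⊓ MulAction.stabilizer Co0 x1)
    (pp (gpt 0) (gpt 1)) Cl3 0 finCl3 dj3 (by
    intro g hg
    have h4 : bL (g • pp (gpt 0) (gpt 1)) (g • pp (gpt 0) (gpt 1)) = 4 := by rw [co0_bL]; exact z4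
    have h5 : bL t2 (g • pp (gpt 0) (gpt 1)) = 2 := by
      have e : g • t2 = t2 := (Subgroup.mem_inf.1 (Subgroup.mem_inf.1 hg).1).2
      rw [← e, co0_bL]; exact zt
    have h7 : bL (g • pp (gpt 0) (gpt 1)) x1 = 2 := by
      have e : g • x1 = x1 := (Subgroup.mem_inf.1 hg).2
      rw [← e, co0_bL]; exact zx
    have h6 := (t2_two_iff _).1 h5
    have h8 : ((g • pp (gpt 0) (gpt 1) : leechLattice) : GolayPt → ℤ) (gpt 23) +
        ((g • pp (gpt 0) (gpt 1) : leechLattice) : GolayPt → ℤ) (gpt 1) = 4 := by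
      have h := two_bL_pp (g • pp (gpt 0) (gpt 1)) (gpt 23) (gpt 1)
      have h9 : bL (g • pp (gpt 0) (gpt 1)) (pp (gpt 23) (gpt 1)) = 2 := h7
      rw [h9] at h
      omega
    rcases min_shape h4 with h | h | h
    · rcases res_A3 (res_A2 h h6) h8 with h' | h'
      · exact ⟨1, h'⟩
      · exact ⟨0, h'⟩
    · refine ⟨2, ?_⟩
      have b1 := B_le h (gpt 23)
      have b2 := B_le h (gpt 0)
      have b3 := B_le h (gpt 1)
      have c1 := res_B h (q := gpt 1) (by omega)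
      have c2 := res_B c1 (q := gpt 0) (by omega)
      have c3 := res_B c2 (q := gpt 23) (by omega)
      have e : insert (gpt 23) (insert (gpt 0) (insert (gpt 1) (∅ : Finset GolayPt))) = {gpt 23, gpt 0, gpt 1} := rfl
      rw [e] at c3
      exact c3
    · exact ⟨3, res_C3 (res_C2 h h6) h8⟩) rfl (by
    intro i
    fin_cases i
    · exact ⟨pp (gpt 0) (gpt 1), fun y hy => ⟨1, Subgroup.one_mem _, by rw [one_smul]; exact hy⟩⟩
    · exact ⟨_, fun y hy => by
        obtain ⟨g, g1, g3, g4, g2⟩ := trA3 hy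
        exact ⟨g, Subgroup.mem_inf.2 ⟨Subgroup.mem_inf.2 ⟨hH g g1, g3⟩, g4⟩, g2⟩⟩
    · exact ⟨_, fun y hy => by
        obtain ⟨g, g1, g3, g4, g2⟩ := trB3 hy
        exact ⟨g, Subgroup.mem_inf.2 ⟨Subgroup.mem_inf.2 ⟨hH g g1, g3⟩, g4⟩, g2⟩⟩
    · exact ⟨_, fun y hy => by
        obtain ⟨g, g1, g3, g4, g2⟩ := trC3 hy
        exact ⟨g, Subgroup.mem_inf.2 ⟨Subgroup.mem_inf.2 ⟨hH g g1, g3⟩, g4⟩, g2⟩⟩)
  exact ⟨T, h1, by rw [h2]; exact Finset.sum_congr rfl fun i _ => sz3 i⟩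

/-- the common stabiliser -/
theorem common : (H ⊓ MulAction.stabilizer Co0 t2 ⊓ MulAction.stabilizer Co0 x1 ⊓
    MulAction.stabilizer Co0 (pp (gpt 0) (gpt 1)) : Subgroup Co0) =
    (MulAction.stabilizer Co0 t2 ⊓ MulAction.stabilizer Co0 x1 ⊓
    MulAction.stabilizer Co0 (pp (gpt 0) (gpt 1)) : Subgroup Co0) := by
  apply le_antisymm
  · intro g hg
    obtain ⟨h1, h2⟩ := Subgroup.mem_inf.1 hg
    obtain ⟨h3, h4⟩ := Subgroup.mem_inf.1 h1
    exact Subgroup.mem_inf.2 ⟨Subgroup.mem_inf.2 ⟨(Subgroup.mem_inf.1 h3).2, h4⟩, h2⟩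
  · intro g hg
    obtain ⟨h1, h2⟩ := Subgroup.mem_inf.1 hg
    obtain ⟨h3, h4⟩ := Subgroup.mem_inf.1 h1
    refine Subgroup.mem_inf.2 ⟨Subgroup.mem_inf.2 ⟨Subgroup.mem_inf.2 ⟨?_, h3⟩, h4⟩, h2⟩
    apply hH
    have e : e8 (gpt 23) = t2 + x1 - pp (gpt 0) (gpt 1) := by
      apply two_inj
      rw [smul_sub, smul_add, two_t2]
      show _ = e8 (gpt 23) + e8 (gpt 0) + (2 : ℤ) • pp (gpt 23) (gpt 1) - _
      rw [two_pp, two_pp, two_smul]
      abel
    have e2 : g • e8 (gpt 23) = e8 (gpt 23) := by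
      have k1 : g • t2 = t2 := h3
      have k2 : g • x1 = x1 := h4
      have k3 : g • pp (gpt 0) (gpt 1) = pp (gpt 0) (gpt 1) := h2
      rw [e, co0_sub, co0_add, k1, k2, k3]
    exact mono_of_fix e2

/-- the order of an overgroup of the monomial group -/
theorem ord_form : ∃ (T1 T2 : Finset (Fin 3)) (T3 : Finset (Fin 4)), 0 ∈ T1 ∧ 0 ∈ T2 ∧ 0 ∈ T3 ∧
    Nat.card H = (∑ i ∈ T1, ![1104, 97152, 98304] i) * ((∑ i ∈ T2, ![88, 2464, 2048] i) *
      ((∑ i ∈ T3, ![1, 42, 336, 512] i) * Nat.card (MulAction.stabilizer Co0 t2 ⊓ MulAction.stabilizer Co0 x1 ⊓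
    MulAction.stabilizer Co0 (pp (gpt 0) (gpt 1)) : Subgroup Co0))) := by
  obtain ⟨T1, a1, a2⟩ := lev1 H hH
  obtain ⟨T2, b1, b2⟩ := lev2 H hH
  obtain ⟨T3, c1, c2⟩ := lev3 H hH
  refine ⟨T1, T2, T3, a1, b1, c1, ?_⟩
  rw [card_eq_orbit_mul' H t2, card_eq_orbit_mul' (H ⊓ MulAction.stabilizer Co0 t2) x1,
    card_eq_orbit_mul' (H ⊓ MulAction.stabilizer Co0 t2 ⊓ MulAction.stabilizer Co0 x1) (pp (gpt 0) (gpt 1)),
    a2, b2, c2, common H hH]

end

theorem arith_all : ∀ T1 T2 : Finset (Fin 3), ∀ T3 : Finset (Fin 4), 0 ∈ T1 → 0 ∈ T2 → 0 ∈ T3 →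
    97152 ∣ (∑ i ∈ T1, ![1104, 97152, 98304] i) * ((∑ i ∈ T2, ![88, 2464, 2048] i) * (∑ i ∈ T3, ![1, 42, 336, 512] i)) →
    (∑ i ∈ T1, ![1104, 97152, 98304] i) * ((∑ i ∈ T2, ![88, 2464, 2048] i) * (∑ i ∈ T3, ![1, 42, 336, 512] i)) ∣ 805620816000 →
    (∑ i ∈ T1, ![1104, 97152, 98304] i) * ((∑ i ∈ T2, ![88, 2464, 2048] i) * (∑ i ∈ T3, ![1, 42, 336, 512] i)) = 97152 ∨
    (∑ i ∈ T1, ![1104, 97152, 98304] i) * ((∑ i ∈ T2, ![88, 2464, 2048] i) * (∑ i ∈ T3, ![1, 42, 336, 512] i)) = 805620816000 := by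
  decide +kernel

end Cfsg.Agent.H29
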