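import Mathlib
import Cfsg.Prelude.Def_FischerSpaces
set_option autoImplicit false

/-! The two planes of a Fischer space as models with an operation. -/

namespace Cfsg.Agent.H29
open Cfsg Cfsg.LineSystem

/-- The reflection in the point `p` of a model. -/
noncomputable def mt {P : Type*} (nc : P → P → Prop) (op : P → P → P) (p y : P) : P :=
  haveI := Classical.propDecidable
  if nc p y then op p y else y

/-- A line system given by a partial operation. -/
structure FModel {P : Type*} (M : Set (Set P)) (nc : P → P → Prop) (op : P → P → P) : Prop where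
  lines : ∀ l : Set P, l ∈ M ↔ ∃ x y, nc x y ∧ l = {x, y, op x y}
  ne : ∀ x y, nc x y → x ≠ y ∧ op x y ≠ x ∧ op x y ≠ y
  symm : ∀ x y, nc x y → nc y x ∧ op y x = op x y
  third : ∀ x y, nc x y → nc x (op x y) ∧ op x (op x y) = y
  aut : ∀ p x y, nc x y → nc (mt nc op p x) (mt nc op p y) ∧
    mt nc op p (op x y) = op (mt nc op p x) (mt nc op p y)

theorem mt_pos {P : Type*} {nc : P → P → Prop} {op : P → P → P} {p y : P} (h : nc p y) :
    mt nc op p y = op p y := by
  unfold mt; simp [h]

theorem mt_neg {P : Type*} {nc : P → P → Prop} {op : P → P → P} {p y : P} (h : ¬ nc p y) :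
    mt nc op p y = y := by
  unfold mt; simp [h]

/-! ### The affine plane -/

theorem affine_model : FModel affinePlaneThree (fun x y : Fin 2 → ZMod 3 => x ≠ y)
    (fun x y => -x - y) := by
  have h3 : ∀ x : Fin 2 → ZMod 3, x + x + x = 0 := by decide
  have hmt : ∀ p y : Fin 2 → ZMod 3, mt (fun x y : Fin 2 → ZMod 3 => x ≠ y)
      (fun x y => -x - y) p y = -p - y := by
    intro p y
    by_cases h : p = y
    · rw [mt_neg (by simpa using h)]
      subst h
      have := h3 p
      rw [eq_comm, sub_eq_iff_eq_add, neg_eq_iff_add_eq_zero, ← add_assoc]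
      exact this
    · rw [mt_pos h]
  refine ⟨?_, ?_, ?_, ?_, ?_⟩
  · intro l
    constructor
    · rintro ⟨v, w, hw, rfl⟩
      refine ⟨v, v + w, ?_, ?_⟩
      · intro h
        apply hw
        have : v + 0 = v + w := by rw [add_zero]; exact h
        exact (add_left_cancel this).symm
      · ext x
        constructor
        · rintro ⟨c, rfl⟩
          have hc : c = 0 ∨ c = 1 ∨ c = 2 := by revert c; decide
          rcases hc with rfl | rfl | rfl
          · left; simp
          · right; left; simp
          · right; right
            show v + (2 : ZMod 3) • w = -v - (v + w)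
            have hv := h3 v
            have hw' := h3 w
            rw [two_smul]
            have : v + (w + w) - (-v - (v + w)) = 0 := by
              calc v + (w + w) - (-v - (v + w)) = (v + v + v) + (w + w + w) := by abel
                _ = 0 := by rw [hv, hw', add_zero]
            exact sub_eq_zero.1 this
        · rintro (rfl | rfl | rfl)
          · exact ⟨0, by simp⟩
          · exact ⟨1, by simp⟩
          · refine ⟨2, ?_⟩
            have hv := h3 v
            have hw' := h3 w
            show -v - (v + w) = v + (2 : ZMod 3) • w
            rw [two_smul]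
            have : v + (w + w) - (-v - (v + w)) = 0 := by
              calc v + (w + w) - (-v - (v + w)) = (v + v + v) + (w + w + w) := by abel
                _ = 0 := by rw [hv, hw', add_zero]
            exact (sub_eq_zero.1 this).symm
    · rintro ⟨x, y, hxy, rfl⟩
      refine ⟨x, y - x, sub_ne_zero.2 (fun h => hxy h.symm), ?_⟩
      ext z
      constructor
      · rintro (rfl | rfl | rfl)
        · exact ⟨0, by simp⟩
        · exact ⟨1, by simp⟩
        · refine ⟨2, ?_⟩
          show -x - y = x + (2 : ZMod 3) • (y - x)
          rw [two_smul]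
          have hx := h3 x
          have hy := h3 y
          have : -x - y - (x + (y - x + (y - x))) = 0 := by
            calc -x - y - (x + (y - x + (y - x))) = -(y + y + y) := by abel
              _ = 0 := by rw [hy, neg_zero]
          exact sub_eq_zero.1 this
      · rintro ⟨c, rfl⟩
        have hc : c = 0 ∨ c = 1 ∨ c = 2 := by revert c; decide
        rcases hc with rfl | rfl | rfl
        · left; simp
        · right; left; simp
        · right; right
          show x + (2 : ZMod 3) • (y - x) = -x - y
          rw [two_smul]
          have hx := h3 x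
          have hy := h3 y
          have : -x - y - (x + (y - x + (y - x))) = 0 := by
            calc -x - y - (x + (y - x + (y - x))) = -(y + y + y) := by abel
              _ = 0 := by rw [hy, neg_zero]
          exact (sub_eq_zero.1 this).symm
  · decide +kernel
  · intro x y h
    exact ⟨fun h' => h h'.symm, by show -y - x = -x - y; abel⟩
  · decide +kernel
  · intro p x y h
    rw [hmt, hmt, hmt]
    refine ⟨fun h' => h (sub_right_injective h'), ?_⟩
    have hp := h3 p
    show -p - (-x - y) = -(-p - x) - (-p - y)
    have : -p - (-x - y) - (-(-p - x) - (-p - y)) = 0 := by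
      calc -p - (-x - y) - (-(-p - x) - (-p - y)) = -(p + p + p) := by abel
        _ = 0 := by rw [hp, neg_zero]
    exact sub_eq_zero.1 this

/-! ### The dual affine plane -/

/-- non-commutation of two transpositions -/
def dnc (x y : DualAffinePoint) : Prop := (x.val ∩ y.val).card = 1

instance : DecidableRel dnc := fun x y => by unfold dnc; infer_instance

/-- the symmetric difference -/
def dop (x y : DualAffinePoint) : DualAffinePoint :=
  if h : (symmDiff x.val y.val).card = 2 then ⟨symmDiff x.val y.val, h⟩ else x

def dmt (p y : DualAffinePoint) : DualAffinePoint := if dnc p y then dop p y else y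

theorem mt_dual (p y : DualAffinePoint) : mt dnc dop p y = dmt p y := by
  unfold dmt
  by_cases h : dnc p y
  · rw [mt_pos h, if_pos h]
  · rw [mt_neg h, if_neg h]

theorem dual_lines1 : ∀ i : Fin 4, ∃ x y : DualAffinePoint, dnc x y ∧
    ∀ s : DualAffinePoint, i ∉ s.val ↔ (s = x ∨ s = y ∨ s = dop x y) := by
  decide +kernel

theorem dual_lines2' : ∀ x y : DualAffinePoint, ¬ dnc x y ∨ ∃ i : Fin 4,
    ∀ s : DualAffinePoint, i ∉ s.val ↔ (s = x ∨ s = y ∨ s = dop x y) := by
  decide +kernel

theorem dual_lines2 (x y : DualAffinePoint) (h : dnc x y) : ∃ i : Fin 4,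
    ∀ s : DualAffinePoint, i ∉ s.val ↔ (s = x ∨ s = y ∨ s = dop x y) :=
  (dual_lines2' x y).resolve_left (not_not_intro h)

theorem dual_model : FModel dualAffinePlaneTwo dnc dop := by
  refine ⟨?_, ?_, ?_, ?_, ?_⟩
  · intro l
    constructor
    · rintro ⟨i, rfl⟩
      obtain ⟨x, y, h, hs⟩ := dual_lines1 i
      refine ⟨x, y, h, ?_⟩
      ext s
      exact hs s
    · rintro ⟨x, y, h, rfl⟩
      obtain ⟨i, hs⟩ := dual_lines2 x y h
      refine ⟨i, ?_⟩
      ext s
      exact (hs s).symm
  · decide +kernel
  · decide +kernel
  · decide +kernel
  · intro p x y h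
    simp only [mt_dual]
    revert p x y
    decide +kernel

end Cfsg.Agent.H29
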