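import Mathlib
import Cfsg.Agent.H7.GolaySimple
import Cfsg.Agent.H29.CodeSet
set_option autoImplicit false

/-! Families of subsets of the 24 points closed under symmetric difference and `M24`. -/

open Cfsg
namespace Cfsg.Agent.H29
open Cfsg.Agent.H7
open scoped Pointwise

theorem supp_perm (σ : Equiv.Perm GolayPt) (w : GolayPt → ZMod 2) :
    support₂ (fun p => w (σ.symm p)) = σ • support₂ w := by
  ext p
  rw [← Finset.inv_smul_mem_iff]
  simp only [support₂, Finset.mem_filter, Finset.mem_univ, true_and]
  rfl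

theorem supp_add (v w : GolayPt → ZMod 2) : support₂ (v + w) = symmDiff (support₂ v) (support₂ w) := by
  ext i
  rw [Finset.mem_symmDiff]
  simp only [support₂, Finset.mem_filter, Finset.mem_univ, true_and, Pi.add_apply]
  generalize w i = a
  generalize v i = b
  revert a b; decide

theorem supp_one : support₂ (1 : GolayPt → ZMod 2) = Finset.univ := by
  ext i
  simp [support₂]

theorem supp_zero : support₂ (0 : GolayPt → ZMod 2) = ∅ := by
  ext i
  simp [support₂]

/-- closed under symmetric difference and under `M24` -/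
structure Inv (S : Set (Finset GolayPt)) : Prop where
  zero : ∅ ∈ S
  add : ∀ s ∈ S, ∀ t ∈ S, symmDiff s t ∈ S
  smul : ∀ σ ∈ M24, ∀ s ∈ S, σ • s ∈ S

/-- the supports of an invariant subspace -/
def WS (W : Submodule (ZMod 2) (GolayPt → ZMod 2)) : Set (Finset GolayPt) :=
  {s | ∃ w ∈ W, support₂ w = s}

theorem mem_WS {W : Submodule (ZMod 2) (GolayPt → ZMod 2)} {w : GolayPt → ZMod 2} :
    support₂ w ∈ WS W ↔ w ∈ W := by
  constructor
  · rintro ⟨v, hv, h⟩
    rwa [← support₂_injective h]
  · intro h
    exact ⟨w, h, rfl⟩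

theorem inv_WS {W : Submodule (ZMod 2) (GolayPt → ZMod 2)}
    (hW : ∀ σ ∈ M24, ∀ w ∈ W, (fun p => w (σ.symm p)) ∈ W) : Inv (WS W) := by
  refine ⟨⟨0, W.zero_mem, supp_zero⟩, ?_, ?_⟩
  · rintro _ ⟨v, hv, rfl⟩ _ ⟨w, hw, rfl⟩
    exact ⟨v + w, W.add_mem hv hw, supp_add v w⟩
  · rintro σ hσ _ ⟨w, hw, rfl⟩
    exact ⟨_, hW σ hσ w hw, supp_perm σ w⟩

theorem mem_GC_octad {r : ℕ} (h : isCW r = true) (h8 : popc r = 8) : toSet r ∈ octads := by
  rw [mem_octads]
  exact ⟨mem_GC_mask.2 ⟨r, h, rfl⟩, by rw [card_toSet]; exact h8⟩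

/-- the octads span the code -/
theorem GC_of_octads {S : Set (Finset GolayPt)} (hS : Inv S) (ho : ∀ o ∈ octads, o ∈ S) :
    ∀ s ∈ GC, s ∈ S := by
  have hrow : ∀ r ∈ gRows, toSet r ∈ S := by
    intro r hr
    apply ho
    have h1 : ∀ r ∈ gRows, isCW r = true ∧ popc r = 8 := by decide +kernel
    exact mem_GC_octad (h1 r hr).1 (h1 r hr).2
  have henc : ∀ (l : List ℕ), (∀ r ∈ l, toSet r ∈ S) → ∀ a, toSet (encL l a) ∈ S := by
    intro l
    induction l with
    | nil =>
      intro _ a
      show toSet 0 ∈ S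
      rw [toSet_zero]
      exact hS.zero
    | cons r rs ih =>
      intro hl a
      show toSet ((if a % 2 = 1 then r else 0) ^^^ encL rs (a / 2)) ∈ S
      rw [toSet_xor]
      apply hS.add
      · split_ifs
        · exact hl r List.mem_cons_self
        · rw [toSet_zero]; exact hS.zero
      · exact ih (fun r hr => hl r (List.mem_cons_of_mem _ hr)) _
  intro s hs
  obtain ⟨a, -, rfl⟩ := mem_GC_iff.1 hs
  exact henc gRows hrow a

/-- a family containing a non-trivial codeword contains the code -/
theorem GC_sub {S : Set (Finset GolayPt)} (hS : Inv S) {s : Finset GolayPt} (hs : s ∈ GC)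
    (hsS : s ∈ S) (h0 : s ≠ ∅) (h1 : s ≠ Finset.univ) : ∀ t ∈ GC, t ∈ S := by
  -- it is enough to find one octad
  suffices h : ∃ o ∈ octads, o ∈ S by
    obtain ⟨o, ho, hoS⟩ := h
    apply GC_of_octads hS
    intro o' ho'
    obtain ⟨σ, hσ, rfl⟩ := octad_transitive ho ho'
    exact hS.smul σ hσ o hoS
  rcases GC_weights s hs with h | h | h | h | h
  · exact absurd (Finset.card_eq_zero.1 h) h0
  · exact ⟨s, mem_octads.2 ⟨hs, h⟩, hsS⟩
  · -- two dodecads whose sum is an octad
    have hd : ∀ d ∈ dodecads, d ∈ S := by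
      intro d hd
      obtain ⟨σ, hσ, rfl⟩ := dodecad_transitive (mem_dodecads.2 ⟨hs, h⟩) hd
      exact hS.smul σ hσ s hsS
    have k1 : isCW 11472927 = true ∧ popc 11472927 = 12 ∧ isCW 15130653 = true ∧ popc 15130653 = 12 := by
      decide +kernel
    have m1 : toSet 11472927 ∈ dodecads :=
      mem_dodecads.2 ⟨mem_GC_mask.2 ⟨_, k1.1, rfl⟩, by rw [card_toSet]; exact k1.2.1⟩
    have m2 : toSet 15130653 ∈ dodecads :=
      mem_dodecads.2 ⟨mem_GC_mask.2 ⟨_, k1.2.2.1, rfl⟩, by rw [card_toSet]; exact k1.2.2.2⟩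
    have h3 := hS.add _ (hd _ m1) _ (hd _ m2)
    rw [← toSet_xor] at h3
    have h4 : (11472927 ^^^ 15130653 : ℕ) = 4845570 := by decide +kernel
    rw [h4] at h3
    exact ⟨_, mem_GC_octad (by decide +kernel) (by decide +kernel), h3⟩
  · -- complements of two octads
    have hd : ∀ o ∈ octads, oᶜ ∈ S := by
      intro o ho
      have hso : sᶜ ∈ octads := by
        refine mem_octads.2 ⟨GC_compl hs, ?_⟩
        rw [Finset.card_compl, h]
        rfl
      obtain ⟨σ, hσ, rfl⟩ := octad_transitive hso ho
      have h3 := hS.smul σ hσ s hsS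
      have h4 : (σ • sᶜ)ᶜ = σ • s := by
        ext p
        rw [Finset.mem_compl, ← Finset.inv_smul_mem_iff, Finset.mem_compl, not_not,
          Finset.inv_smul_mem_iff]
      rw [h4]
      exact h3
    have m1 : toSet 13062145 ∈ octads := mem_GC_octad (by decide +kernel) (by decide +kernel)
    have m2 : toSet 4845570 ∈ octads := mem_GC_octad (by decide +kernel) (by decide +kernel)
    have h3 := hS.add _ (hd _ m1) _ (hd _ m2)
    rw [compl_symmDiff_compl, ← toSet_xor] at h3
    have h4 : (13062145 ^^^ 4845570 : ℕ) = 9347075 := by decide +kernel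
    rw [h4] at h3
    exact ⟨_, mem_GC_octad (by decide +kernel) (by decide +kernel), h3⟩
  · exfalso
    apply h1
    rw [← Finset.card_eq_iff_eq_univ, h]
    rfl

/-- fix at most four points and move another one -/
theorem move_fix {l : Finset GolayPt} (hl : l.card ≤ 4) {a b : GolayPt} (ha : a ∉ l) (hb : b ∉ l) :
    ∃ σ ∈ M24, (∀ p ∈ l, σ p = p) ∧ σ a = b := by
  obtain ⟨x, hx, hxl⟩ := exists_enum_eq (s := l) rfl
  have hmem : ∀ i, x i ∈ l := fun i => by
    rw [← hxl]; exact Finset.mem_image_of_mem _ (Finset.mem_univ _)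
  obtain ⟨σ, hσ, h⟩ := M24_mapn (n := l.card + 1) (by omega) (Fin.cons a x) (Fin.cons b x)
    (Fin.cons_injective_iff.2 ⟨fun ⟨i, hi⟩ => ha (hi ▸ hmem i), hx⟩)
    (Fin.cons_injective_iff.2 ⟨fun ⟨i, hi⟩ => hb (hi ▸ hmem i), hx⟩)
  refine ⟨σ, hσ, ?_, ?_⟩
  · intro p hp
    rw [← hxl, Finset.mem_image] at hp
    obtain ⟨i, -, rfl⟩ := hp
    have := h i.succ
    simpa using this
  · simpa using h 0

theorem smul_eq_of_fix {σ : Equiv.Perm GolayPt} {l : Finset GolayPt} (h : ∀ p ∈ l, σ p = p) :
    σ • l = l := by
  apply Finset.eq_of_subset_of_card_le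
  · intro q hq
    rw [← Finset.inv_smul_mem_iff] at hq
    have h1 := h _ hq
    have h2 : σ (σ⁻¹ • q) = q := by
      show σ (σ⁻¹ q) = q
      simp
    rw [h2] at h1
    rw [h1]
    exact hq
  · rw [Finset.card_smul_finset]

/-- A family not contained in the code contains a pair. -/
theorem pair_of_not_GC {S : Set (Finset GolayPt)} (hS : Inv S) {w : Finset GolayPt} (hw : w ∈ S)
    (hwG : w ∉ GC) : ∃ a b : GolayPt, a ≠ b ∧ ({a, b} : Finset GolayPt) ∈ S := by
  obtain ⟨l, hl, hwl⟩ := leader w w.card w rfl (by rw [symmDiff_self]; exact GC_empty)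
  have hl0 : l.Nonempty := by
    rw [Finset.nonempty_iff_ne_empty]
    rintro rfl
    apply hwG
    have : symmDiff w ∅ = w := symmDiff_bot w
    rwa [this] at hwl
  -- it is enough to have `l` or its complement
  suffices hcl : l ∈ S ∨ lᶜ ∈ S by
    obtain ⟨a, ha⟩ := hl0
    have hlc : l.card < Fintype.card GolayPt := by
      have : Fintype.card GolayPt = 24 := by decide
      omega
    obtain ⟨b, hb⟩ : ∃ b, b ∉ l := by
      by_contra hcon
      push Not at hcon
      have : l = Finset.univ := Finset.eq_univ_of_forall hcon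
      rw [this, Finset.card_univ] at hlc
      exact absurd hlc (lt_irrefl _)
    have hab : a ≠ b := by rintro rfl; exact hb ha
    obtain ⟨σ, hσ, hfix, hσa⟩ := move_fix (l := l.erase a)
      (le_trans (Finset.card_erase_le) hl) (a := a) (b := b) (Finset.notMem_erase a l)
      (fun h => hb (Finset.mem_of_mem_erase h))
    have hsl : σ • l = insert b (l.erase a) := by
      have h1 : σ • (l.erase a) = l.erase a := smul_eq_of_fix hfix
      conv_lhs => rw [← Finset.insert_erase ha]
      rw [Finset.smul_finset_insert, h1]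
      show insert (σ a) _ = _
      rw [hσa]
    have hsd : symmDiff l (σ • l) = {a, b} := by
      rw [hsl]
      ext p
      simp only [Finset.mem_symmDiff, Finset.mem_insert, Finset.mem_erase, Finset.mem_singleton]
      by_cases hpa : p = a
      · subst hpa
        simp [ha, hab]
      · by_cases hpb : p = b
        · subst hpb
          simp [hb]
        · simp [hpa, hpb]
    refine ⟨a, b, hab, ?_⟩
    rcases hcl with h | h
    · rw [← hsd]
      exact hS.add _ h _ (hS.smul σ hσ _ h)
    · have h2 := hS.add _ h _ (hS.smul σ hσ _ h)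
      have h3 : σ • lᶜ = (σ • l)ᶜ := by
        ext p
        rw [Finset.mem_compl, ← Finset.inv_smul_mem_iff, Finset.mem_compl,
          ← Finset.inv_smul_mem_iff]
      rw [h3, compl_symmDiff_compl, hsd] at h2
      exact h2
  have hwl' : l = symmDiff w (symmDiff w l) := by
    rw [← symmDiff_assoc, symmDiff_self]
    exact (bot_symmDiff l).symm
  by_cases hG : ∃ s ∈ GC, s ∈ S ∧ s ≠ ∅ ∧ s ≠ Finset.univ
  · obtain ⟨s, h1, h2, h3, h4⟩ := hG
    left
    rw [hwl']
    exact hS.add _ hw _ (GC_sub hS h1 h2 h3 h4 _ hwl)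
  · push Not at hG
    -- `w` is fixed by the pointwise stabiliser of `l`
    have hfix : ∀ σ ∈ M24, (∀ p ∈ l, σ p = p) → σ • w = w := by
      intro σ hσ hp
      have h1 : symmDiff w (σ • w) ∈ GC := by
        have h2 := GC_symmDiff hwl (M24_smul_mem hσ hwl)
        rw [smul_symmDiff', smul_eq_of_fix hp] at h2
        have h3 : symmDiff (symmDiff w l) (symmDiff (σ • w) l) = symmDiff w (σ • w) := by
          rw [symmDiff_symmDiff_symmDiff_comm, symmDiff_self]
          exact symmDiff_bot _
        rwa [h3] at h2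
      have h4 : symmDiff w (σ • w) ∈ S := hS.add _ hw _ (hS.smul σ hσ _ hw)
      by_cases h5 : symmDiff w (σ • w) = ∅
      · have := symmDiff_eq_bot.1 h5
        exact this.symm
      · exfalso
        have h6 := hG _ h1 h4 (Finset.nonempty_iff_ne_empty.2 h5)
        obtain ⟨p, hpl⟩ := hl0
        have h7 : p ∈ symmDiff w (σ • w) := by rw [h6]; exact Finset.mem_univ p
        rw [Finset.mem_symmDiff, ← Finset.inv_smul_mem_iff] at h7
        have h8 : σ⁻¹ • p = p := by
          show σ⁻¹ p = p
          rw [Equiv.Perm.inv_eq_iff_eq, hp p hpl]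
        rw [h8] at h7
        tauto
    by_cases hall : ∃ a, a ∉ l ∧ a ∈ w
    · -- `w` contains the complement of `l`
      obtain ⟨a, hal, haw⟩ := hall
      have hsub : ∀ b, b ∉ l → b ∈ w := by
        intro b hb
        obtain ⟨σ, hσ, hf, hab⟩ := move_fix hl hal hb
        rw [← hfix σ hσ hf, ← hab]
        exact Finset.smul_mem_smul_finset haw
      right
      have h9 : symmDiff w l = Finset.univ := by
        have hsub2 : lᶜ ⊆ symmDiff w l := by
          intro b hb
          rw [Finset.mem_compl] at hb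
          rw [Finset.mem_symmDiff]
          exact Or.inl ⟨hsub b hb, hb⟩
        have hc := Finset.card_le_card hsub2
        rw [Finset.card_compl] at hc
        have h24 : Fintype.card GolayPt = 24 := by decide
        rw [← Finset.card_eq_iff_eq_univ]
        rcases GC_weights _ hwl with h | h | h | h | h <;> omega
      have h10 : lᶜ = w := by
        have : w = symmDiff (symmDiff w l) l := by
          rw [symmDiff_assoc, symmDiff_self]
          exact (symmDiff_bot w).symm
        rw [this, h9]
        exact (top_symmDiff l).symm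
      rw [h10]
      exact hw
    · push Not at hall
      left
      have hwsub : w ⊆ l := by
        intro p hp
        by_contra hpl
        exact hall p hpl hp
      have h9 : symmDiff w l = ∅ := by
        have hsub2 : symmDiff w l ⊆ l := by
          intro p hp
          rw [Finset.mem_symmDiff] at hp
          rcases hp with h | h
          · exact hwsub h.1
          · exact h.1
        have hc := Finset.card_le_card hsub2
        rw [← Finset.card_eq_zero]
        rcases GC_weights _ hwl with h | h | h | h | h <;> omega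
      have h10 : w = l := symmDiff_eq_bot.1 h9
      rw [← h10]
      exact hw

/-- a family containing a pair contains all even sets -/
theorem even_of_pair {S : Set (Finset GolayPt)} (hS : Inv S) {a b : GolayPt} (hab : a ≠ b)
    (h : ({a, b} : Finset GolayPt) ∈ S) : ∀ s : Finset GolayPt, Even s.card → s ∈ S := by
  have hp : ∀ c d : GolayPt, c ≠ d → ({c, d} : Finset GolayPt) ∈ S := by
    intro c d hcd
    obtain ⟨σ, hσ, h2⟩ := M24_mapn (n := 2) (by norm_num) ![a, b] ![c, d]
      (by intro i j hij; fin_cases i <;> fin_cases j <;> simp_all)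
      (by intro i j hij; fin_cases i <;> fin_cases j <;> simp_all)
    have h3 := hS.smul σ hσ _ h
    have e0 : σ a = c := h2 0
    have e1 : σ b = d := h2 1
    rw [Finset.smul_finset_insert, Finset.smul_finset_singleton] at h3
    have h4 : insert (σ • a) {σ • b} = ({c, d} : Finset GolayPt) := by
      show insert (σ a) {σ b} = _
      rw [e0, e1]
    rwa [h4] at h3
  intro s
  induction s using Finset.strongInduction with
  | H s ih =>
    intro he
    by_cases hs : s = ∅
    · rw [hs]; exact hS.zero
    have hc : 1 < s.card := by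
      have : s.card ≠ 0 := fun h' => hs (Finset.card_eq_zero.1 h')
      obtain ⟨k, hk⟩ := he
      omega
    obtain ⟨c, hcs, d, hds, hcd⟩ := Finset.one_lt_card.1 hc
    have hsub : ({c, d} : Finset GolayPt) ⊆ s := by
      intro x hx
      rw [Finset.mem_insert, Finset.mem_singleton] at hx
      rcases hx with rfl | rfl <;> assumption
    have hcard : (s \ {c, d}).card = s.card - 2 := by
      rw [Finset.card_sdiff_of_subset hsub, Finset.card_pair hcd]
    have h1 := ih (s \ {c, d}) (Finset.ssubset_iff_subset_ne.2 ⟨Finset.sdiff_subset, by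
      intro h'
      rw [h'] at hcard
      omega⟩) (by
      rw [hcard]
      obtain ⟨k, hk⟩ := he
      exact ⟨k - 1, by omega⟩)
    have h2 := hS.add _ (hp c d hcd) _ h1
    have h3 : symmDiff ({c, d} : Finset GolayPt) (s \ {c, d}) = s := by
      ext x
      rw [Finset.mem_symmDiff, Finset.mem_sdiff]
      constructor
      · rintro (⟨hx, -⟩ | ⟨hx, -⟩)
        · exact hsub hx
        · exact hx.1
      · intro hx
        by_cases hx2 : x ∈ ({c, d} : Finset GolayPt)
        · exact Or.inl ⟨hx2, fun h' => h'.2 hx2⟩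
        · exact Or.inr ⟨⟨hx, hx2⟩, hx2⟩
    rwa [h3] at h2

end Cfsg.Agent.H29
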