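import Mathlib
import Cfsg.Agent.H29.GCInv
import Cfsg.Agent.H29.Trans2
set_option autoImplicit false

/-! Linear functionals on the binary Golay code. -/

open Cfsg
namespace Cfsg.Agent.H29
open Cfsg.Agent.H7
open scoped Pointwise

theorem GC_inter_even {s t : Finset GolayPt} (hs : s ∈ GC) (ht : t ∈ GC) : Even (s ∩ t).card := by
  have h1 := cardSD s t
  have h2 := GC_weights _ hs
  have h3 := GC_weights _ ht
  have h4 := GC_weights _ (GC_symmDiff hs ht)
  rw [Nat.even_iff]
  omega

/-- the sum of the coordinates in `S` -/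
def cs (S : Finset GolayPt) (c : GolayPt → ZMod 2) : ZMod 2 := ∑ p ∈ S, c p

theorem cs_card (S : Finset GolayPt) (c : GolayPt → ZMod 2) :
    cs S c = ((support₂ c ∩ S).card : ZMod 2) := by
  have h1 : ∀ a : ZMod 2, a = if a ≠ 0 then 1 else 0 := by decide
  unfold cs
  rw [Finset.card_eq_sum_ones, Nat.cast_sum]
  calc ∑ p ∈ S, c p = ∑ p ∈ S, (if c p ≠ 0 then 1 else 0) := Finset.sum_congr rfl fun p _ => h1 _
    _ = ∑ p ∈ S.filter (fun p => c p ≠ 0), 1 := by rw [Finset.sum_filter]
    _ = ∑ p ∈ support₂ c ∩ S, ((1 : ℕ) : ZMod 2) := by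
      rw [Nat.cast_one]
      apply Finset.sum_congr _ (fun _ _ => rfl)
      ext p
      simp [support₂, and_comm]

theorem cs_eq_zero {S : Finset GolayPt} {c : GolayPt → ZMod 2} :
    cs S c = 0 ↔ Even (support₂ c ∩ S).card := by
  rw [cs_card, ZMod.natCast_eq_zero_iff_even]

theorem cs_symmDiff (S T : Finset GolayPt) (c : GolayPt → ZMod 2) :
    cs (symmDiff S T) c = cs S c + cs T c := by
  rw [cs_card, cs_card, cs_card, ← Nat.cast_add]
  have h1 : support₂ c ∩ symmDiff S T = symmDiff (support₂ c ∩ S) (support₂ c ∩ T) := by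
    ext p
    simp only [Finset.mem_inter, Finset.mem_symmDiff]
    tauto
  rw [h1]
  have h2 := cardSD (support₂ c ∩ S) (support₂ c ∩ T)
  rw [← h2, Nat.cast_add, Nat.cast_mul]
  have : ((2 : ℕ) : ZMod 2) = 0 := rfl
  rw [this, zero_mul, add_zero]

theorem cs_of_mem {S : Finset GolayPt} (hS : S ∈ GC) {c : GolayPt → ZMod 2} (hc : c ∈ golayCode) :
    cs S c = 0 := by
  rw [cs_eq_zero]
  exact GC_inter_even (support_mem_GC.2 hc) hS

/-- the number of octads meeting `S` evenly -/
noncomputable def n8 (S : Finset GolayPt) : ℕ := {o | o ∈ octads ∧ Even (o ∩ S).card}.ncard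

theorem n8_smul {σ : Equiv.Perm GolayPt} (hσ : σ ∈ M24) {S T : Finset GolayPt} {N : ℕ}
    (h : n8 S = N) (hST : σ • S = T) : n8 T = N := by
  apply ncard_all (fun (S o : Finset GolayPt) => o ∈ octads ∧ Even (o ∩ S).card) ?_ h
    ⟨σ, hσ, hST⟩
  intro τ hτ a x hx
  exact ⟨(smul_octads_iff hτ).2 hx.1, by rw [card_smul_inter]; exact hx.2⟩

theorem n8_count (m N : ℕ)
    (h : Nat.beq (((List.range 759).map octE).countP
      (fun n => Nat.beq (popc (n &&& m) % 2) 0)) N = true) : n8 (toSet m) = N := by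
  apply enm_oct.count (φ := fun n => Nat.beq (popc (n &&& m) % 2) 0) ?_ h
  intro n _
  rw [← toSet_and, card_toSet, Nat.even_iff, Nat.beq_eq]

theorem n8_two {S : Finset GolayPt} (h : S.card = 2) : n8 S = 407 := by
  have h0 : n8 (toSet 3) = 407 := n8_count 3 407 (by decide +kernel)
  obtain ⟨σ, hσ, h1⟩ := std_set (s0 := toSet 3) (k := 2) (by norm_num) h
    (by rw [card_toSet]; decide +kernel)
  exact n8_smul hσ h0 h1

theorem n8_four {S : Finset GolayPt} (h : S.card = 4) : n8 S = 375 := by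
  have h0 : n8 (toSet 15) = 375 := n8_count 15 375 (by decide +kernel)
  obtain ⟨σ, hσ, h1⟩ := std_set (s0 := toSet 15) (k := 4) (by norm_num) h
    (by rw [card_toSet]; decide +kernel)
  exact n8_smul hσ h0 h1

theorem n8_empty : n8 ∅ = 759 := by
  have h0 : n8 (toSet 0) = 759 := n8_count 0 759 (by decide +kernel)
  rwa [toSet_zero] at h0

theorem n8_of_zero {S : Finset GolayPt} (h : ∀ c ∈ golayCode, cs S c = 0) : n8 S = 759 := by
  rw [← n8_empty]
  unfold n8
  congr 1
  ext o
  constructor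
  · rintro ⟨ho, -⟩
    exact ⟨ho, by simp⟩
  · rintro ⟨ho, -⟩
    refine ⟨ho, ?_⟩
    obtain ⟨c, hc⟩ := supp_surj o
    have h1 := h c (support_mem_GC.1 (by rw [hc]; exact (mem_octads.1 ho).1))
    rw [cs_eq_zero, hc] at h1
    exact h1

/-- leaders of odd or even size -/
theorem leader_cs (T : Finset GolayPt) : ∃ S : Finset GolayPt, S.card ≤ 4 ∧ symmDiff T S ∈ GC ∧
    ∀ c ∈ golayCode, cs T c = cs S c := by
  obtain ⟨S, hS, hTS⟩ := leader T T.card T rfl (by rw [symmDiff_self]; exact GC_empty)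
  refine ⟨S, hS, hTS, fun c hc => ?_⟩
  have h1 := cs_of_mem hTS hc
  rw [cs_symmDiff] at h1
  generalize cs T c = a at h1
  generalize cs S c = b at h1
  revert a b
  decide

theorem cs_univ (S : Finset GolayPt) : cs S 1 = (S.card : ZMod 2) := by
  rw [cs_card, supp_one, Finset.univ_inter]

theorem one_mem_code : (1 : GolayPt → ZMod 2) ∈ golayCode := by
  rw [← support_mem_GC, supp_one]
  exact GC_univ

/-- the code is self-dual -/
theorem mem_GC_of_cs {T : Finset GolayPt} (h : ∀ c ∈ golayCode, cs T c = 0) : T ∈ GC := by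
  obtain ⟨S, hS, hTS, hc⟩ := leader_cs T
  have h1 : ∀ c ∈ golayCode, cs S c = 0 := fun c hcc => by rw [← hc c hcc]; exact h c hcc
  have h2 := n8_of_zero h1
  have h3 := h1 1 one_mem_code
  rw [cs_univ, ZMod.natCast_eq_zero_iff_even] at h3
  have h4 : S.card = 0 ∨ S.card = 2 ∨ S.card = 4 := by
    obtain ⟨k, hk⟩ := h3
    omega
  rcases h4 with h4 | h4 | h4
  · rw [Finset.card_eq_zero] at h4
    rw [h4] at hTS
    have : symmDiff T ∅ = T := symmDiff_bot T
    rwa [this] at hTS
  · rw [n8_two h4] at h2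
    omega
  · rw [n8_four h4] at h2
    omega

/-- functionals on the code killing the all-ones word -/
theorem functional (F : ↥golayCode →ₗ[ZMod 2] ZMod 2) (h1 : F ⟨1, one_mem_code⟩ = 0) :
    ∃ S : Finset GolayPt, (S.card = 0 ∨ S.card = 2 ∨ S.card = 4) ∧
      ∀ c : ↥golayCode, F c = cs S (c : GolayPt → ZMod 2) := by
  obtain ⟨g, hg⟩ := LinearMap.exists_extend F
  have hgc : ∀ c : ↥golayCode, g (c : GolayPt → ZMod 2) = F c := fun c => by
    rw [← hg]; rfl
  set T : Finset GolayPt := Finset.univ.filter fun p => g (Pi.single p 1) ≠ 0 with hT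
  have hgT : ∀ w : GolayPt → ZMod 2, g w = cs T w := by
    intro w
    have h2 : w = ∑ p, w p • (Pi.single p (1 : ZMod 2) : GolayPt → ZMod 2) := by
      ext q
      simp [Finset.sum_apply, Pi.single_apply]
    have h3 : g w = ∑ p, w p • g (Pi.single p 1) := by
      conv_lhs => rw [h2]
      rw [map_sum]
      simp only [map_smul]
    rw [h3]
    unfold cs
    rw [hT, Finset.sum_filter]
    apply Finset.sum_congr rfl
    intro p _
    generalize g (Pi.single p 1) = a
    generalize w p = b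
    revert a b
    decide
  obtain ⟨S, hS, -, hc⟩ := leader_cs T
  have hF : ∀ c : ↥golayCode, F c = cs S (c : GolayPt → ZMod 2) := fun c => by
    rw [← hc c c.2, ← hgT, hgc]
  refine ⟨S, ?_, hF⟩
  rw [hF] at h1
  have h2 : cs S 1 = 0 := h1
  rw [cs_univ, ZMod.natCast_eq_zero_iff_even] at h2
  obtain ⟨k, hk⟩ := h2
  omega

end Cfsg.Agent.H29
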