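import Cfsg.Agent.H29.PsuFive

/-!
# coded arithmetic in the field of 25 elements and in `SU₃(5)` (helper29)
-/

set_option autoImplicit false
set_option linter.style.haveILetI false
set_option linter.unusedSectionVars false
set_option linter.unusedSimpArgs false

namespace Cfsg.Agent.H29.GFq25

open Matrix Cfsg Cfsg.Agent.H5 Cfsg.Agent.H5.FormData Cfsg.Agent.H18

def ad (x y : ℕ) : ℕ := (x % 5 + y % 5) % 5 + 5 * ((x / 5 + y / 5) % 5)

def ml (x y : ℕ) : ℕ := ((x % 5) * (y % 5) + 2 * ((x / 5) * (y / 5))) % 5 +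
  5 * (((x % 5) * (y / 5) + (x / 5) * (y % 5)) % 5)

def cj (x : ℕ) : ℕ := x % 5 + 5 * ((4 * (x / 5)) % 5)

theorem ad_lt (x y : ℕ) : ad x y < 25 := by
  unfold ad
  have h1 := Nat.mod_lt (x % 5 + y % 5) (by norm_num : 0 < 5)
  have h2 := Nat.mod_lt (x / 5 + y / 5) (by norm_num : 0 < 5)
  omega

abbrev C3 := ℕ × ℕ × ℕ
abbrev M3 := C3 × C3 × C3

def dot (r v : C3) : ℕ := ad (ml r.1 v.1) (ad (ml r.2.1 v.2.1) (ml r.2.2 v.2.2))
def mvC (A : M3) (v : C3) : C3 := (dot A.1 v, dot A.2.1 v, dot A.2.2 v)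
def trC (A : M3) : M3 := ((A.1.1, A.2.1.1, A.2.2.1), (A.1.2.1, A.2.1.2.1, A.2.2.2.1),
  (A.1.2.2, A.2.1.2.2, A.2.2.2.2))
def rowC (r : C3) (B : M3) : C3 := (dot r B.1, dot r B.2.1, dot r B.2.2)
/-- matrix product -/
def mmC (A B : M3) : M3 := (rowC A.1 (trC B), rowC A.2.1 (trC B), rowC A.2.2 (trC B))
def oneC : M3 := ((1, 0, 0), (0, 1, 0), (0, 0, 1))
def cjv (v : C3) : C3 := (cj v.1, cj v.2.1, cj v.2.2)
/-- conjugate transpose times the matrix -/
def gramC (A : M3) : M3 := mmC (cjv (trC A).1, cjv (trC A).2.1, cjv (trC A).2.2) A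
def detC (A : M3) : ℕ :=
  ad (ml A.1.1 (ad (ml A.2.1.2.1 A.2.2.2.2) (ml 4 (ml A.2.1.2.2 A.2.2.2.1))))
    (ad (ml 4 (ml A.1.2.1 (ad (ml A.2.1.1 A.2.2.2.2) (ml 4 (ml A.2.1.2.2 A.2.2.1)))))
      (ml A.1.2.2 (ad (ml A.2.1.1 A.2.2.2.1) (ml 4 (ml A.2.1.2.1 A.2.2.1)))))
def powC (A : M3) : ℕ → M3
  | 0 => oneC
  | n + 1 => mmC (powC A n) A

variable {F : Type*} [Field F]

def vl (s : F) (x : ℕ) : F := ((x % 5 : ℕ) : F) + ((x / 5 : ℕ) : F) * s

theorem cast_mod (h5 : (5 : F) = 0) (n : ℕ) : ((n % 5 : ℕ) : F) = n := by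
  conv_rhs => rw [← Nat.mod_add_div n 5]
  push_cast
  rw [h5, zero_mul, add_zero]

theorem vl_norm (s : F) (a b : ℕ) : vl s (a % 5 + 5 * b) = ((a % 5 : ℕ) : F) + (b : F) * s := by
  unfold vl
  have h1 : (a % 5 + 5 * b) % 5 = a % 5 := by omega
  have h2 : (a % 5 + 5 * b) / 5 = b := by omega
  rw [h1, h2]

theorem vl_ad (h5 : (5 : F) = 0) (s : F) (x y : ℕ) : vl s (ad x y) = vl s x + vl s y := by
  unfold ad
  rw [vl_norm, cast_mod h5, cast_mod h5]
  unfold vl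
  push_cast
  ring

theorem vl_ml (h5 : (5 : F) = 0) {s : F} (hs : s * s = 2) (x y : ℕ) :
    vl s (ml x y) = vl s x * vl s y := by
  unfold ml
  rw [vl_norm, cast_mod h5, cast_mod h5]
  unfold vl
  generalize x % 5 = a
  generalize y % 5 = b
  generalize x / 5 = c
  generalize y / 5 = d
  push_cast
  linear_combination (-(c : F) * d) * hs

theorem vl_cj (h5 : (5 : F) = 0) {s : F} (hs : s * s = 2) {σ : F →+* F} (hσ : ∀ x, σ x = x ^ 5)
    (x : ℕ) : vl s (cj x) = σ (vl s x) := by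
  have hσs : σ s = -s := by
    rw [hσ]
    linear_combination (s ^ 3 + 2 * s) * hs + s * h5
  unfold cj
  rw [vl_norm, cast_mod h5 (4 * (x / 5))]
  unfold vl
  rw [map_add, map_mul, map_natCast, map_natCast, hσs]
  generalize x / 5 = c
  push_cast
  linear_combination ((c : F) * s) * h5

theorem vl_zero (s : F) : vl s 0 = 0 := by unfold vl; simp
theorem vl_one (s : F) : vl s 1 = 1 := by unfold vl; simp
theorem vl_four (h5 : (5 : F) = 0) (s : F) : vl s 4 = -1 := by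
  unfold vl
  norm_num
  linear_combination h5

theorem sq_dec : ∀ a < 5, ∀ b < 5, (a * a + 3 * (b * b)) % 5 = 0 → a = 0 ∧ b = 0 := by decide

theorem sub_dec : ∀ x < 25, ∀ y < 25, ad x (ml 4 y) = 0 → x = y := by decide

theorem cast_dvd (h5 : (5 : F) = 0) {n : ℕ} (h : (n : F) = 0) : n % 5 = 0 := by
  rw [← cast_mod h5] at h
  have h1 := Nat.mod_lt n (by norm_num : 0 < 5)
  generalize n % 5 = m at *
  interval_cases m
  · rfl
  · simp at h
  · exfalso
    apply one_ne_zero (α := F)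
    push_cast at h
    linear_combination h5 - 2 * h
  · exfalso
    apply one_ne_zero (α := F)
    push_cast at h
    linear_combination 2 * h - h5
  · exfalso
    apply one_ne_zero (α := F)
    push_cast at h
    linear_combination h5 - h

theorem vl_eq_zero (h5 : (5 : F) = 0) {s : F} (hs : s * s = 2) {x : ℕ} (hx : x < 25)
    (h : vl s x = 0) : x = 0 := by
  unfold vl at h
  have h1 : (((x % 5) * (x % 5) + 3 * ((x / 5) * (x / 5)) : ℕ) : F) = 0 := by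
    push_cast
    linear_combination (((x % 5 : ℕ) : F) - ((x / 5 : ℕ) : F) * s) * h +
      (((x / 5 : ℕ) : F) * ((x / 5 : ℕ) : F)) * hs + (((x / 5 : ℕ) : F) * ((x / 5 : ℕ) : F)) * h5
  have h2 := cast_dvd h5 h1
  have h3 := sq_dec (x % 5) (Nat.mod_lt _ (by norm_num)) (x / 5) (by omega) h2
  omega

theorem vl_inj (h5 : (5 : F) = 0) {s : F} (hs : s * s = 2) {x y : ℕ} (hx : x < 25) (hy : y < 25)
    (h : vl s x = vl s y) : x = y := by
  apply sub_dec x hx y hy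
  apply vl_eq_zero h5 hs (ad_lt _ _)
  rw [vl_ad h5, vl_ml h5 hs, vl_four h5, h]
  ring

def vv (s : F) (v : C3) : Fin 3 → F := ![vl s v.1, vl s v.2.1, vl s v.2.2]
def vm (s : F) (A : M3) : Matrix (Fin 3) (Fin 3) F := Matrix.of ![vv s A.1, vv s A.2.1, vv s A.2.2]

theorem vl_dot (h5 : (5 : F) = 0) {s : F} (hs : s * s = 2) (r v : C3) :
    vl s (dot r v) = ∑ i, vv s r i * vv s v i := by
  rw [Fin.sum_univ_three]
  unfold dot vv
  rw [vl_ad h5, vl_ad h5, vl_ml h5 hs, vl_ml h5 hs, vl_ml h5 hs]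
  simp
  ring

theorem vm_mulVec (h5 : (5 : F) = 0) {s : F} (hs : s * s = 2) (A : M3) (v : C3) :
    (vm s A).mulVec (vv s v) = vv s (mvC A v) := by
  ext i
  rw [Matrix.mulVec, dotProduct]
  fin_cases i
  · exact (vl_dot h5 hs A.1 v).symm
  · exact (vl_dot h5 hs A.2.1 v).symm
  · exact (vl_dot h5 hs A.2.2 v).symm

theorem vm_tr (s : F) (A : M3) : vm s (trC A) = (vm s A).transpose := by
  ext i j
  fin_cases i <;> fin_cases j <;> rfl

theorem vv_rowC (h5 : (5 : F) = 0) {s : F} (hs : s * s = 2) (r : C3) (B : M3) (j : Fin 3) :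
    vv s (rowC r (trC B)) j = ∑ k, vv s r k * vm s B k j := by
  have h : ∀ k, vm s B k j = vm s (trC B) j k := by
    intro k; rw [vm_tr]; rfl
  simp only [h]
  fin_cases j
  · exact vl_dot h5 hs r (trC B).1
  · exact vl_dot h5 hs r (trC B).2.1
  · exact vl_dot h5 hs r (trC B).2.2

theorem vm_mul (h5 : (5 : F) = 0) {s : F} (hs : s * s = 2) (A B : M3) :
    vm s (mmC A B) = vm s A * vm s B := by
  ext i j
  rw [Matrix.mul_apply]
  fin_cases i
  · exact vv_rowC h5 hs A.1 B j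
  · exact vv_rowC h5 hs A.2.1 B j
  · exact vv_rowC h5 hs A.2.2 B j

theorem vm_one (s : F) : vm s oneC = 1 := by
  ext i j
  fin_cases i <;> fin_cases j <;> simp [vm, vv, oneC, vl_zero, vl_one]

theorem vm_pow (h5 : (5 : F) = 0) {s : F} (hs : s * s = 2) (A : M3) (n : ℕ) :
    vm s (powC A n) = vm s A ^ n := by
  induction n with
  | zero => rw [pow_zero]; exact vm_one s
  | succ n ih => rw [pow_succ, ← ih, ← vm_mul h5 hs]; rfl

theorem vm_det (h5 : (5 : F) = 0) {s : F} (hs : s * s = 2) (A : M3) :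
    (vm s A).det = vl s (detC A) := by
  rw [Matrix.det_fin_three]
  unfold detC
  simp only [vl_ad h5, vl_ml h5 hs, vl_four h5]
  simp only [vm, vv, Matrix.of_apply, Matrix.cons_val_zero, Matrix.cons_val_one, Matrix.cons_val_two,
    Matrix.head_cons, Matrix.tail_cons, Matrix.cons_val]
  ring

theorem vm_gram (h5 : (5 : F) = 0) {s : F} (hs : s * s = 2) {σ : F →+* F} (hσ : ∀ x, σ x = x ^ 5)
    (A : M3) (i j : Fin 3) : hB (Fin 3) σ (fun k => vm s A k i) (fun k => vm s A k j) =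
      vm s (gramC A) i j := by
  have h : vm s (cjv (trC A).1, cjv (trC A).2.1, cjv (trC A).2.2) = (vm s A).transpose.map σ := by
    rw [← vm_tr]
    ext i j
    fin_cases i <;> fin_cases j <;> exact vl_cj h5 hs hσ _
  unfold gramC
  rw [vm_mul h5 hs, h, Matrix.mul_apply, hB_apply]
  rfl

/-- the check that a coded matrix is in `SU₃(5)` -/
def chk (A : M3) : Bool := decide (gramC A = oneC) && decide (detC A = 1)

def su (h5 : (5 : F) = 0) {s : F} (hs : s * s = 2) {σ : F →+* F} (hσ : ∀ x, σ x = x ^ 5)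
    (A : M3) (h : chk A = true) : SU 3 F 5 :=
  mkSU hσ (vm s A) (by
    intro i j
    rw [vm_gram h5 hs hσ]
    have h1 : gramC A = oneC := by
      have := (Bool.and_eq_true_iff.1 h).1
      exact of_decide_eq_true this
    rw [h1, vm_one, Matrix.one_apply]) (by
    rw [vm_det h5 hs, of_decide_eq_true (Bool.and_eq_true_iff.1 h).2, vl_one])

theorem mt_su (h5 : (5 : F) = 0) {s : F} (hs : s * s = 2) {σ : F →+* F} (hσ : ∀ x, σ x = x ^ 5)
    (A : M3) (h : chk A = true) : mt (su h5 hs hσ A h) = vm s A := rfl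

/-- entries are reduced codes -/
def red (A : M3) : Bool := decide (A.1.1 < 25 ∧ A.1.2.1 < 25 ∧ A.1.2.2 < 25 ∧ A.2.1.1 < 25 ∧
  A.2.1.2.1 < 25 ∧ A.2.1.2.2 < 25 ∧ A.2.2.1 < 25 ∧ A.2.2.2.1 < 25 ∧ A.2.2.2.2 < 25)

theorem vm_inj (h5 : (5 : F) = 0) {s : F} (hs : s * s = 2) {A B : M3} (hA : red A = true)
    (hB : red B = true) (h : vm s A = vm s B) : A = B := by
  have hA' := of_decide_eq_true hA
  have hB' := of_decide_eq_true hB
  have e : ∀ i j, vm s A i j = vm s B i j := fun i j => by rw [h]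
  obtain ⟨a1, a2, a3, a4, a5, a6, a7, a8, a9⟩ := hA'
  obtain ⟨b1, b2, b3, b4, b5, b6, b7, b8, b9⟩ := hB'
  have e1 := vl_inj h5 hs a1 b1 (e 0 0)
  have e2 := vl_inj h5 hs a2 b2 (e 0 1)
  have e3 := vl_inj h5 hs a3 b3 (e 0 2)
  have e4 := vl_inj h5 hs a4 b4 (e 1 0)
  have e5 := vl_inj h5 hs a5 b5 (e 1 1)
  have e6 := vl_inj h5 hs a6 b6 (e 1 2)
  have e7 := vl_inj h5 hs a7 b7 (e 2 0)
  have e8 := vl_inj h5 hs a8 b8 (e 2 1)
  have e9 := vl_inj h5 hs a9 b9 (e 2 2)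
  obtain ⟨⟨_, _, _⟩, ⟨_, _, _⟩, ⟨_, _, _⟩⟩ := A
  obtain ⟨⟨_, _, _⟩, ⟨_, _, _⟩, ⟨_, _, _⟩⟩ := B
  simp only at e1 e2 e3 e4 e5 e6 e7 e8 e9
  subst e1 e2 e3 e4 e5 e6 e7 e8 e9
  rfl

theorem vv_inj (h5 : (5 : F) = 0) {s : F} (hs : s * s = 2) {a b c a' b' c' : ℕ} (ha : a < 25)
    (hb : b < 25) (hc : c < 25) (ha' : a' < 25) (hb' : b' < 25) (hc' : c' < 25)
    (h : vv s (a, b, c) = vv s (a', b', c')) : a = a' ∧ b = b' ∧ c = c' :=
  ⟨vl_inj h5 hs ha ha' (congrFun h 0), vl_inj h5 hs hb hb' (congrFun h 1),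
    vl_inj h5 hs hc hc' (congrFun h 2)⟩

end Cfsg.Agent.H29.GFq25
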