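import Cfsg.Agent.H29.CoTrans
import Cfsg.Agent.H7.HSGraph

/-!
The Higman-Sims and McLaughlin configurations in standard position.
-/
set_option autoImplicit false

namespace Cfsg.Agent.H29
open Cfsg Cfsg.Agent.H7
open scoped Pointwise

theorem two_bL_t2 (x : leechLattice) :
    2 * bL t2 x = (x : GolayPt → ℤ) (gpt 23) + (x : GolayPt → ℤ) (gpt 0) := by
  rw [bL_comm]; exact bL_e8_t2 x

theorem coe_twoV {x : leechLattice} {o : Finset GolayPt} (ho : o ∈ octads)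
    (h : (x : GolayPt → ℤ) = (2 : ℤ) • ind o) : x = twoV o ho := Subtype.ext h

theorem coe_oddV {x : leechLattice} {N : Finset GolayPt} (hN : N ∈ GC) {j : GolayPt}
    (h : (x : GolayPt → ℤ) = oddv N j) : x = oddV N hN j := Subtype.ext h

theorem ind_apply' (s : Finset GolayPt) (i : GolayPt) : ind s i = if i ∈ s then 1 else 0 := rfl

theorem coe_four {x : leechLattice} {i : GolayPt} (h : (x : GolayPt → ℤ) = (4 : ℤ) • (ind {gpt 23} + ind {i})) :
    x = pp (gpt 23) i := Subtype.ext (by rw [h, pp_coe])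

/-- elements of `V100` -/
theorem V100_cases {x : leechLattice} (hx : x ∈ V100) : x = t2 ∨
    (∃ o, ∃ ho : o ∈ octads, gpt 23 ∈ o ∧ gpt 0 ∈ o ∧ x = twoV o ho ∧ bL t2 x = 2) ∨
    (∃ j, j ≠ gpt 23 ∧ j ≠ gpt 0 ∧ x = oddV ∅ GC_empty j ∧ bL t2 x = 1) := by
  rcases mem_V100.1 hx with ⟨i, h1, h2, h3⟩ | ⟨o, ho, h1, h2, h3⟩ | ⟨o, ho, h1, h2, h3⟩ | ⟨j, h1, h2, h3⟩
  · left
    rw [coe_four h3, h2]
    apply Subtype.ext
    funext k
    rw [pp_coe, t2_apply]
    show 4 * (ind {gpt 23} k + ind {gpt 0} k) = _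
    rw [ind_single, ind_single]
    have hne := g23_ne_g0
    by_cases e1 : k = gpt 23
    · subst e1; rw [if_pos rfl, if_pos rfl, if_neg hne]; norm_num
    · rw [if_neg e1, if_neg e1]
      by_cases e2 : k = gpt 0
      · rw [if_pos e2, if_pos e2]; norm_num
      · rw [if_neg e2, if_neg e2]; norm_num
  · right; left
    refine ⟨o, ho, h1, h2, coe_twoV ho h3, ?_⟩
    rw [coe_twoV ho h3]; exact bL_t2_two ho h1 h2
  · exact h2.elim
  · right; right
    refine ⟨j, h1, h2, coe_oddV GC_empty h3, ?_⟩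
    rw [coe_oddV GC_empty h3]; exact bL_t2_odd h1 h2

theorem bL_t2_t2 : bL t2 t2 = 4 := t2_mem_V100.1

theorem twoV_mem {o : Finset GolayPt} (ho : o ∈ octads) (h1 : gpt 23 ∈ o) (h2 : gpt 0 ∈ o) : twoV o ho ∈ V100 :=
  mem_V100.2 (Or.inr (Or.inl ⟨o, ho, h1, h2, rfl⟩))

theorem oddV_mem {j : GolayPt} (h1 : j ≠ gpt 23) (h2 : j ≠ gpt 0) : oddV ∅ GC_empty j ∈ V100 :=
  mem_V100.2 (Or.inr (Or.inr (Or.inr ⟨j, h1, h2, rfl⟩)))

theorem ncard_ne2 : {j : GolayPt | j ≠ gpt 23 ∧ j ≠ gpt 0}.ncard = 22 := by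
  have e : {j : GolayPt | j ≠ gpt 23 ∧ j ≠ gpt 0}
      = (((Finset.univ.erase (gpt 0)).erase (gpt 23) : Finset GolayPt) : Set GolayPt) := by
    ext j
    simp only [Set.mem_ofPred_eq, Finset.coe_erase, Finset.coe_univ, Set.mem_sdiff, Set.mem_univ, true_and,
      Set.mem_singleton_iff]
    exact and_comm
  rw [e, Set.ncard_coe_finset]
  decide

theorem V100_22 : {y : leechLattice | y ∈ V100 ∧ bL t2 y = 1}.ncard = 22 := by
  have h := V552_ncard_aux (fun _ => False) (fun _ => False) (fun _ => False) (fun j => j ≠ gpt 0)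
    {y : leechLattice | y ∈ V100 ∧ bL t2 y = 1} (fun x => by
      constructor
      · rintro ⟨h1, h2⟩
        rcases V100_cases h1 with h | ⟨o, ho, a, b, c, d⟩ | ⟨j, a, b, c, d⟩
        · rw [h, bL_t2_t2] at h2; omega
        · omega
        · exact Or.inr (Or.inr (Or.inr ⟨j, a, b, congrArg Subtype.val c⟩))
      · rintro (⟨i, h1, h2, h3⟩ | ⟨o, ho, h1, h2, h3⟩ | ⟨o, ho, h1, h2, h3⟩ | ⟨j, h1, h2, h3⟩)
        · exact h2.elim
        · exact h2.elim
        · exact h2.elim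
        · rw [coe_oddV GC_empty h3]
          exact ⟨oddV_mem h1 h2, bL_t2_odd h1 h2⟩)
  rw [h, ncard_ne2]
  simp

theorem V100_77 : {y : leechLattice | y ∈ V100 ∧ y ≠ t2 ∧ bL t2 y ≠ 1}.ncard = 77 := by
  have h := V552_ncard_aux (fun _ => False) (fun o => gpt 0 ∈ o) (fun _ => False) (fun _ => False)
    {y : leechLattice | y ∈ V100 ∧ y ≠ t2 ∧ bL t2 y ≠ 1} (fun x => by
      constructor
      · rintro ⟨h1, h2, h3⟩
        rcases V100_cases h1 with h | ⟨o, ho, a, b, c, d⟩ | ⟨j, a, b, c, d⟩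
        · exact absurd h h2
        · exact Or.inr (Or.inl ⟨o, ho, a, b, congrArg Subtype.val c⟩)
        · exact absurd d h3
      · rintro (⟨i, h1, h2, h3⟩ | ⟨o, ho, h1, h2, h3⟩ | ⟨o, ho, h1, h2, h3⟩ | ⟨j, h1, h2, h3⟩)
        · exact h2.elim
        · rw [coe_twoV ho h3]
          have h4 := bL_t2_two ho h1 h2
          refine ⟨twoV_mem ho h1 h2, ?_, by rw [h4]; norm_num⟩
          intro h5
          rw [h5, bL_t2_t2] at h4
          omega
        · exact h2.elim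
        · exact h2.elim)
  rw [h, card_octads_2]
  simp

/-- permutations fixing the first two points fix the standard vectors -/
theorem pm_std {σ : Equiv.Perm GolayPt} (hσ : σ ∈ M24) (h1 : σ (gpt 23) = gpt 23) (h2 : σ (gpt 0) = gpt 0) :
    pmEl σ hσ • t3 = t3 ∧ pmEl σ hσ • t2 = t2 ∧ pmEl σ hσ • a0 = a0 := by
  refine ⟨pmEl_t3 hσ h1, ?_, ?_⟩
  · apply two_inj
    rw [← co0_zsmul, two_t2, co0_add, pmEl_e8, pmEl_e8, h1, h2]
  · apply two_inj
    rw [← co0_zsmul, two_a0, co0_sub, pmEl_e8, pmEl_e8, h1, h2]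

theorem pm_twoV {σ : Equiv.Perm GolayPt} (hσ : σ ∈ M24) {o : Finset GolayPt} (ho : o ∈ octads) :
    pmEl σ hσ • twoV o ho = twoV (σ • o) (M24_smul_octad hσ ho) := by
  apply Subtype.ext
  funext k
  rw [pmEl_apply, twoV_apply, twoV_apply]
  have : σ⁻¹ k ∈ o ↔ k ∈ σ • o := by
    constructor
    · intro h
      have := (smul_mem_smul' σ o (σ⁻¹ k)).2 h
      rwa [show σ • σ⁻¹ k = k from σ.apply_symm_apply k] at this
    · intro h
      have h' : σ • (σ⁻¹ k) ∈ σ • o := by rw [show σ • σ⁻¹ k = k from σ.apply_symm_apply k]; exact h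
      exact (smul_mem_smul' σ o _).1 h'
  simp only [this]
where
  smul_mem_smul' (σ : Equiv.Perm GolayPt) (s : Finset GolayPt) (p : GolayPt) :
      σ • p ∈ σ • s ↔ p ∈ s := Finset.smul_mem_smul_finset_iff σ

theorem pm_oddV {σ : Equiv.Perm GolayPt} (hσ : σ ∈ M24) (j : GolayPt) :
    pmEl σ hσ • oddV ∅ GC_empty j = oddV ∅ GC_empty (σ j) := by
  apply Subtype.ext
  funext k
  rw [pmEl_apply]
  show oddv ∅ j (σ⁻¹ k) = oddv ∅ (σ j) k
  rw [oddv_apply', oddv_apply']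
  have : σ⁻¹ k = j ↔ k = σ j := by rw [Equiv.Perm.inv_eq_iff_eq]
  simp only [this, Finset.notMem_empty, if_false]

end Cfsg.Agent.H29
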