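import Cfsg.Prelude.Def_SporadicCombinatorics

/-!
The hexacode in coordinates.
-/
set_option autoImplicit false

namespace Cfsg.Agent.H29.HX
open Cfsg

/-- addition of the four element field, elements numbered 0, 1, ω, ω² -/
def ad (i j : Fin 4) : Fin 4 := (![![0,1,2,3], ![1,0,3,2], ![2,3,0,1], ![3,2,1,0]] : Fin 4 → Fin 4 → Fin 4) i j
/-- multiplication of the four element field -/
def mu (i j : Fin 4) : Fin 4 := (![![0,0,0,0], ![0,1,2,3], ![0,2,3,1], ![0,3,1,2]] : Fin 4 → Fin 4 → Fin 4) i j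

section
variable {F : Type*} [Field F]

/-- the numbering -/
def ph (ω : F) (i : Fin 4) : F := (![0, 1, ω, ω ^ 2] : Fin 4 → F) i

variable [Fintype F]

theorem two_zero (hF : Fintype.card F = 4) : (2 : F) = 0 := by
  have h : ((Fintype.card F : ℕ) : F) = 0 := Nat.cast_card_eq_zero F
  rw [hF] at h
  have h2 : (2 : F) * 2 = 0 := by rw [← h]; norm_num
  exact mul_self_eq_zero.1 h2

variable {ω : F}

theorem sq_eq (hF : Fintype.card F = 4) (hω : ω ^ 2 + ω + 1 = 0) : ω ^ 2 = ω + 1 := by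
  linear_combination hω - (ω + 1) * two_zero hF

theorem ph_add (hF : Fintype.card F = 4) (hω : ω ^ 2 + ω + 1 = 0) (i j : Fin 4) : ph ω (ad i j) = ph ω i + ph ω j := by
  have h2 := two_zero hF
  have e0 : ph ω 0 = 0 := rfl
  have e1 : ph ω 1 = 1 := rfl
  have e2 : ph ω 2 = ω := rfl
  have e3 : ph ω 3 = ω ^ 2 := rfl
  fin_cases i <;> fin_cases j <;> simp only [Fin.zero_eta, Fin.mk_one, Fin.reduceFinMk] <;>
    simp only [show ad 0 0 = 0 by decide, show ad 0 1 = 1 by decide, show ad 0 2 = 2 by decide, show ad 0 3 = 3 by decide,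
      show ad 1 0 = 1 by decide, show ad 1 1 = 0 by decide, show ad 1 2 = 3 by decide, show ad 1 3 = 2 by decide,
      show ad 2 0 = 2 by decide, show ad 2 1 = 3 by decide, show ad 2 2 = 0 by decide, show ad 2 3 = 1 by decide,
      show ad 3 0 = 3 by decide, show ad 3 1 = 2 by decide, show ad 3 2 = 1 by decide, show ad 3 3 = 0 by decide, e0, e1, e2, e3] <;>
    first
    | ring1
    | linear_combination -h2
    | linear_combination -ω * h2
    | linear_combination -ω ^ 2 * h2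
    | linear_combination hω - (ω + 1) * h2
    | linear_combination hω - (1 + ω ^ 2) * h2
    | linear_combination hω - (ω + ω ^ 2) * h2

theorem ph_mul (hF : Fintype.card F = 4) (hω : ω ^ 2 + ω + 1 = 0) (i j : Fin 4) : ph ω (mu i j) = ph ω i * ph ω j := by
  have h2 := two_zero hF
  have e0 : ph ω 0 = 0 := rfl
  have e1 : ph ω 1 = 1 := rfl
  have e2 : ph ω 2 = ω := rfl
  have e3 : ph ω 3 = ω ^ 2 := rfl
  fin_cases i <;> fin_cases j <;> simp only [Fin.zero_eta, Fin.mk_one, Fin.reduceFinMk] <;>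
    simp only [show mu 0 0 = 0 by decide, show mu 0 1 = 0 by decide, show mu 0 2 = 0 by decide, show mu 0 3 = 0 by decide,
      show mu 1 0 = 0 by decide, show mu 1 1 = 1 by decide, show mu 1 2 = 2 by decide, show mu 1 3 = 3 by decide,
      show mu 2 0 = 0 by decide, show mu 2 1 = 2 by decide, show mu 2 2 = 3 by decide, show mu 2 3 = 1 by decide,
      show mu 3 0 = 0 by decide, show mu 3 1 = 3 by decide, show mu 3 2 = 1 by decide, show mu 3 3 = 2 by decide, e0, e1, e2, e3] <;>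
    first
    | ring1
    | linear_combination (1 - ω) * hω
    | linear_combination (ω - ω ^ 2) * hω 

theorem ph_inj (hF : Fintype.card F = 4) (hω : ω ^ 2 + ω + 1 = 0) : Function.Injective (ph ω) := by
  have h2 := two_zero hF
  have hs := sq_eq hF hω
  have w0 : ω ≠ 0 := by rintro rfl; norm_num at hω
  have w1 : ω ≠ 1 := by
    rintro rfl
    apply one_ne_zero (α := F)
    linear_combination hω - h2
  have v0 : ω ^ 2 ≠ 0 := pow_ne_zero 2 w0
  have v1 : ω ^ 2 ≠ 1 := by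
    rw [hs]; intro h; exact w0 (by linear_combination h)
  have v2 : ω ^ 2 ≠ ω := by
    rw [hs]; intro h; exact one_ne_zero (α := F) (by linear_combination h)
  intro i j h
  fin_cases i <;> fin_cases j <;> first | rfl | (exfalso; revert h; simp [ph, w0, w1, v0, v1, v2, w0.symm, w1.symm, v0.symm, v1.symm, v2.symm])

theorem ph_surj (hF : Fintype.card F = 4) (hω : ω ^ 2 + ω + 1 = 0) : Function.Surjective (ph ω) :=
  ((Fintype.bijective_iff_injective_and_card _).2 ⟨ph_inj hF hω, by rw [hF, Fintype.card_fin]⟩).2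

/-- the word with given coefficients -/
def wd (a b c : Fin 4) : Fin 6 → Fin 4 := fun i =>
  ad (ad (mu a ((![2,3,3,2,3,2] : Fin 6 → Fin 4) i)) (mu b ((![3,2,2,3,3,2] : Fin 6 → Fin 4) i)))
    (mu c ((![3,2,3,2,2,3] : Fin 6 → Fin 4) i))

theorem wd_eq (hF : Fintype.card F = 4) (hω : ω ^ 2 + ω + 1 = 0) (a b c : Fin 4) :
    (fun i => ph ω (wd a b c i)) = ph ω a • ![ω, ω ^ 2, ω ^ 2, ω, ω ^ 2, ω] + ph ω b • ![ω ^ 2, ω, ω, ω ^ 2, ω ^ 2, ω] +
      ph ω c • ![ω ^ 2, ω, ω ^ 2, ω, ω, ω ^ 2] := by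
  funext i
  rw [wd, ph_add hF hω, ph_add hF hω, ph_mul hF hω, ph_mul hF hω, ph_mul hF hω]
  fin_cases i <;> rfl

theorem mem_iff (hF : Fintype.card F = 4) (hω : ω ^ 2 + ω + 1 = 0) {x : Fin 6 → F} :
    x ∈ hexacode F ω ↔ ∃ a b c, (fun i => ph ω (wd a b c i)) = x := by
  rw [hexacode, Submodule.mem_span_triple]
  constructor
  · rintro ⟨a, b, c, rfl⟩
    obtain ⟨a, rfl⟩ := ph_surj hF hω a
    obtain ⟨b, rfl⟩ := ph_surj hF hω b
    obtain ⟨c, rfl⟩ := ph_surj hF hω c
    exact ⟨a, b, c, wd_eq hF hω a b c⟩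
  · rintro ⟨a, b, c, rfl⟩
    exact ⟨ph ω a, ph ω b, ph ω c, (wd_eq hF hω a b c).symm⟩

theorem ph_zero_iff (hF : Fintype.card F = 4) (hω : ω ^ 2 + ω + 1 = 0) (i : Fin 4) : ph ω i = 0 ↔ i = 0 :=
  ⟨fun h => ph_inj hF hω (h.trans (rfl : (0 : F) = ph ω 0)), fun h => by rw [h]; rfl⟩

end

end Cfsg.Agent.H29.HX
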