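import Mathlib
import Cfsg.Agent.H23.Coprime

/-!
# A non-abelian group of order 125 acting on fewer than 50 points (helper29)
-/

set_option autoImplicit false
set_option linter.style.haveILetI false
set_option linter.unusedSectionVars false

namespace Cfsg.Agent.H29.IdxFifty

theorem zmod5_fourth : ∀ y : ZMod 5, y ≠ 0 → y * (y * (y * y)) - 1 = 0 := by decide

/-- an automorphism of a group of order 5 has fourth power 1 -/
theorem aut5 {Q : Type*} [Group Q] (h5 : Nat.card Q = 5) (c : Q →* Q) (hc : Function.Injective c)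
    (x : Q) : c (c (c (c x))) = x := by
  haveI : Fact (Nat.Prime 5) := ⟨by norm_num⟩
  haveI : IsCyclic Q := isCyclic_of_prime_card h5
  obtain ⟨m, hm⟩ := MonoidHom.map_cyclic c
  rw [hm, hm, hm, hm, ← zpow_mul, ← zpow_mul, ← zpow_mul]
  have hx : x ^ 5 = 1 := by rw [← h5]; exact pow_card_eq_one'
  by_cases h : (5 : ℤ) ∣ m
  · obtain ⟨k, rfl⟩ := h
    have h1 : c x = 1 := by
      rw [hm, zpow_mul]
      rw [show x ^ (5 : ℤ) = x ^ (5 : ℕ) from zpow_natCast x 5, hx, one_zpow]
    have h2 : x = 1 := hc (by rw [h1, map_one])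
    rw [h2, one_zpow]
  · have h1 : (5 : ℤ) ∣ m * (m * (m * m)) - 1 := by
      have h2 : ((m : ZMod 5)) ≠ 0 := by
        intro h3
        exact h ((ZMod.intCast_zmod_eq_zero_iff_dvd m 5).1 h3)
      have h4 := zmod5_fourth _ h2
      refine (ZMod.intCast_zmod_eq_zero_iff_dvd _ 5).1 ?_
      push_cast
      exact h4
    obtain ⟨k, hk⟩ := h1
    have h2 : m * (m * (m * m)) = 5 * k + 1 := by linarith
    rw [h2, zpow_add, zpow_mul, zpow_one]
    rw [show x ^ (5 : ℤ) = x ^ (5 : ℕ) from zpow_natCast x 5, hx, one_zpow, one_mul]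

open scoped Pointwise

/-- conjugation by `t` acts with order dividing 4 on a section of order 5 -/
theorem sec5 {G : Type*} [Group G] (K L : Subgroup G) (hn : (L.subgroupOf K).Normal)
    (h5 : L.relIndex K = 5) {t : G} (hK : t ∈ Subgroup.normalizer (K : Set G))
    (hL : t ∈ Subgroup.normalizer (L : Set G)) {g : G} (hg : g ∈ K) :
    ∃ l ∈ L, t ^ 4 * g * (t ^ 4)⁻¹ = g * l := by
  let f : K →* K := (Subgroup.normalizerMonoidHom K ⟨t, hK⟩).toMonoidHom
  have hf : ∀ k : K, ((f k : K) : G) = t * k * t⁻¹ := fun k => rfl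
  have hle : L.subgroupOf K ≤ (L.subgroupOf K).comap f := by
    intro k hk
    rw [Subgroup.mem_comap, Subgroup.mem_subgroupOf, hf]
    rw [Subgroup.mem_subgroupOf] at hk
    exact (Subgroup.mem_normalizer_iff.1 hL _).1 hk
  let c : K ⧸ L.subgroupOf K →* K ⧸ L.subgroupOf K := QuotientGroup.map _ _ f hle
  have hc : ∀ k : K, c (QuotientGroup.mk k) = QuotientGroup.mk (f k) := fun k => rfl
  have hinj : Function.Injective c := by
    rw [injective_iff_map_eq_one]
    intro x
    induction x using QuotientGroup.induction_on with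
    | H k =>
      intro h
      rw [hc, QuotientGroup.eq_one_iff, Subgroup.mem_subgroupOf, hf] at h
      rw [QuotientGroup.eq_one_iff, Subgroup.mem_subgroupOf]
      exact (Subgroup.mem_normalizer_iff.1 hL _).2 h
  have hcard : Nat.card (K ⧸ L.subgroupOf K) = 5 := h5
  have h1 := aut5 hcard c hinj (QuotientGroup.mk ⟨g, hg⟩)
  rw [hc, hc, hc, hc] at h1
  have h2 := QuotientGroup.eq.1 h1.symm
  rw [Subgroup.mem_subgroupOf] at h2
  refine ⟨_, h2, ?_⟩
  push_cast
  rw [hf, hf, hf, hf]
  simp only [pow_succ, pow_zero, one_mul, mul_inv_rev, mul_assoc, mul_inv_cancel_left]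

theorem dvd125 {n : ℕ} (h : n ∣ 125) : n = 1 ∨ n = 5 ∨ n = 25 ∨ n = 125 := by
  obtain ⟨k, hk, rfl⟩ := (Nat.dvd_prime_pow (by norm_num : Nat.Prime 5)).1
    (show n ∣ 5 ^ 3 by simpa using h)
  interval_cases k <;> simp

/-- the center of a nonabelian group of order 125 has order 5 -/
theorem center5 {P : Type*} [Group P] (hP : Nat.card P = 125) (hnc : ∃ a b : P, a * b ≠ b * a) :
    Nat.card (Subgroup.center P) = 5 := by
  haveI : Fact (Nat.Prime 5) := ⟨by norm_num⟩
  haveI : Finite P := Nat.finite_of_card_ne_zero (by rw [hP]; norm_num)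
  haveI : Nontrivial P := by
    obtain ⟨a, b, h⟩ := hnc
    refine ⟨a, b, ?_⟩
    rintro rfl
    exact h rfl
  have hp : IsPGroup 5 P := IsPGroup.of_card (n := 3) (by rw [hP]; norm_num)
  have hnt := hp.center_nontrivial
  have hdvd : Nat.card (Subgroup.center P) ∣ 125 := by
    rw [← hP]; exact Subgroup.card_subgroup_dvd_card _
  rcases dvd125 hdvd with h | h | h | h
  · exfalso
    rw [← not_subsingleton_iff_nontrivial] at hnt
    exact hnt (Nat.card_eq_one_iff_unique.1 h).1
  · exact h
  · exfalso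
    have h1 := Subgroup.card_mul_index (Subgroup.center P)
    rw [h, hP] at h1
    have h2 : Nat.card (P ⧸ Subgroup.center P) = 5 := by
      change (Subgroup.center P).index = 5; omega
    haveI : IsCyclic (P ⧸ Subgroup.center P) := isCyclic_of_prime_card h2
    obtain ⟨a, b, hab⟩ := hnc
    exact hab ((MonoidHom.isMulCommutative_of_isCyclic_of_ker_le_center
      (QuotientGroup.mk' (Subgroup.center P)) (by rw [QuotientGroup.ker_mk'])).is_comm.comm a b)
  · exfalso
    have h1 : Subgroup.center P = ⊤ := Subgroup.eq_top_of_card_eq _ (by rw [h, hP])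
    obtain ⟨a, b, hab⟩ := hnc
    have h2 : a ∈ Subgroup.center P := by rw [h1]; trivial
    exact hab (Subgroup.mem_center_iff.1 h2 b).symm

/-- a subgroup of order 25 of a nonabelian group of order 125 contains the center -/
theorem center_le {P : Type*} [Group P] (hP : Nat.card P = 125) (hnc : ∃ a b : P, a * b ≠ b * a)
    (S : Subgroup P) (hS : Nat.card S = 25) : Subgroup.center P ≤ S := by
  haveI : Fact (Nat.Prime 5) := ⟨by norm_num⟩
  haveI : Finite P := Nat.finite_of_card_ne_zero (by rw [hP]; norm_num)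
  by_contra hcon
  obtain ⟨z, hz, hzS⟩ := Set.not_subset.1 hcon
  have hcomm : IsMulCommutative S := IsPGroup.isMulCommutative_of_card_eq_prime_sq (p := 5)
    (by rw [hS]; norm_num)
  have hle : S ≤ Subgroup.centralizer (S : Set P) := by
    intro a ha
    rw [Subgroup.mem_centralizer_iff]
    intro b hb
    have := hcomm.is_comm.comm (⟨a, ha⟩ : S) ⟨b, hb⟩
    exact (congrArg Subtype.val this).symm
  have hzc : z ∈ Subgroup.centralizer (S : Set P) := by
    rw [Subgroup.mem_centralizer_iff]
    intro b _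
    exact Subgroup.mem_center_iff.1 hz b
  have h1 : Nat.card (Subgroup.centralizer (S : Set P)) = 125 := by
    have h2 : Nat.card (Subgroup.centralizer (S : Set P)) ∣ 125 := by
      rw [← hP]; exact Subgroup.card_subgroup_dvd_card _
    have h3 : Nat.card S ∣ Nat.card (Subgroup.centralizer (S : Set P)) := Subgroup.card_dvd_of_le hle
    rw [hS] at h3
    rcases dvd125 h2 with h | h | h | h
    · rw [h] at h3; norm_num at h3
    · rw [h] at h3; norm_num at h3
    · exfalso
      have h4 : S = Subgroup.centralizer (S : Set P) :=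
        Subgroup.eq_of_le_of_card_ge hle (by rw [h, hS])
      rw [← h4] at hzc
      exact hzS hzc
    · exact h
  have h2 : Subgroup.centralizer (S : Set P) = ⊤ := Subgroup.eq_top_of_card_eq _ (by rw [h1, hP])
  have h3 : S ≤ Subgroup.center P := by
    intro a ha
    rw [Subgroup.mem_center_iff]
    intro g
    have : g ∈ Subgroup.centralizer (S : Set P) := by rw [h2]; trivial
    exact (Subgroup.mem_centralizer_iff.1 this a ha).symm
  have h4 := Subgroup.card_dvd_of_le h3
  rw [hS, center5 hP hnc] at h4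
  norm_num at h4

variable {G Ω : Type*} [Group G] [Finite Ω] [MulAction G Ω]

theorem orb_mul (P : Subgroup G) (x : Ω) :
    (MulAction.orbit P x).ncard * Nat.card (MulAction.stabilizer P x) = Nat.card P := by
  rw [← MulAction.index_stabilizer, mul_comm, Subgroup.card_mul_index]

/-- the moved orbit has 25 points -/
theorem orb25 (P : Subgroup G) (hP : Nat.card P = 125) (hnc : ∃ a b : P, a * b ≠ b * a)
    (hΩ : Nat.card Ω < 50) {z : P} (hz : z ∈ Subgroup.center P) {x : Ω} (hx : z • x ≠ x) :
    (MulAction.orbit P x).ncard = 25 := by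
  have h1 := orb_mul P x
  rw [hP] at h1
  have h2 : (MulAction.orbit P x).ncard < 50 := lt_of_le_of_lt (Set.ncard_le_card _) hΩ
  rcases dvd125 (Dvd.intro_left _ h1) with h | h | h | h
  · rw [h] at h1; omega
  · rw [h] at h1; omega
  · exfalso
    exact hx (center_le hP hnc _ h hz)
  · exfalso
    haveI : Finite P := Nat.finite_of_card_ne_zero (by rw [hP]; norm_num)
    have h3 : MulAction.stabilizer P x = ⊤ := Subgroup.eq_top_of_card_eq _ (by rw [h, hP])
    have h4 : z ∈ MulAction.stabilizer P x := by rw [h3]; trivial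
    exact hx h4

/-- conjugate orbits -/
theorem orb_smul (P : Subgroup G) {t : G} (ht : t ∈ Subgroup.normalizer (P : Set G)) (x : Ω) :
    (fun y => t • y) '' (MulAction.orbit P x) = MulAction.orbit P (t • x) := by
  ext y
  constructor
  · rintro ⟨_, ⟨p, rfl⟩, rfl⟩
    refine ⟨⟨t * p * t⁻¹, (Subgroup.mem_normalizer_iff.1 ht _).1 p.2⟩, ?_⟩
    change (t * p * t⁻¹) • t • x = t • (p : G) • x
    rw [smul_smul, smul_smul]
    congr 1
    group
  · rintro ⟨p, rfl⟩
    refine ⟨(t⁻¹ * p * t) • x, ⟨⟨t⁻¹ * p * t, (Subgroup.mem_normalizer_iff.1 ht _).2 ?_⟩, rfl⟩, ?_⟩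
    · have h : t * (t⁻¹ * p * t) * t⁻¹ = (p : G) := by group
      rw [h]; exact p.2
    · change t • (t⁻¹ * p * t) • x = (p : G) • t • x
      rw [smul_smul, smul_smul]
      congr 1
      group

theorem main (P : Subgroup G) (hP : Nat.card P = 125) (hnc : ∃ a b : P, a * b ≠ b * a)
    (hf : ∀ g ∈ P, (∀ x : Ω, g • x = x) → g = 1) (t : G)
    (ht : t ∈ Subgroup.normalizer (P : Set G)) (ht8 : t ^ 8 = 1)
    (hs : ∃ a ∈ P, t ^ 4 * a ≠ a * t ^ 4) : 50 ≤ Nat.card Ω := by
  classical
  haveI : Fact (Nat.Prime 5) := ⟨by norm_num⟩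
  haveI : Fact (Nat.Prime 2) := ⟨by norm_num⟩
  haveI : Finite P := Nat.finite_of_card_ne_zero (by rw [hP]; norm_num)
  by_contra hcon
  push Not at hcon
  have hZ := center5 hP hnc
  -- a central element moving a point
  obtain ⟨z, hz, hz1⟩ : ∃ z ∈ Subgroup.center P, z ≠ 1 := by
    by_contra hc
    push Not at hc
    have : Subgroup.center P = ⊥ := (Subgroup.eq_bot_iff_forall _).2 hc
    rw [this, Subgroup.card_bot] at hZ
    omega
  obtain ⟨x, hx⟩ : ∃ x : Ω, z • x ≠ x := by
    by_contra hc
    push Not at hc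
    exact hz1 (Subtype.ext (hf z z.2 hc))
  have hB := orb25 P hP hnc hcon hz hx
  set B := MulAction.orbit P x with hBdef
  -- t preserves B
  have htB : (fun y => t • y) '' B = B := by
    rw [hBdef, orb_smul P ht]
    by_contra hne
    have hdis : Disjoint (MulAction.orbit P (t • x)) (MulAction.orbit P x) := by
      rw [Set.disjoint_left]
      intro y hy1 hy2
      apply hne
      rw [← MulAction.orbit_eq_iff.2 hy1, ← MulAction.orbit_eq_iff.2 hy2]
    have h1 : (MulAction.orbit P (t • x)).ncard = 25 := by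
      rw [← orb_smul P ht, Set.ncard_image_of_injective _ (MulAction.injective t)]
      exact hB
    have h2 := Set.ncard_union_eq hdis
    have h3 := Set.ncard_le_card (MulAction.orbit P (t • x) ∪ MulAction.orbit P x)
    rw [h2, h1, hB] at h3
    omega
  -- fixed point
  obtain ⟨y, hyB, hty⟩ : ∃ y ∈ B, t • y = y := by
    have hmem : ∀ y ∈ B, t • y ∈ B := fun y hy => by rw [← htB]; exact ⟨y, hy, rfl⟩
    have hmem' : ∀ y ∈ B, t⁻¹ • y ∈ B := fun y hy => by
      rw [← htB] at hy
      obtain ⟨w, hw, rfl⟩ := hy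
      change t⁻¹ • t • w ∈ B
      rw [inv_smul_smul]; exact hw
    let σ : Equiv.Perm B :=
      ⟨fun y => ⟨t • (y : Ω), hmem y y.2⟩, fun y => ⟨t⁻¹ • (y : Ω), hmem' y y.2⟩,
        fun y => Subtype.ext (inv_smul_smul t (y : Ω)), fun y => Subtype.ext (smul_inv_smul t (y : Ω))⟩
    have hσn : ∀ (n : ℕ) (y : B), ((σ ^ n) y : Ω) = t ^ n • (y : Ω) := by
      intro n
      induction n with
      | zero => intro y; simp
      | succ n ih =>
        intro y
        rw [pow_succ', Equiv.Perm.mul_apply, pow_succ', mul_smul, ← ih]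
        rfl
    have hσ8 : σ ^ 2 ^ 3 = 1 := by
      apply Equiv.ext
      intro y
      apply Subtype.ext
      rw [show 2 ^ 3 = 8 by norm_num, hσn, ht8, one_smul]
      rfl
    haveI : Fintype B := Fintype.ofFinite _
    have hcard : ¬ 2 ∣ Fintype.card B := by
      rw [← Nat.card_eq_fintype_card, Nat.card_coe_set_eq, hB]; norm_num
    obtain ⟨y, hy⟩ := Equiv.Perm.exists_fixed_point_of_prime hcard hσ8
    exact ⟨y, y.2, congrArg Subtype.val hy⟩
  -- the stabilizer of y
  have hyorb : MulAction.orbit P y = B := MulAction.orbit_eq_iff.2 hyB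
  have hLc : Nat.card (MulAction.stabilizer P y) = 5 := by
    have h1 := orb_mul P y
    rw [hyorb, hB, hP] at h1
    omega
  have hzy : z • y ≠ y := by
    obtain ⟨p, hp⟩ := hyB
    intro h
    apply hx
    have hp' : p • x = y := hp
    rw [← hp', smul_smul, ← Subgroup.mem_center_iff.1 hz p, mul_smul] at h
    exact MulAction.injective p h
  set L : Subgroup G := (MulAction.stabilizer P y).map P.subtype with hL
  set Z : Subgroup G := (Subgroup.center P).map P.subtype with hZdef
  have hcL : Nat.card L = 5 := by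
    rw [hL, Subgroup.card_map_of_injective (Subgroup.subtype_injective _), hLc]
  have hcZ : Nat.card Z = 5 := by
    rw [hZdef, Subgroup.card_map_of_injective (Subgroup.subtype_injective _), hZ]
  have hLP : L ≤ P := Subgroup.map_subtype_le _
  have hZP : Z ≤ P := Subgroup.map_subtype_le _
  have hmemL : ∀ g, g ∈ L ↔ g ∈ P ∧ g • y = y := by
    intro g
    rw [hL, Subgroup.mem_map]
    constructor
    · rintro ⟨p, hp, rfl⟩
      exact ⟨p.2, hp⟩
    · rintro ⟨h1, h2⟩
      exact ⟨⟨g, h1⟩, h2, rfl⟩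
  have hmemZ : ∀ g, g ∈ Z ↔ g ∈ P ∧ ∀ p ∈ P, p * g = g * p := by
    intro g
    rw [hZdef, Subgroup.mem_map]
    constructor
    · rintro ⟨p, hp, rfl⟩
      exact ⟨p.2, fun q hq => congrArg Subtype.val (Subgroup.mem_center_iff.1 hp ⟨q, hq⟩)⟩
    · rintro ⟨h1, h2⟩
      exact ⟨⟨g, h1⟩, Subgroup.mem_center_iff.2 fun q => Subtype.ext (h2 q q.2), rfl⟩
  have hinf : Z ⊓ L = ⊥ := by
    by_contra hne
    have h1 : Nat.card (Z ⊓ L : Subgroup G) ∣ 5 := by
      rw [← hcZ]; exact Subgroup.card_dvd_of_le inf_le_left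
    haveI : Finite Z := Nat.finite_of_card_ne_zero (by rw [hcZ]; norm_num)
    haveI : Finite L := Nat.finite_of_card_ne_zero (by rw [hcL]; norm_num)
    rcases (Nat.dvd_prime (by norm_num : Nat.Prime 5)).1 h1 with h | h
    · exact hne (Subgroup.card_eq_one.1 h)
    · have h2 : Z ⊓ L = Z := Subgroup.eq_of_le_of_card_ge inf_le_left (by rw [h, hcZ])
      have h3 : (z : G) ∈ Z := (hmemZ _).2 ⟨z.2, fun p hp =>
        congrArg Subtype.val (Subgroup.mem_center_iff.1 hz ⟨p, hp⟩)⟩
      rw [← h2] at h3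
      exact hzy ((hmemL _).1 h3.2).2
  have hZL : Z ≤ Subgroup.normalizer (L : Set G) := by
    intro a ha
    rw [Subgroup.mem_normalizer_iff]
    have ha' := (hmemZ a).1 ha
    intro h
    constructor
    · intro hh
      rw [← ha'.2 h (hLP hh), mul_inv_cancel_right]; exact hh
    · intro hh
      have h1 := ha'.2 _ (hLP hh)
      have h2 : a * h * a⁻¹ = h := by
        have h3 : a * h * a⁻¹ * a = a * (a * h * a⁻¹) := h1
        have h4 : a * h = a * (a * h * a⁻¹) := by rw [← h3]; group
        exact (mul_left_cancel h4).symm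
      rw [h2] at hh; exact hh
  have hR := H23.card_sup_of_inf_eq_bot hZL hinf
  rw [hcL, hcZ] at hR
  have hRP : L ⊔ Z ≤ P := sup_le hLP hZP
  -- t normalizes
  have htL : t ∈ Subgroup.normalizer (L : Set G) := by
    rw [Subgroup.mem_normalizer_iff]
    intro h
    rw [hmemL, hmemL]
    have e : (t * h * t⁻¹) • y = y ↔ h • y = y := by
      have e1 : t⁻¹ • y = y := by rw [inv_smul_eq_iff, hty]
      rw [mul_smul, e1, mul_smul]
      constructor
      · intro hh
        apply MulAction.injective t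
        change t • h • y = t • y
        rw [hh, hty]
      · intro hh
        rw [hh, hty]
    rw [e]
    exact and_congr_left fun _ => Subgroup.mem_normalizer_iff.1 ht h
  have htZ : t ∈ Subgroup.normalizer (Z : Set G) := by
    rw [Subgroup.mem_normalizer_iff]
    intro h
    rw [hmemZ, hmemZ]
    refine and_congr (Subgroup.mem_normalizer_iff.1 ht h) ?_
    constructor
    · intro hh p hp
      have h1 : t⁻¹ * p * t ∈ P := by
        have := (Subgroup.mem_normalizer_iff.1 ht (t⁻¹ * p * t)).2
        apply this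
        have h : t * (t⁻¹ * p * t) * t⁻¹ = (p : G) := by group
        rw [h]; exact hp
      have h2 := hh _ h1
      calc p * (t * h * t⁻¹) = t * ((t⁻¹ * p * t) * h) * t⁻¹ := by group
        _ = t * (h * (t⁻¹ * p * t)) * t⁻¹ := by rw [h2]
        _ = t * h * t⁻¹ * p := by group
    · intro hh p hp
      have h1 := hh _ ((Subgroup.mem_normalizer_iff.1 ht p).1 hp)
      have h2 : t * (p * h) * t⁻¹ = t * (h * p) * t⁻¹ := by
        calc t * (p * h) * t⁻¹ = t * p * t⁻¹ * (t * h * t⁻¹) := by group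
          _ = t * h * t⁻¹ * (t * p * t⁻¹) := h1
          _ = _ := by group
      exact mul_left_cancel (mul_right_cancel h2)
  have htR : t ∈ Subgroup.normalizer ((L ⊔ Z : Subgroup G) : Set G) := Subgroup.normalizer_inf_normalizer_le_normalizer_sup L Z ⟨htL, htZ⟩
  have hbot : ∀ K : Subgroup G, t ∈ Subgroup.normalizer ((⊥ : Subgroup G) : Set G) := by
    intro _
    rw [Subgroup.mem_normalizer_iff]
    intro h
    rw [Subgroup.mem_bot, Subgroup.mem_bot]
    constructor
    · rintro rfl; group
    · intro hh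
      have : h = t⁻¹ * (t * h * t⁻¹) * t := by group
      rw [this, hh]; group
  have hcent : ∀ K : Subgroup G, Nat.card K = 5 → t ∈ Subgroup.normalizer (K : Set G) →
      ∀ g ∈ K, t ^ 4 * g = g * t ^ 4 := by
    intro K hK htK g hg
    have hn : ((⊥ : Subgroup G).subgroupOf K).Normal := by
      rw [Subgroup.bot_subgroupOf]; infer_instance
    obtain ⟨l, hl, h1⟩ := sec5 K ⊥ hn (by rw [Subgroup.relIndex_bot_left, hK]) htK (hbot K) hg
    rw [Subgroup.mem_bot] at hl
    rw [hl, mul_one] at h1
    calc t ^ 4 * g = (t ^ 4 * g * (t ^ 4)⁻¹) * t ^ 4 := by group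
      _ = g * t ^ 4 := by rw [h1]
  have hcR : L ⊔ Z ≤ Subgroup.centralizer ({t ^ 4} : Set G) := by
    refine sup_le ?_ ?_
    · intro g hg
      rw [Subgroup.mem_centralizer_singleton_iff]
      exact (hcent L hcL htL g hg).symm
    · intro g hg
      rw [Subgroup.mem_centralizer_singleton_iff]
      exact (hcent Z hcZ htZ g hg).symm
  have hidx : (L ⊔ Z).relIndex P = 5 := by
    have h1 := Subgroup.card_mul_index ((L ⊔ Z).subgroupOf P)
    rw [Nat.card_congr (Subgroup.subgroupOfEquivOfLe hRP).toEquiv, hR, hP] at h1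
    change ((L ⊔ Z).subgroupOf P).index = 5
    omega
  have hnorm : ((L ⊔ Z).subgroupOf P).Normal := by
    apply Subgroup.normal_of_index_eq_minFac_card
    rw [hP]
    change (L ⊔ Z).relIndex P = _
    rw [hidx]; norm_num
  obtain ⟨a, ha, hsa⟩ := hs
  apply hsa
  obtain ⟨r, hr, h1⟩ := sec5 P (L ⊔ Z) hnorm hidx ht htR ha
  have hrs : t ^ 4 * r = r * t ^ 4 := (Subgroup.mem_centralizer_singleton_iff.1 (hcR hr)).symm
  have h2 : t ^ 4 * t ^ 4 = 1 := by rw [← pow_add, ← ht8]
  have h3 : t ^ 4 * a = a * r * t ^ 4 := by rw [← h1]; group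
  have h4 : a = a * (r * r) := by
    calc a = (t ^ 4 * t ^ 4) * a := by rw [h2, one_mul]
      _ = t ^ 4 * (t ^ 4 * a) := by group
      _ = t ^ 4 * (a * r * t ^ 4) := by rw [h3]
      _ = (t ^ 4 * a) * (r * t ^ 4) := by simp only [mul_assoc]
      _ = a * r * t ^ 4 * (t ^ 4 * r) := by rw [h3, hrs]
      _ = a * r * (t ^ 4 * t ^ 4) * r := by simp only [mul_assoc]
      _ = _ := by rw [h2]; simp only [mul_assoc, one_mul]
  have h5 : r * r = 1 := by
    have := h4
    nth_rewrite 1 [← mul_one a] at this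
    exact (mul_left_cancel this).symm
  have h6 : r ^ 125 = 1 := by
    have := pow_card_eq_one' (x := (⟨r, hRP hr⟩ : P))
    rw [hP] at this
    exact congrArg Subtype.val this
  have h7 : r = 1 := by
    have : r ^ 125 = (r * r) ^ 62 * r := by rw [← pow_two, ← pow_mul, ← pow_succ]
    rw [this, h5, one_pow, one_mul] at h6
    exact h6
  rw [h3, h7, mul_one]

end Cfsg.Agent.H29.IdxFifty
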