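import Cfsg.Agent.H11.OneBlk
import Cfsg.Agent.H11.FirstMain
import Cfsg.Agent.H11.Third2
import Cfsg.Agent.H11.Defect5
import Cfsg.Agent.H3.Core2

/-!
If centralizers of elements of order `p` are `p`-constrained without core and no irreducible
character has `p`-defect zero, then there is only one `p`-block.
-/
set_option autoImplicit false
set_option linter.style.haveILetI false
set_option linter.unusedSectionVars false

namespace Cfsg.Agent.H29
open Cfsg Cfsg.Agent.H11

variable {G : Type*} [Group G] [Finite G] {p : ℕ}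

theorem sameBlock_refl {M : Ideal AlgInt} (hM : IsPModular p M) {H : Type*} [Group H] (χ : H → ℂ) : SameBlock M χ χ := by
  intro g
  rw [sub_self]
  refine ⟨0, 1, M.zero_mem, ?_, by simp⟩
  intro h
  exact hM.2.1.ne_top ((Ideal.eq_top_iff_one M).2 h)

theorem block_eq_principal {M : Ideal AlgInt} (hM : IsPModular p M)
    (hloc : ∀ z : G, orderOf z = p → ∃ Q : Subgroup G, IsPGroup p Q ∧ Q ≤ Subgroup.centralizer {z} ∧
      Subgroup.centralizer {z} ≤ Subgroup.normalizer (Q : Set G) ∧ Subgroup.centralizer (Q : Set G) ≤ Q)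
    (hdz : ∀ χ : IrrCharacter G, p ∣ Nat.card G / charDegree (χ : G → ℂ)) (χ : IrrCharacter G) :
    blockOf M (χ : G → ℂ) = principalBlock M G := by
  classical
  have := Fintype.ofFinite G
  haveI : Fact p.Prime := ⟨hM.1⟩
  have hB : IsPBlock M (blockOf M (χ : G → ℂ)) := ⟨χ, rfl⟩
  obtain ⟨D, hD⟩ := exists_isDefectGroup hM hB
  have hcard := card_defect hM hB hD
  have hDp : IsPGroup p D := IsPGroup.of_card hcard
  have hd0 : p ∣ Nat.card D := by
    rw [hcard]
    apply dvd_pow_self
    intro h0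
    have h1 : ¬ p ∣ Nat.card G / charDegree (χ : G → ℂ) := by
      rw [defect_zero_iff hM]
      apply blockOf_eq_singleton hM
      unfold blockDefect at h0
      have h2 := Nat.sub_eq_zero_iff_le.1 h0
      refine h2.trans ?_
      apply Nat.sInf_le
      exact ⟨χ, sameBlock_refl hM _, rfl⟩
    exact h1 (hdz χ)
  obtain ⟨⟨z, hzD⟩, hz⟩ := exists_prime_orderOf_dvd_card' p hd0
  rw [Subgroup.orderOf_mk] at hz
  obtain ⟨Q, hQp, hQz, hzQ, hQQ⟩ := hloc z hz
  set H := Subgroup.centralizer ({z} : Set G) with hH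
  have hP : IsPGroup p (Subgroup.zpowers z) := IsPGroup.of_card (n := 1) (by rw [Nat.card_zpowers, hz, pow_one])
  have hPH : Subgroup.zpowers z ≤ H := by
    rw [Subgroup.zpowers_le, hH, Subgroup.mem_centralizer_singleton_iff]
  have hCH : Subgroup.centralizer (Subgroup.zpowers z : Set G) ≤ H :=
    Subgroup.centralizer_le (by simp)
  have hHN : H ≤ Subgroup.normalizer (Subgroup.zpowers z : Set G) := by
    have h1 : H ≤ Subgroup.centralizer (Subgroup.zpowers z : Set G) := by
      intro g hg
      rw [hH, Subgroup.mem_centralizer_singleton_iff] at hg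
      rw [Subgroup.mem_centralizer_iff]
      rintro _ ⟨k, rfl⟩
      exact ((show Commute z g from hg.symm).zpow_left k).eq
    exact h1.trans (Subgroup.centralizer_le_normalizer _)
  obtain ⟨b, hb⟩ := (exists_inducing_iff hM hP hPH hCH hHN hB hD).2 ⟨1, by
    rintro _ ⟨x, hx, rfl⟩
    have : (MulAut.conj (1 : G)).toMonoidHom x = x := by simp
    rw [this]
    exact (Subgroup.zpowers_le.2 hzD) hx⟩
  have hone : ∀ ξ η : IrrCharacter H, SameBlock M (ξ : H → ℂ) (η : H → ℂ) := by
    have hn : (Q.subgroupOf H).Normal := by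
      refine ⟨fun n hn g => ?_⟩
      rw [Subgroup.mem_subgroupOf] at hn ⊢
      exact (hzQ g.2 n).1 hn
    have hQH : IsPGroup p (Q.subgroupOf H) := hQp.comap_subtype
    refine one_block hM hQH ?_
    intro g hg
    rw [Subgroup.mem_subgroupOf]
    apply hQQ
    rw [Subgroup.mem_centralizer_iff] at hg ⊢
    intro q hq
    exact congrArg Subtype.val (hg ⟨q, hQz hq⟩ hq)
  have hbp : b = principalBlock M H := by
    obtain ⟨ξ, hξ⟩ := hb.1
    rw [hξ]
    ext η
    constructor
    · intro _
      exact hone ⟨fun _ => 1, Cfsg.Agent.H3.isIrr_one⟩ η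
    · intro _
      exact hone ξ η
  exact (third_main hM hb).2 hbp

theorem one_block_local {M : Ideal AlgInt} (hM : IsPModular p M)
    (hloc : ∀ z : G, orderOf z = p → ∃ Q : Subgroup G, IsPGroup p Q ∧ Q ≤ Subgroup.centralizer {z} ∧
      Subgroup.centralizer {z} ≤ Subgroup.normalizer (Q : Set G) ∧ Subgroup.centralizer (Q : Set G) ≤ Q)
    (hdz : ∀ χ : IrrCharacter G, p ∣ Nat.card G / charDegree (χ : G → ℂ)) (χ ψ : IrrCharacter G) :
    SameBlock M (χ : G → ℂ) (ψ : G → ℂ) := by
  have h1 := block_eq_principal hM hloc hdz χ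
  have h2 := block_eq_principal hM hloc hdz ψ
  have h3 : ψ ∈ blockOf M (ψ : G → ℂ) := sameBlock_refl hM _
  rw [h2, ← h1] at h3
  exact h3

end Cfsg.Agent.H29
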