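import Cfsg.Agent.H29.M24Els
import Cfsg.Agent.H29.OctStab
import Cfsg.Agent.H29.LocBlock

/-!
Octad groups: the pointwise stabiliser of an octad is elementary abelian and self-centralising.
-/
set_option autoImplicit false

namespace Cfsg.Agent.H29
open Cfsg Cfsg.Agent.H7
open scoped Pointwise

def ms8 : List (ℕ × List ℕ) := [(1, [0]), (2, [1]), (4, [2]), (8, [3]), (32, [5]), (16384, [14]), (131072, [17]), (8388608, [23])]

theorem ms8_ok : msOK ms8 = true := by decide +kernel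

theorem ms8_pts : (ms8.all fun e => Nat.beq e.1 (1 <<< (e.2.headD 0)) && Nat.blt (e.2.headD 0) 24 && oct0.testBit (e.2.headD 0)) = true := by
  decide +kernel

def lfSq (f : ℕ → ℕ) : Bool := nall (fun b => Nat.beq (it f 2 b) b) bl

theorem lfSq_imp (P : Equiv.Perm GolayPt → Prop) : LeafImp P (fun σ => σ * σ = 1) lfSq := by
  intro σ hσ _ f hf h
  unfold lfSq at h
  rw [nall_iff] at h
  apply ap_ext7 (M24.mul_mem hσ hσ) M24.one_mem
  intro k hk
  have h1 := Nat.eq_of_beq_eq_true (h (gb k) (mem_bl.2 ⟨k, hk, rfl⟩))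
  rw [it_ap hf 2 (gb_lt hk), sq] at h1
  rw [h1]
  unfold ap
  rw [Equiv.Perm.one_apply, gidx_gpt (gb_lt hk)]

theorem sq_ms8 : ∀ σ ∈ M24, StabMs ms8 σ → σ * σ = 1 :=
  all_stabMs ms8_ok (lfSq_imp _) (by decide +kernel)

theorem stab_ms8 {σ : Equiv.Perm GolayPt} (h : ∀ p ∈ toSet oct0, σ p = p) : StabMs ms8 σ := by
  intro e he
  have h1 := ms8_pts
  rw [List.all_eq_true] at h1
  have h2 := h1 e he
  rw [Bool.and_eq_true, Bool.and_eq_true] at h2
  obtain ⟨⟨h2, h3⟩, h4⟩ := h2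
  have h3' : e.2.headD 0 < 24 := Nat.le_of_ble_eq_true h3
  rw [Nat.eq_of_beq_eq_true h2]
  apply (smul_single h3').2
  apply h
  rw [mem_toSet, gidx_gpt h3']
  exact h4

theorem EO_sq {o : Finset GolayPt} (ho : o ∈ octads) {e : Equiv.Perm GolayPt} (he : e ∈ EO o) : e * e = 1 := by
  obtain ⟨τ, hτ, h⟩ := octad_transitive oct0_octad ho
  rw [mem_EO] at he
  have h1 : (τ⁻¹ * e * τ) * (τ⁻¹ * e * τ) = 1 := by
    apply sq_ms8 _ (M24.mul_mem (M24.mul_mem (M24.inv_mem hτ) he.1) hτ)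
    apply stab_ms8
    intro p hp
    show τ⁻¹ (e (τ p)) = p
    have h2 : τ p ∈ o := by
      rw [← h]; exact (smul_mem_smul' τ _ _).2 hp
    rw [he.2 _ h2]
    exact τ.symm_apply_apply p
  have h2 : (τ⁻¹ * e * τ) * (τ⁻¹ * e * τ) = τ⁻¹ * (e * e) * τ := by group
  rw [h2] at h1
  have h3 : e * e = τ * (τ⁻¹ * (e * e) * τ) * τ⁻¹ := by group
  rw [h3, h1]; group

theorem EO_comm {o : Finset GolayPt} (ho : o ∈ octads) {a b : Equiv.Perm GolayPt} (ha : a ∈ EO o) (hb : b ∈ EO o) : a * b = b * a := by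
  have h1 := EO_sq ho ha
  have h2 := EO_sq ho hb
  have h3 := EO_sq ho ((EO o).mul_mem ha hb)
  have h4 : a⁻¹ = a := inv_eq_of_mul_eq_one_right h1
  have h5 : b⁻¹ = b := inv_eq_of_mul_eq_one_right h2
  have h6 : (a * b)⁻¹ = a * b := inv_eq_of_mul_eq_one_right h3
  rw [← h6, mul_inv_rev, h4, h5]

/-- an element of `M24` commuting with the octad group lies in it -/
theorem EO_self_cent {o : Finset GolayPt} (ho : o ∈ octads) {z : Equiv.Perm GolayPt} (hz : z ∈ EO o)
    (hzf : (Finset.univ.filter fun p => z p = p) = o) {c : Equiv.Perm GolayPt} (hc : c ∈ M24) (h : ∀ e ∈ EO o, e * c = c * e) :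
    c ∈ EO o := by
  have hco : ∀ p, p ∉ o → c p ∉ o := by
    intro p hp hcp
    apply hp
    rw [← hzf, Finset.mem_filter] at hcp ⊢
    refine ⟨Finset.mem_univ _, ?_⟩
    have h1 := Equiv.ext_iff.1 (h z hz) p
    rw [Equiv.Perm.mul_apply, Equiv.Perm.mul_apply, hcp.2] at h1
    exact (c.injective h1).symm
  obtain ⟨p, hp⟩ : ∃ p, p ∉ o := by
    by_contra hall
    push Not at hall
    have h1 : o = Finset.univ := Finset.eq_univ_of_forall hall
    have h2 := (mem_octads.1 ho).2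
    rw [h1, Finset.card_univ] at h2
    revert h2
    decide
  obtain ⟨e, heM, heo, hep⟩ := oct_fix_trans ho hp (hco p hp)
  have he : e ∈ EO o := mem_EO.2 ⟨heM, heo⟩
  have h1 : e⁻¹ * c = 1 := by
    apply M24_fix9 (M24.mul_mem (M24.inv_mem heM) hc)
    have hsub : oᶜ ⊆ Finset.univ.filter fun q => (e⁻¹ * c) q = q := by
      intro q hq
      rw [Finset.mem_compl] at hq
      rw [Finset.mem_filter]
      refine ⟨Finset.mem_univ _, ?_⟩
      obtain ⟨x, hxM, hxo, hxq⟩ := oct_fix_trans ho hp hq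
      have hx : x ∈ EO o := mem_EO.2 ⟨hxM, hxo⟩
      rw [← hxq]
      have e1 : (e⁻¹ * c) * x = x * (e⁻¹ * c) := by
        have e2 : e⁻¹ * x = x * e⁻¹ := EO_comm ho ((EO o).inv_mem he) hx
        rw [mul_assoc, ← h x hx, ← mul_assoc, e2, mul_assoc]
      have e3 := Equiv.ext_iff.1 e1 p
      rw [Equiv.Perm.mul_apply (e⁻¹ * c) x, Equiv.Perm.mul_apply x] at e3
      rw [e3]
      congr 1
      rw [Equiv.Perm.mul_apply, ← hep]
      exact e.symm_apply_apply p
    refine le_trans ?_ (Finset.card_le_card hsub)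
    rw [Finset.card_compl, (mem_octads.1 ho).2]
    decide
  have h2 : c = e := by
    rw [inv_mul_eq_one] at h1
    exact h1.symm
  rw [h2]; exact he

/-- centralisers of involutions of the first kind normalise the octad group -/
theorem EO_norm {o : Finset GolayPt} {z c : Equiv.Perm GolayPt} (hzf : (Finset.univ.filter fun p => z p = p) = o)
    (hc : c ∈ M24) (h : c * z = z * c) {e : Equiv.Perm GolayPt} (he : e ∈ EO o) : c * e * c⁻¹ ∈ EO o := by
  rw [mem_EO] at he ⊢
  refine ⟨M24.mul_mem (M24.mul_mem hc he.1) (M24.inv_mem hc), fun p hp => ?_⟩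
  show c (e (c⁻¹ p)) = p
  have h1 : c⁻¹ p ∈ o := by
    rw [← hzf, Finset.mem_filter] at hp ⊢
    refine ⟨Finset.mem_univ _, ?_⟩
    apply c.injective
    have h2 := Equiv.ext_iff.1 h (c⁻¹ p)
    rw [Equiv.Perm.mul_apply, Equiv.Perm.mul_apply, show c (c⁻¹ p) = p from c.apply_symm_apply p, hp.2] at h2
    rw [h2]
    exact (c.apply_symm_apply p).symm
  rw [he.2 _ h1]
  exact c.apply_symm_apply p

theorem EO_pgroup {o : Finset GolayPt} (ho : o ∈ octads) : IsPGroup 2 (EO o) := by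
  intro e
  refine ⟨1, ?_⟩
  have := EO_sq ho e.2
  rw [pow_one, sq]
  exact Subtype.ext this

theorem mem_EO_of_fix {o : Finset GolayPt} {z : Equiv.Perm GolayPt} (hz : z ∈ M24)
    (hzf : (Finset.univ.filter fun p => z p = p) = o) : z ∈ EO o := by
  rw [mem_EO]
  refine ⟨hz, fun p hp => ?_⟩
  rw [← hzf, Finset.mem_filter] at hp
  exact hp.2

/-- the fixed points of an involution with a fixed point form an octad -/
theorem fix_octad {z : Equiv.Perm GolayPt} (hz : z ∈ M24) (h2 : orderOf z = 2)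
    (h8 : (Finset.univ.filter fun p => z p = p).card ≠ 0) : (Finset.univ.filter fun p => z p = p) ∈ octads := by
  obtain ⟨τ, hτ, h⟩ := invol_A hz h2 h8
  have h3 := fixed_conj z τ
  rw [h, fix2A] at h3
  have h4 : toSet 4415544 ∈ octads :=
    ⟨mem_GC_mask.mpr ⟨4415544, by decide +kernel, rfl⟩, by rw [card_toSet]; decide +kernel⟩
  have h5 : (Finset.univ.filter fun p => z p = p) = τ⁻¹ • toSet 4415544 := by
    rw [h3, inv_smul_smul]
  rw [h5]
  exact M24_smul_octad (M24.inv_mem hτ) h4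

/-- the local subgroup for an involution fixing an octad, in a subgroup containing the octad group -/
theorem local_A {H : Subgroup (Equiv.Perm GolayPt)} (hH : H ≤ M24) {z : H} (h2 : orderOf z = 2)
    (hne : (Finset.univ.filter fun p => (z : Equiv.Perm GolayPt) p = p).card ≠ 0)
    (hEH : EO (Finset.univ.filter fun p => (z : Equiv.Perm GolayPt) p = p) ≤ H) :
    ∃ Q : Subgroup H, IsPGroup 2 Q ∧ Q ≤ Subgroup.centralizer {z} ∧
      Subgroup.centralizer {z} ≤ Subgroup.normalizer (Q : Set H) ∧ Subgroup.centralizer (Q : Set H) ≤ Q := by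
  have h2' : orderOf (z : Equiv.Perm GolayPt) = 2 := by rw [Subgroup.orderOf_coe, h2]
  have ho := fix_octad (hH z.2) h2' hne
  set o := Finset.univ.filter fun p => (z : Equiv.Perm GolayPt) p = p with hodef
  have hz : (z : Equiv.Perm GolayPt) ∈ EO o := mem_EO_of_fix (hH z.2) rfl
  refine ⟨(EO o).subgroupOf H, ?_, ?_, ?_, ?_⟩
  · intro q
    refine ⟨1, ?_⟩
    rw [pow_one, sq]
    apply Subtype.ext
    apply Subtype.ext
    exact EO_sq ho q.2
  · intro q hq
    rw [Subgroup.mem_centralizer_singleton_iff]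
    exact Subtype.ext (EO_comm ho hq hz)
  · have key : ∀ c : H, c ∈ Subgroup.centralizer {z} → ∀ q : H, q ∈ (EO o).subgroupOf H → c * q * c⁻¹ ∈ (EO o).subgroupOf H := by
      intro c hc q hq
      rw [Subgroup.mem_centralizer_singleton_iff] at hc
      exact EO_norm hodef.symm (hH c.2) (congrArg Subtype.val hc) hq
    intro c hc
    rw [Subgroup.mem_normalizer_iff]
    intro q
    refine ⟨key c hc q, fun h => ?_⟩
    have := key c⁻¹ (Subgroup.inv_mem _ hc) _ h
    simpa [mul_assoc] using this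
  · intro c hc
    rw [Subgroup.mem_centralizer_iff] at hc
    refine EO_self_cent ho hz hodef.symm (hH c.2) (fun e he => ?_)
    exact congrArg Subtype.val (hc ⟨e, hEH he⟩ he)

theorem local_M22 (z : Spor.M22) (h2 : orderOf z = 2) :
    ∃ Q : Subgroup Spor.M22, IsPGroup 2 Q ∧ Q ≤ Subgroup.centralizer {z} ∧
      Subgroup.centralizer {z} ≤ Subgroup.normalizer (Q : Set Spor.M22) ∧ Subgroup.centralizer (Q : Set Spor.M22) ≤ Q := by
  have hz := z.2
  have h0 : (z : Equiv.Perm GolayPt) none = none := hz.1.2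
  have h1 : (z : Equiv.Perm GolayPt) (some 0) = some 0 := hz.2
  have hle : Spor.M22 ≤ M24 := by
    intro σ hσ
    exact ((mem_M22' σ).1 hσ).1
  refine local_A hle h2 ?_ ?_
  · rw [Finset.card_ne_zero]
    exact ⟨none, Finset.mem_filter.2 ⟨Finset.mem_univ _, h0⟩⟩
  · intro e he
    rw [mem_EO] at he
    refine ⟨⟨he.1, he.2 none (Finset.mem_filter.2 ⟨Finset.mem_univ _, h0⟩)⟩,
      he.2 (some 0) (Finset.mem_filter.2 ⟨Finset.mem_univ _, h1⟩)⟩

end Cfsg.Agent.H29
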