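import Cfsg.Agent.H29.Loc24
import Cfsg.Agent.S5607

/-!
The normal 2-subgroup of a sextet group and the centraliser of a fixed-point-free involution.
-/
set_option autoImplicit false

namespace Cfsg.Agent.H29
open Cfsg Cfsg.Agent.H7
open scoped Pointwise

/-- the normal 2-subgroup of a sextet group -/
def L64 : List ℕ := [0x30f3a41d24c496419ebaa82d10cb7,
  0x3126541d23c51624ead7d06b28457,
  0x31f49c1d2ac5b65a8e84984409477,
  0x32aa341d27c5766d1243cca818837,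
  0x40e6531d64c5726cde4ad04809477,
  0x4133a31d63c5b259aa87a8a418837,
  0x41ea331d6ac512250ed4cc2b10cb7,
  0x42b49b1d67c4924292b3986d28457,
  0x48f49d9cc4c510229eda98ab18837,
  0x492a359cc3c490452ab7cc4d09477,
  0x49f3a59ccac570698e44a86828457,
  0x4aa6559cc7c5b05cd283d02410cb7,
  0x58ea349d04c5ac5d1e8acc6428457,
  0x59349c9d03c56c6aaa47982810cb7,
  0x59e6549d0ac48c44ceb4d0ad18837,
  0x5ab3a49d07c50c2192d3a84b09477,
  0x730ea340124dd16251edacc4b09471,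
  0x731349c0123dc9642aab798ad18831,
  0x731e654012add766cce44d02810cb1,
  0x732b3a40127ddb6599283a86428451,
  0x740f49b0164ddb25a9e8a982410cb1,
  0x7412a330163dd726d2a47cc6828451,
  0x741f3a3016adc92418eb4a84d09471,
  0x742a6530167dd1224d2d3d0ab18831,
  0x748e65580c4dc9044debad06d28451,
  0x74933a580c3dd1021aad7a82b10cb1,
  0x749ea3580caddb05d0e84cca418831,
  0x74ab49d80c7dd706a9243984809471,
  0x758f3a48104dd6c699e4aa8a818831,
  0x75926548103ddac5cea87d04409471,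
  0x759f49c810add0c228ed4986b28451,
  0x75aaa348107dc8c4512b3cc2d10cb1,
  0x8b0e6542f2481b65cde8ad0a41882e,
  0x8b133a42f23817669aa47a8480946e,
  0x8b1ea342f2a8096450eb4cc6d2844e,
  0x8b2b49c2f2781162292d3982b10cae,
  0x8c0f3a32f648112219edaa86b2844e,
  0x8c126532f63809244eab7d02d10cae,
  0x8c1f49b2f6a81726a8e4498a81882e,
  0x8c2aa332f6781b25d1283cc440946e,
  0x8c8ea35aec481706d1e4acc2810cae,
  0x8c9349daec381b05aaa8798642844e,
  0x8c9e655aeca811024ced4d04b0946e,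
  0x8cab3a5aec780904192b3a8ad1882e,
  0x8d8f49caf04808c429eba984d0946e,
  0x8d92a34af03810c252ad7ccab1882e,
  0x8d9f3a4af0a81ac598e84a82410cae,
  0x8daa654af07816c6cd243d0682844e,
  0xbb0f49c2324b9766a9e4a986828440,
  0xbb12a342323b9b65d2a87cc2410ca0,
  0xbb1f3a4232ab916218ed4a8ab18820,
  0xbb2a6542327b89644d2b3d04d09460,
  0xbc0ea332364b892451ebaccad18820,
  0xbc1349b2363b91222aad7984b09460,
  0xbc1e653236ab9b25cce84d06428440,
  0xbc2b3a32367b972699243a82810ca0,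
  0xbc8f3a5a2c4b9b0599e8aa84409460,
  0xbc92655a2c3b9706cea47d0a818820,
  0xbc9f49da2cab890428eb4982d10ca0,
  0xbcaaa35a2c7b9102512d3cc6b28440,
  0xbd8e654a304b90c24dedad02b10ca0,
  0xbd933a4a303b88c41aab7a86d28440,
  0xbd9ea34a30ab96c6d0e44cc4809460,
  0xbdab49ca307b9ac5a928398a418820]
def E0 : CData := ⟨0x740f49b0164ddb25a9e8a982410cb1, [(0, 17), (14, 23), (17, 0), (23, 14)],
  [[(2, 0)], [(2, 0)], [(2, 0)], [(2, 0)], [(2, 0), (0, 2), (1, 2)], [(2, 0), (0, 1), (1, 1)], [(3, 0)]],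
  [(23, 14), (0, 17), (1, 5), (2, 3), (3, 2), (5, 1), (4, 4)]⟩
def E1 : CData := ⟨0xbc1349b2363b91222aad7984b09460, [(14, 14), (17, 17)],
  [[(3, 0)], [(3, 0)], [(2, 0)], [(2, 0)], [(2, 0), (0, 1), (1, 1)], [(2, 0), (0, 2), (1, 2)], [(2, 0)]],
  [(23, 23), (0, 0), (1, 3), (2, 5), (3, 1), (5, 2), (4, 11)]⟩
def E2 : CData := ⟨0x8c1f49b2f6a81726a8e4498a81882e, [(0, 14), (14, 0), (17, 23), (23, 17)],
  [[(2, 0)], [(2, 0)], [(3, 0)], [(3, 0)], [(3, 0)], [(3, 0)], [(2, 0)]],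
  [(23, 17), (0, 14), (1, 1), (2, 2), (3, 3), (5, 5), (4, 8)]⟩
def E3 : CData := ⟨0x748e65580c4dc9044debad06d28451, [(0, 17), (14, 23), (17, 0), (23, 14)],
  [[(2, 0)], [(2, 0)], [(2, 0)], [(2, 0), (0, 1), (1, 1)], [(2, 0)], [(2, 0), (0, 3), (1, 3)], [(2, 0)]],
  [(23, 14), (0, 17), (1, 2), (2, 1), (3, 5), (5, 3), (4, 13)]⟩
def msS : List (ℕ × List ℕ) := [(46, [1, 2, 3, 5]), (10512, [4, 8, 11, 13]), (1573952, [6, 10, 19, 20]), (2130560, [7, 9, 15, 21]), (4526080, [12, 16, 18, 22]), (8536065, [0, 14, 17, 23])]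

theorem L64_grp : grpOK L64 = true := by decide +kernel
theorem E_ok : E0.OK = true ∧ E1.OK = true ∧ E2.OK = true ∧ E3.OK = true := by
  refine ⟨?_, ?_, ?_, ?_⟩ <;> decide +kernel
theorem msS_ok : msOK msS = true := by decide +kernel
theorem L64_sq : (L64.all fun c => Nat.beq (pm c c) idc) = true := by decide +kernel
theorem L64_mem : r2B ∈ L64 ∧ E0.g ∈ L64 ∧ E1.g ∈ L64 ∧ E2.g ∈ L64 ∧ E3.g ∈ L64 := by decide +kernel

noncomputable def QB : Subgroup (Equiv.Perm GolayPt) := subL L64 L64_grp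

theorem mem_QB {σ : Equiv.Perm GolayPt} : σ ∈ QB ↔ ∃ c ∈ L64, mkPerm c = σ := mem_subL

theorem QB_sq {σ : Equiv.Perm GolayPt} (h : σ ∈ QB) : σ * σ = 1 := by
  obtain ⟨c, hc, rfl⟩ := mem_QB.1 h
  have h1 := (grpOK_mem L64_grp hc).1
  have h2 := L64_sq
  rw [List.all_eq_true] at h2
  rw [← mkPerm_pm h1 h1, Nat.eq_of_beq_eq_true (h2 c hc)]
  exact idc_ok.2

theorem QB_le : QB ≤ M24 := subL_le

theorem QB_comm {a b : Equiv.Perm GolayPt} (ha : a ∈ QB) (hb : b ∈ QB) : a * b = b * a := by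
  have h1 := QB_sq ha
  have h2 := QB_sq hb
  have h3 := QB_sq (QB.mul_mem ha hb)
  have h4 : a⁻¹ = a := inv_eq_of_mul_eq_one_right h1
  have h5 : b⁻¹ = b := inv_eq_of_mul_eq_one_right h2
  have h6 : (a * b)⁻¹ = a * b := inv_eq_of_mul_eq_one_right h3
  rw [← h6, mul_inv_rev, h4, h5]

/-- leaf test: membership in the list -/
def lfIn (L : List ℕ) (f : ℕ → ℕ) : Bool :=
  @List.rec ℕ (fun _ => Bool) false (fun c _ a => bif nall (fun b => Nat.beq (pa c b) (f b)) bl then true else a) L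

theorem lfIn_spec {L : List ℕ} (hL : ∀ c ∈ L, okPerm c = true) {σ : Equiv.Perm GolayPt} (hσ : σ ∈ M24) {f : ℕ → ℕ}
    (hf : ∀ i < 24, f i = ap σ i) (h : lfIn L f = true) : ∃ c ∈ L, mkPerm c = σ := by
  induction L with
  | nil => exact absurd h (by simp [lfIn])
  | cons c L ih =>
    have h' : (bif nall (fun b => Nat.beq (pa c b) (f b)) bl then true else lfIn L f) = true := h
    cases h1 : nall (fun b => Nat.beq (pa c b) (f b)) bl with
    | false =>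
      rw [h1, cond_false] at h'
      obtain ⟨d, hd, hd2⟩ := ih (fun c hc => hL c (List.mem_cons_of_mem _ hc)) h'
      exact ⟨d, List.mem_cons_of_mem _ hd, hd2⟩
    | true =>
      refine ⟨c, List.mem_cons_self, ?_⟩
      have hc := hL c List.mem_cons_self
      rw [nall_iff] at h1
      apply ap_ext7 (mkPerm_mem_M24 hc) hσ
      intro k hk
      have h2 := Nat.eq_of_beq_eq_true (h1 (gb k) (mem_bl.2 ⟨k, hk, rfl⟩))
      rw [ap_mkPerm (okPerm_isPerm hc) (gb_lt hk), ← hf _ (gb_lt hk), ← h2, pa_eq]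

def lfSqIn (L : List ℕ) (f : ℕ → ℕ) : Bool := bif lfSq f then lfIn L f else true

theorem lfSqIn_imp {L : List ℕ} (hL : ∀ c ∈ L, okPerm c = true) (P : Equiv.Perm GolayPt → Prop) :
    LeafImp P (fun σ => σ * σ = 1 → ∃ c ∈ L, mkPerm c = σ) (lfSqIn L) := by
  intro σ hσ _ f hf h h2
  have h1 : lfSq f = true := by
    unfold lfSq
    rw [nall_iff]
    intro b hb
    obtain ⟨k, hk, rfl⟩ := mem_bl.1 hb
    show Nat.beq (it f 2 (gb k)) (gb k) = true
    rw [it_ap hf 2 (gb_lt hk), sq, h2]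
    unfold ap
    rw [Equiv.Perm.one_apply, gidx_gpt (gb_lt hk)]
    exact Nat.beq_refl _
  unfold lfSqIn at h
  rw [h1, cond_true] at h
  exact lfIn_spec hL hσ hf h

theorem L64_ok : ∀ c ∈ L64, okPerm c = true := fun _ hc => (grpOK_mem L64_grp hc).1

theorem sq_in_QB : ∀ σ ∈ M24, StabMs msS σ → (σ * σ = 1 → ∃ c ∈ L64, mkPerm c = σ) :=
  all_stabMs msS_ok (lfSqIn_imp L64_ok _) (by decide +kernel)

/-- commuting with the four generators -/
def Comm4 (σ : Equiv.Perm GolayPt) : Prop :=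
  ((σ * mkPerm E0.g = mkPerm E0.g * σ ∧ σ * mkPerm E1.g = mkPerm E1.g * σ) ∧ σ * mkPerm E2.g = mkPerm E2.g * σ) ∧
    σ * mkPerm E3.g = mkPerm E3.g * σ

theorem CData.data {D : CData} (hD : D.OK = true) : okPerm D.g = true ∧ preTabOK D.g D.pre = true ∧ tabOK D.g D.tab = true ∧
    D.lf = lfTab D.g := by
  unfold CData.OK at hD
  simp only [Bool.and_eq_true] at hD
  obtain ⟨⟨⟨h1, h2⟩, h3⟩, h4⟩ := hD
  exact ⟨h1, h2, h3, beq_iff_eq.1 h4⟩

theorem lfIn_imp {L : List ℕ} (hL : ∀ c ∈ L, okPerm c = true) (P : Equiv.Perm GolayPt → Prop) :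
    LeafImp P (fun σ => ∃ c ∈ L, mkPerm c = σ) (lfIn L) := fun _ hσ _ _ hf h => lfIn_spec hL hσ hf h

theorem cent4_in_QB : ∀ σ ∈ M24, Comm4 σ → ∃ c ∈ L64, mkPerm c = σ := by
  obtain ⟨a1, a2, a3, a4⟩ := CData.data E_ok.1
  obtain ⟨b1, b2, b3, b4⟩ := CData.data E_ok.2.1
  obtain ⟨c1, c2, c3, c4⟩ := CData.data E_ok.2.2.1
  obtain ⟨d1, d2, d3, d4⟩ := CData.data E_ok.2.2.2
  have pa' := okPerm_isPerm a1
  have pb' := okPerm_isPerm b1
  have pc' := okPerm_isPerm c1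
  have pd' := okPerm_isPerm d1
  have hlf : LeafIff Comm4 (fun f => bif (bif (bif lfC E0.g E0.lf f then lfC E1.g E1.lf f else false) then lfC E2.g E2.lf f else false)
      then lfC E3.g E3.lf f else false) :=
    LeafIff.and (LeafIff.and (LeafIff.and (lfC_iff a1 a1 a4) (lfC_iff b1 b1 b4)) (lfC_iff c1 c1 c4)) (lfC_iff d1 d1 d4)
  refine all_of_tf (pre := preC E0.g E0.pre)
    (pr := prAnd (prTab E0.g E0.tab) (prAnd (prTab E1.g E1.tab) (prAnd (prTab E2.g E2.tab) (prTab E3.g E3.tab))))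
    (PreSound.mono (preC_sound pa' pa' a2) (fun _ _ h => h.1.1.1)) ?_ (LeafImp.guard hlf (lfIn_imp L64_ok _)) (by decide +kernel)
  refine prAnd_sound (PruneSound.mono (prTab_sound pa' pa' a3) (fun _ _ h => h.1.1.1))
    (prAnd_sound (PruneSound.mono (prTab_sound pb' pb' b3) (fun _ _ h => h.1.1.2))
      (prAnd_sound (PruneSound.mono (prTab_sound pc' pc' c3) (fun _ _ h => h.1.2))
        (PruneSound.mono (prTab_sound pd' pd' d3) (fun _ _ h => h.2))))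

theorem QB_self_cent {c : Equiv.Perm GolayPt} (hc : c ∈ M24) (h : ∀ e ∈ QB, e * c = c * e) : c ∈ QB := by
  rw [mem_QB]
  apply cent4_in_QB c hc
  have hm : ∀ g ∈ L64, mkPerm g ∈ QB := fun g hg => mem_QB.2 ⟨g, hg, rfl⟩
  exact ⟨⟨⟨(h _ (hm _ L64_mem.2.1)).symm, (h _ (hm _ L64_mem.2.2.1)).symm⟩, (h _ (hm _ L64_mem.2.2.2.1)).symm⟩,
    (h _ (hm _ L64_mem.2.2.2.2)).symm⟩

theorem msS_masks : sxMasksOK Cfsg.Agent.S5607.S0m (msS.map Prod.fst) = true := by decide +kernel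

theorem L64_fix : (L64.all fun c => msS.all fun e => Nat.beq (pimg c e.1) e.1) = true := by decide +kernel

theorem QB_stab {σ : Equiv.Perm GolayPt} (h : σ ∈ QB) : StabMs msS σ := by
  obtain ⟨c, hc, rfl⟩ := mem_QB.1 h
  have h1 := L64_fix
  rw [List.all_eq_true] at h1
  have h2 := h1 c hc
  rw [List.all_eq_true] at h2
  intro e he
  rw [smul_toSet (okPerm_isPerm (L64_ok c hc)), Nat.eq_of_beq_eq_true (h2 e he)]

theorem stabS_iff {σ : Equiv.Perm GolayPt} : StabMs msS σ ↔ ∀ t ∈ sext (toSet Cfsg.Agent.S5607.S0m), σ • t = t := by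
  have h := sxMasks_spec msS_masks
  constructor
  · intro h1 t ht
    obtain ⟨n, hn, rfl⟩ := (h t).1 ht
    obtain ⟨e, he, rfl⟩ := List.mem_map.1 hn
    exact h1 e he
  · intro h1 e he
    exact h1 _ ((h _).2 ⟨e.1, List.mem_map.2 ⟨e, he, rfl⟩, rfl⟩)

theorem QB_norm {c : Equiv.Perm GolayPt} (hc : c ∈ M24) (h : c * mkPerm r2B = mkPerm r2B * c) {q : Equiv.Perm GolayPt}
    (hq : q ∈ QB) : c * q * c⁻¹ ∈ QB := by
  rw [mem_QB]
  refine sq_in_QB _ (M24.mul_mem (M24.mul_mem hc (QB_le hq)) (M24.inv_mem hc)) ?_ ?_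
  · rw [stabS_iff]
    intro t ht
    have h1 := Cfsg.Agent.S5607.cent_fix hc h
    have h2 : c⁻¹ • t ∈ sext (toSet Cfsg.Agent.S5607.S0m) := by
      rw [← h1] at ht
      obtain ⟨t', ht', rfl⟩ := Finset.mem_smul_finset.1 ht
      rw [inv_smul_smul]; exact ht'
    rw [mul_smul, mul_smul, stabS_iff.1 (QB_stab hq) _ h2, smul_inv_smul]
  · have : c * q * c⁻¹ * (c * q * c⁻¹) = c * (q * q) * c⁻¹ := by group
    rw [this, QB_sq hq]; group

theorem r2B_mem : mkPerm r2B ∈ QB := mem_QB.2 ⟨r2B, L64_mem.1, rfl⟩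

/-- the local subgroup for a fixed-point-free involution of `M24` -/
theorem local_B (z : M24) {τ : Equiv.Perm GolayPt} (hτ : τ ∈ M24) (hz : τ * (z : Equiv.Perm GolayPt) * τ⁻¹ = mkPerm r2B) :
    ∃ Q : Subgroup M24, IsPGroup 2 Q ∧ Q ≤ Subgroup.centralizer {z} ∧
      Subgroup.centralizer {z} ≤ Subgroup.normalizer (Q : Set M24) ∧ Subgroup.centralizer (Q : Set M24) ≤ Q := by
  let t : M24 := ⟨τ, hτ⟩
  let Q : Subgroup M24 := (QB.subgroupOf M24).comap (MulAut.conj t).toMonoidHom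
  have hQ : ∀ x : M24, x ∈ Q ↔ τ * (x : Equiv.Perm GolayPt) * τ⁻¹ ∈ QB := fun x => Iff.rfl
  have hcj : ∀ a b : Equiv.Perm GolayPt, τ * (a * b) * τ⁻¹ = (τ * a * τ⁻¹) * (τ * b * τ⁻¹) := by intro a b; group
  have hcji : ∀ a : Equiv.Perm GolayPt, τ * a⁻¹ * τ⁻¹ = (τ * a * τ⁻¹)⁻¹ := by intro a; group
  have hinj : ∀ a b : Equiv.Perm GolayPt, τ * a * τ⁻¹ = τ * b * τ⁻¹ → a = b := by
    intro a b h
    exact mul_left_cancel (mul_right_cancel h)
  refine ⟨Q, ?_, ?_, ?_, ?_⟩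
  · intro q
    refine ⟨1, ?_⟩
    rw [pow_one, sq]
    apply Subtype.ext
    apply Subtype.ext
    apply hinj
    show τ * ((q : M24) * (q : M24) : Equiv.Perm GolayPt) * τ⁻¹ = τ * 1 * τ⁻¹
    rw [hcj, QB_sq ((hQ _).1 q.2)]
    group
  · intro q hq
    rw [Subgroup.mem_centralizer_singleton_iff]
    apply Subtype.ext
    apply hinj
    show τ * ((q : Equiv.Perm GolayPt) * (z : Equiv.Perm GolayPt)) * τ⁻¹ = τ * ((z : Equiv.Perm GolayPt) * (q : Equiv.Perm GolayPt)) * τ⁻¹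
    rw [hcj, hcj, hz]
    exact QB_comm ((hQ _).1 hq) r2B_mem
  · have key : ∀ c : M24, c ∈ Subgroup.centralizer {z} → ∀ q : M24, q ∈ Q → c * q * c⁻¹ ∈ Q := by
      intro c hc q hq
      rw [Subgroup.mem_centralizer_singleton_iff] at hc
      rw [hQ] at hq ⊢
      show τ * ((c : Equiv.Perm GolayPt) * (q : Equiv.Perm GolayPt) * (c : Equiv.Perm GolayPt)⁻¹) * τ⁻¹ ∈ QB
      rw [hcj, hcj, hcji]
      refine QB_norm (M24.mul_mem (M24.mul_mem hτ c.2) (M24.inv_mem hτ)) ?_ hq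
      rw [← hz, ← hcj, ← hcj]
      congr 2
      exact congrArg Subtype.val hc
    intro c hc
    rw [Subgroup.mem_normalizer_iff]
    intro q
    refine ⟨key c hc q, fun h => ?_⟩
    have := key c⁻¹ (Subgroup.inv_mem _ hc) _ h
    simpa [mul_assoc] using this
  · intro c hc
    rw [Subgroup.mem_centralizer_iff] at hc
    rw [hQ]
    refine QB_self_cent (M24.mul_mem (M24.mul_mem hτ c.2) (M24.inv_mem hτ)) (fun e he => ?_)
    have he' : (⟨τ⁻¹ * e * τ, M24.mul_mem (M24.mul_mem (M24.inv_mem hτ) (QB_le he)) hτ⟩ : M24) ∈ Q := by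
      rw [hQ]
      show τ * (τ⁻¹ * e * τ) * τ⁻¹ ∈ QB
      have : τ * (τ⁻¹ * e * τ) * τ⁻¹ = e := by group
      rw [this]; exact he
    have h1 : (τ⁻¹ * e * τ) * (c : Equiv.Perm GolayPt) = (c : Equiv.Perm GolayPt) * (τ⁻¹ * e * τ) :=
      congrArg Subtype.val (hc _ he')
    have h2 : τ * ((τ⁻¹ * e * τ) * (c : Equiv.Perm GolayPt)) * τ⁻¹ = e * (τ * c * τ⁻¹) := by group
    have h3 : τ * ((c : Equiv.Perm GolayPt) * (τ⁻¹ * e * τ)) * τ⁻¹ = (τ * c * τ⁻¹) * e := by group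
    rw [← h2, h1, h3]

theorem local_M24 (z : M24) (h2 : orderOf z = 2) :
    ∃ Q : Subgroup M24, IsPGroup 2 Q ∧ Q ≤ Subgroup.centralizer {z} ∧
      Subgroup.centralizer {z} ≤ Subgroup.normalizer (Q : Set M24) ∧ Subgroup.centralizer (Q : Set M24) ≤ Q := by
  by_cases h0 : (Finset.univ.filter fun p => (z : Equiv.Perm GolayPt) p = p).card = 0
  · have h2' : orderOf (z : Equiv.Perm GolayPt) = 2 := by rw [Subgroup.orderOf_coe, h2]
    obtain ⟨τ, hτ, h⟩ := invol_B z.2 h2' (by rw [h0]; norm_num)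
    exact local_B z hτ h
  · exact local_A le_rfl h2 h0 (fun e he => (mem_EO.1 he).1)

end Cfsg.Agent.H29
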