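import Cfsg.Agent.H29.M24Objs

/-!
Joint stabilisers of pairs of dodecad pairs.
-/
set_option autoImplicit false

namespace Cfsg.Agent.H29
open Cfsg Cfsg.Agent.H7
open scoped Pointwise

noncomputable def dD495 : LObj := ⟨(dodPart 3082485),
  0xd0f70ad0f70a2f08f5d0f70a2f08f52f08f52f08f52f08f5d0f70ad0f70ad0f70ad0f70a2f08f5d0f70ad0f70ad0f70a2f08f52f08f52f08f52f08f5d0f70a2f08f5d0f70a2f08f5, [],
  [[], [(23, 0)], [(23, 1)], [(0, 1)], [(23, 1)], [(0, 1)], [(0, 1)]],
  [(23, 14), (0, 17)], [], (lfDod [0, 2, 4, 5, 6, 7, 11, 16, 17, 18, 19, 21] 3082485)⟩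
theorem dD495_ok : dD495.OK := LObj.okDod (m := 3082485) (by decide +kernel) (by decide +kernel) (by decide +kernel) (by decide +kernel)

noncomputable def dD792 : LObj := ⟨(dodPart 13670615),
  0xd098d7d098d72f6728d098d72f67282f67282f67282f6728d098d72f67282f6728d098d7d098d72f67282f67282f6728d098d7d098d72f6728d098d72f6728d098d7d098d7d098d7, [],
  [[], [(23, 1)], [(23, 1)], [(23, 1)], [(23, 0)], [(3, 1)], [(23, 1)]],
  [(3, 14), (3, 17)], [], (lfDod [0, 1, 2, 4, 6, 7, 11, 12, 15, 20, 22, 23] 13670615)⟩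
theorem dD792_ok : dD792.OK := LObj.okDod (m := 13670615) (by decide +kernel) (by decide +kernel) (by decide +kernel) (by decide +kernel)

theorem js_D_D495 : JS oD0.π dD495.π 384 :=
  js_count oD0_ok dD495_ok (by decide +kernel)

theorem js_D_D792 : JS oD0.π dD792.π 240 :=
  js_count oD0_ok dD792_ok (by decide +kernel)

end Cfsg.Agent.H29
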