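import Cfsg.Agent.H29.SqChar2
import Cfsg.Agent.H3.Core3

/-!
Groups of the orders of `M24` and `M22` with the right elements of odd prime order have no
irreducible character of `2`-defect zero.
-/
set_option autoImplicit false
set_option linter.style.haveILetI false
set_option linter.unusedSectionVars false

namespace Cfsg.Agent.H29
open Cfsg
open scoped ComplexConjugate

variable {G : Type*} [Group G] [Finite G]

theorem card_cent_inv (g : G) : Nat.card (Subgroup.centralizer ({g⁻¹} : Set G)) = Nat.card (Subgroup.centralizer ({g} : Set G)) := by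
  have : Subgroup.centralizer ({g⁻¹} : Set G) = Subgroup.centralizer ({g} : Set G) := by
    ext x
    rw [Subgroup.mem_centralizer_singleton_iff, Subgroup.mem_centralizer_singleton_iff]
    constructor
    · intro h
      have h1 := (show Commute x g⁻¹ from h).inv_right
      rw [inv_inv] at h1
      exact h1.eq
    · intro h
      exact ((show Commute x g from h).inv_right).eq
  rw [this]

theorem dz_deg {χ : IrrCharacter G} {a n : ℕ} (hG : Nat.card G = 2 ^ a * n)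
    (h : ¬ 2 ∣ Nat.card G / charDegree (χ : G → ℂ)) :
    ∃ k, charDegree (χ : G → ℂ) = 2 ^ a * k ∧ k ∣ n := by
  have := Fintype.ofFinite G
  obtain ⟨q, hq⟩ := Cfsg.Agent.H27.charDegree_dvd_card χ.2
  have hpos := Cfsg.Agent.H27.charDegree_pos χ.2
  have h1 : Nat.card G / charDegree (χ : G → ℂ) = q := by
    rw [hq, Nat.mul_div_cancel_left _ hpos]
  rw [h1] at h
  have h2 : Nat.Coprime (2 ^ a) q := Nat.Coprime.pow_left a ((Nat.Prime.coprime_iff_not_dvd Nat.prime_two).2 h)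
  have h3 : 2 ^ a ∣ charDegree (χ : G → ℂ) := h2.dvd_of_dvd_mul_right (by
    rw [← show Nat.card G = charDegree (χ : G → ℂ) * q from hq, hG]; exact dvd_mul_right _ _)
  obtain ⟨k, hk⟩ := h3
  refine ⟨k, hk, q, ?_⟩
  have h4 : 2 ^ a * n = 2 ^ a * (k * q) := by
    rw [← hG, show Nat.card G = charDegree (χ : G → ℂ) * q from hq, hk, mul_assoc]
  exact Nat.eq_of_mul_eq_mul_left (by positivity) h4

theorem class_bound' {n : ℕ} (χ : IrrCharacter G) (x : Fin n → G) (hx : ∀ i j, IsConj (x i) (x j) → i = j) :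
    ∑ i, Complex.normSq ((χ : G → ℂ) (x i)) / Nat.card (Subgroup.centralizer ({x i} : Set G)) ≤ 1 := by
  classical
  have hinj : Function.Injective x := by
    intro i j hij
    exact hx i j (hij ▸ IsConj.refl _)
  have h1 := class_bound χ.2 (Finset.univ.image x) (by
    intro a ha b hb hab hc
    obtain ⟨i, -, rfl⟩ := Finset.mem_image.1 ha
    obtain ⟨j, -, rfl⟩ := Finset.mem_image.1 hb
    exact hab (by rw [hx i j hc]))
  rw [Finset.sum_image (fun i _ j _ h => hinj h)] at h1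
  exact h1

theorem deg_sq_le (χ : IrrCharacter G) : (charDegree (χ : G → ℂ)) ^ 2 ≤ Nat.card G := by
  have h := class_bound' χ (fun _ : Fin 1 => (1 : G)) (fun i j _ => Subsingleton.elim _ _)
  simp only [Finset.univ_unique, Finset.sum_const, Finset.card_singleton, one_smul] at h
  have h1 : Subgroup.centralizer ({1} : Set G) = ⊤ := by
    ext x
    simp [Subgroup.mem_centralizer_singleton_iff]
  rw [h1, Nat.card_congr Subgroup.topEquiv.toEquiv, div_le_one (by exact_mod_cast Nat.card_pos),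
    ← Cfsg.Agent.H27.charDegree_cast (Cfsg.Agent.H27.isIrr_isCharacter χ.2), Complex.normSq_natCast] at h
  rw [sq]
  exact_mod_cast h

theorem isConj_order {x y : G} (h : IsConj x y) : orderOf x = orderOf y := by
  obtain ⟨c, hc⟩ := isConj_iff.1 h
  rw [← hc]
  have : c * x * c⁻¹ = (MulAut.conj c) x := rfl
  rw [this, MulEquiv.orderOf_eq]

theorem normSq_inv' {χ : G → ℂ} (hχ : IsCharacter G χ) (g : G) : Complex.normSq (χ g⁻¹) = Complex.normSq (χ g) := by
  rw [char_inv' hχ, Complex.normSq_conj]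

/-- powers of `r` -/
def Sp (p r e : ℕ) : Finset (ZMod p) := (Finset.range e).image fun i => (r : ZMod p) ^ i
/-- negatives of the powers of `r` -/
def Tp (p r e : ℕ) : Finset (ZMod p) := (Finset.range e).image fun i => - (r : ZMod p) ^ i

theorem half_value' {χ : G → ℂ} (hχ : IsCharacter G χ) {p : ℕ} [hp : Fact p.Prime] {g : G} (hg : orderOf g = p) {r : ℕ} (e : ℕ)
    (he : e ≤ p) (hr0 : (r : ZMod p) ≠ 0) (hun : insert 0 (Sp p r e ∪ Tp p r e) = Finset.univ) (h0 : (0 : ZMod p) ∉ Sp p r e ∪ Tp p r e)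
    (hdis : Disjoint (Sp p r e) (Tp p r e)) (hc : (Sp p r e).card = (Tp p r e).card)
    (hr : IsConj g (g ^ r)) {d : ℕ} (hd : χ 1 = d) :
    ∃ s t u : ℤ, 4 * Complex.normSq (χ g) = ((s ^ 2 + p * t ^ 2 : ℤ) : ℝ) ∧ 2 * (d : ℤ) = s + p * u ∧ (2 : ℤ) ∣ s - t ∧
      (t = 0 → 2 * χ g = s) := by
  refine half_value hχ hg (Sp p r e) (Tp p r e) hr0 ?_ ?_ hun h0 hdis hc hr hd
  · intro j hj
    obtain ⟨i, hi, rfl⟩ := Finset.mem_image.1 hj
    exact ⟨i, (Finset.mem_range.1 hi).trans_le he, rfl⟩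
  · intro j hj
    obtain ⟨i, hi, rfl⟩ := Finset.mem_image.1 hj
    exact ⟨i, (Finset.mem_range.1 hi).trans_le he, rfl⟩

theorem fp23 : Fact (Nat.Prime 23) := ⟨by norm_num⟩
theorem fp11 : Fact (Nat.Prime 11) := ⟨by norm_num⟩
theorem fp7 : Fact (Nat.Prime 7) := ⟨by norm_num⟩
theorem fp5 : Fact (Nat.Prime 5) := ⟨by norm_num⟩
attribute [local instance] fp23 fp11 fp7 fp5

theorem half23 {χ : G → ℂ} (hχ : IsCharacter G χ) {g : G} (hg : orderOf g = 23) (hr : IsConj g (g ^ 2)) {d : ℕ} (hd : χ 1 = d) :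
    ∃ s t u : ℤ, 4 * Complex.normSq (χ g) = ((s ^ 2 + (23 : ℕ) * t ^ 2 : ℤ) : ℝ) ∧ 2 * (d : ℤ) = s + (23 : ℕ) * u ∧ (2 : ℤ) ∣ s - t ∧
      (t = 0 → 2 * χ g = s) := by
  exact half_value' hχ hg 11 (by norm_num) (by decide) (by decide +kernel) (by decide +kernel) (by decide +kernel) (by decide +kernel) hr hd

theorem half11 {χ : G → ℂ} (hχ : IsCharacter G χ) {g : G} (hg : orderOf g = 11) (hr : IsConj g (g ^ 3)) {d : ℕ} (hd : χ 1 = d) :
    ∃ s t u : ℤ, 4 * Complex.normSq (χ g) = ((s ^ 2 + (11 : ℕ) * t ^ 2 : ℤ) : ℝ) ∧ 2 * (d : ℤ) = s + (11 : ℕ) * u ∧ (2 : ℤ) ∣ s - t ∧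
      (t = 0 → 2 * χ g = s) := by
  exact half_value' hχ hg 5 (by norm_num) (by decide) (by decide +kernel) (by decide +kernel) (by decide +kernel) (by decide +kernel) hr hd

theorem half7 {χ : G → ℂ} (hχ : IsCharacter G χ) {g : G} (hg : orderOf g = 7) (hr : IsConj g (g ^ 2)) {d : ℕ} (hd : χ 1 = d) :
    ∃ s t u : ℤ, 4 * Complex.normSq (χ g) = ((s ^ 2 + (7 : ℕ) * t ^ 2 : ℤ) : ℝ) ∧ 2 * (d : ℤ) = s + (7 : ℕ) * u ∧ (2 : ℤ) ∣ s - t ∧
      (t = 0 → 2 * χ g = s) := by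
  exact half_value' hχ hg 3 (by norm_num) (by decide) (by decide +kernel) (by decide +kernel) (by decide +kernel) (by decide +kernel) hr hd

theorem full11 {χ : G → ℂ} (hχ : IsCharacter G χ) {g : G} (hg : orderOf g = 11) (hr : IsConj g (g ^ 2)) {d : ℕ} (hd : χ 1 = d) :
    ∃ x : ℤ, χ g = x ∧ ((11 : ℕ) : ℤ) ∣ d - x := by
  exact full_value hχ hg (by decide +kernel) hr hd

theorem full5 {χ : G → ℂ} (hχ : IsCharacter G χ) {g : G} (hg : orderOf g = 5) (hr : IsConj g (g ^ 2)) {d : ℕ} (hd : χ 1 = d) :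
    ∃ x : ℤ, χ g = x ∧ ((5 : ℕ) : ℤ) ∣ d - x := by
  exact full_value hχ hg (by decide +kernel) hr hd

/-! ### arithmetic bounds -/

theorem ar_small {a : ℕ} {s t N b c : ℤ} (h : s ^ 2 + a * t ^ 2 < N) (hb : N ≤ a * b ^ 2) (ha : 0 < a) (hb0 : 0 ≤ b) (hc : N ≤ c ^ 2)
    (hc0 : 0 ≤ c) : (-b < t ∧ t < b) ∧ (-c < s ∧ s < c) := by
  have ha' : (0 : ℤ) < a := by exact_mod_cast ha
  have h2 : t ^ 2 < b ^ 2 := by
    have h1 : (a : ℤ) * t ^ 2 < a * b ^ 2 := by nlinarith [sq_nonneg s]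
    exact lt_of_mul_lt_mul_left h1 ha'.le
  have h3 : s ^ 2 < c ^ 2 := by
    have : 0 ≤ (a : ℤ) * t ^ 2 := by positivity
    linarith
  exact ⟨abs_lt.1 (abs_lt_of_sq_lt_sq h2 hb0), abs_lt.1 (abs_lt_of_sq_lt_sq h3 hc0)⟩

theorem ar_23a (s t u : ℤ) (h1 : 2 * 1024 = s + 23 * u) (h2 : (2:ℤ) ∣ s - t) : 24 ≤ s ^ 2 + (23 : ℕ) * t ^ 2 := by
  by_contra h
  rw [not_le] at h
  obtain ⟨⟨h3, h4⟩, h5, h6⟩ := ar_small (b := 2) (c := 5) h (by norm_num) (by norm_num) (by norm_num) (by norm_num) (by norm_num)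
  interval_cases s <;> interval_cases t <;> omega

theorem ar_23b (s t u : ℤ) (h1 : 2 * 3072 = s + 23 * u) (h2 : (2:ℤ) ∣ s - t) : 32 ≤ s ^ 2 + (23 : ℕ) * t ^ 2 := by
  by_contra h
  rw [not_le] at h
  obtain ⟨⟨h3, h4⟩, h5, h6⟩ := ar_small (b := 2) (c := 6) h (by norm_num) (by norm_num) (by norm_num) (by norm_num) (by norm_num)
  interval_cases s <;> interval_cases t <;> omega

theorem ar_23c (k s t u : ℤ) (hk : k = 5 ∨ k = 7 ∨ k = 9 ∨ k = 11 ∨ k = 15) (h1 : 2 * (1024 * k) = s + 23 * u) (h2 : (2:ℤ) ∣ s - t) :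
    48 ≤ s ^ 2 + (23 : ℕ) * t ^ 2 := by
  by_contra h
  rw [not_le] at h
  obtain ⟨⟨h3, h4⟩, h5, h6⟩ := ar_small (b := 2) (c := 7) h (by norm_num) (by norm_num) (by norm_num) (by norm_num) (by norm_num)
  rcases hk with rfl | rfl | rfl | rfl | rfl <;> interval_cases s <;> interval_cases t <;> omega

theorem ar_7a (s t u : ℤ) (h1 : 2 * 1024 = s + 7 * u) (h2 : (2:ℤ) ∣ s - t) : 16 ≤ s ^ 2 + (7 : ℕ) * t ^ 2 := by
  by_contra h
  rw [not_le] at h
  obtain ⟨⟨h3, h4⟩, h5, h6⟩ := ar_small (b := 2) (c := 4) h (by norm_num) (by norm_num) (by norm_num) (by norm_num) (by norm_num)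
  interval_cases s <;> interval_cases t <;> omega

theorem ar_7b (s t u : ℤ) (h1 : 2 * 128 = s + 7 * u) (h2 : (2:ℤ) ∣ s - t) : 16 ≤ s ^ 2 + (7 : ℕ) * t ^ 2 := by
  by_contra h
  rw [not_le] at h
  obtain ⟨⟨h3, h4⟩, h5, h6⟩ := ar_small (b := 2) (c := 4) h (by norm_num) (by norm_num) (by norm_num) (by norm_num) (by norm_num)
  interval_cases s <;> interval_cases t <;> omega

theorem ar_7c (s t u : ℤ) (h1 : 2 * 640 = s + 7 * u) (h2 : (2:ℤ) ∣ s - t) : 8 ≤ s ^ 2 + (7 : ℕ) * t ^ 2 := by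
  by_contra h
  rw [not_le] at h
  obtain ⟨⟨h3, h4⟩, h5, h6⟩ := ar_small (b := 2) (c := 3) h (by norm_num) (by norm_num) (by norm_num) (by norm_num) (by norm_num)
  interval_cases s <;> interval_cases t <;> omega

theorem ar_7d (s t u : ℤ) (h1 : 2 * 384 = s + 7 * u) (h2 : (2:ℤ) ∣ s - t) : (s = -2 ∧ t = 0) ∨ 8 ≤ s ^ 2 + (7 : ℕ) * t ^ 2 := by
  by_contra h
  rw [not_or, not_le] at h
  obtain ⟨⟨h3, h4⟩, h5, h6⟩ := ar_small (b := 2) (c := 3) h.2 (by norm_num) (by norm_num) (by norm_num) (by norm_num) (by norm_num)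
  have h7 := h.1
  interval_cases s <;> interval_cases t <;> omega

theorem ar_11c (s t u : ℤ) (h1 : 2 * 640 = s + 11 * u) (h2 : (2:ℤ) ∣ s - t) : 16 ≤ s ^ 2 + (11 : ℕ) * t ^ 2 := by
  by_contra h
  rw [not_le] at h
  obtain ⟨⟨h3, h4⟩, h5, h6⟩ := ar_small (b := 2) (c := 4) h (by norm_num) (by norm_num) (by norm_num) (by norm_num) (by norm_num)
  interval_cases s <;> interval_cases t <;> omega

theorem ar_11d (s t u : ℤ) (h1 : 2 * 384 = s + 11 * u) (h2 : (2:ℤ) ∣ s - t) : (s = -2 ∧ t = 0) ∨ 8 ≤ s ^ 2 + (11 : ℕ) * t ^ 2 := by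
  by_contra h
  rw [not_or, not_le] at h
  obtain ⟨⟨h3, h4⟩, h5, h6⟩ := ar_small (b := 2) (c := 3) h.2 (by norm_num) (by norm_num) (by norm_num) (by norm_num) (by norm_num)
  have h7 := h.1
  interval_cases s <;> interval_cases t <;> omega

theorem dz_value (χ : IrrCharacter G) {g : G} {x : ℤ} (hx : (χ : G → ℂ) g = x) {N c a b d : ℕ} (hN : Nat.card G = N)
    (hc : Nat.card (Subgroup.centralizer ({g} : Set G)) = c) (hd : (χ : G → ℂ) 1 = d) (hab : N * b = a * c * d) (hb : 0 < b) :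
    (b : ℤ) ∣ a * x := by
  have := Fintype.ofFinite G
  have h1 := Cfsg.Agent.H27.centralChar_isIntegral χ.2 g
  have h2 := Cfsg.Agent.H27.card_cl_mul_card_centralizer g
  rw [Cfsg.Agent.H27.centralChar_eq] at h1
  have hc0 : c ≠ 0 := by rw [← hc]; exact Nat.card_pos.ne'
  have hd0 : (d : ℂ) ≠ 0 := by rw [← hd]; exact Cfsg.Agent.H27.isIrr_one_ne_zero χ.2
  rw [hc, hN] at h2
  have hcC : (c : ℂ) ≠ 0 := by exact_mod_cast hc0
  have hbC : (b : ℂ) ≠ 0 := by exact_mod_cast hb.ne'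
  have h3 : ((Cfsg.Agent.H27.cl g).card : ℂ) * c = N := by exact_mod_cast h2
  have h4 : (N : ℂ) * b = a * c * d := by exact_mod_cast hab
  have h5 : ((Cfsg.Agent.H27.cl g).card : ℂ) * (χ : G → ℂ) g / (χ : G → ℂ) 1 = (((a * x : ℤ) / (b : ℤ) : ℚ) : ℂ) := by
    rw [show (χ : G → ℂ) g = x from hx, show (χ : G → ℂ) 1 = d from hd]
    push_cast
    rw [div_eq_div_iff hd0 hbC]
    apply mul_left_cancel₀ hcC
    linear_combination (x : ℂ) * h4 + (x : ℂ) * b * h3
  rw [h5] at h1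
  obtain ⟨m, hm⟩ := Cfsg.Agent.H27.int_of_isIntegral_rat h1
  refine ⟨m, ?_⟩
  have hbQ : ((b : ℤ) : ℚ) ≠ 0 := by exact_mod_cast hb.ne'
  rw [eq_div_iff hbQ] at hm
  have : (m : ℤ) * b = a * x := by exact_mod_cast hm
  rw [← this, mul_comm]

set_option maxHeartbeats 1000000 in
theorem no_dz_24 (hG : Nat.card G = 244823040) {g23 g11 g7 g5 : G} (o23 : orderOf g23 = 23) (o11 : orderOf g11 = 11)
    (o7 : orderOf g7 = 7) (o5 : orderOf g5 = 5)
    (c23 : Nat.card (Subgroup.centralizer ({g23} : Set G)) = 23) (c11 : Nat.card (Subgroup.centralizer ({g11} : Set G)) = 11)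
    (c7 : Nat.card (Subgroup.centralizer ({g7} : Set G)) = 42) (c5 : Nat.card (Subgroup.centralizer ({g5} : Set G)) = 60)
    (r23 : IsConj g23 (g23 ^ 2)) (r11 : IsConj g11 (g11 ^ 2)) (r7 : IsConj g7 (g7 ^ 2)) (r5 : IsConj g5 (g5 ^ 2))
    (n23 : ¬ IsConj g23 g23⁻¹) (n7 : ¬ IsConj g7 g7⁻¹) (χ : IrrCharacter G) :
    2 ∣ Nat.card G / charDegree (χ : G → ℂ) := by
  by_contra h
  obtain ⟨k, hk, hkd⟩ := dz_deg (a := 10) (n := 239085) (by rw [hG]; norm_num) h
  have hle := deg_sq_le χ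
  have hc := Cfsg.Agent.H27.isIrr_isCharacter χ.2
  have hd := (Cfsg.Agent.H27.charDegree_cast hc).symm
  rw [hG, hk] at hle
  have hk15 : k ≤ 15 := by
    by_contra h1
    have h2 : 16 ≤ k := by omega
    have h3 : (2 ^ 10 * 16) ^ 2 ≤ (2 ^ 10 * k) ^ 2 := Nat.pow_le_pow_left (Nat.mul_le_mul_left _ h2) 2
    have h4 := h3.trans hle
    norm_num at h4
  have hks : k = 1 ∨ k = 3 ∨ k = 5 ∨ k = 7 ∨ k = 9 ∨ k = 11 ∨ k = 15 := by
    interval_cases k <;> omega
  rw [hk] at hd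
  have hcl := class_bound' χ ![g23, g23⁻¹, g11, g7, g7⁻¹, g5] (by
    have e1 : orderOf g23⁻¹ = 23 := by rw [orderOf_inv, o23]
    have e2 : orderOf g7⁻¹ = 7 := by rw [orderOf_inv, o7]
    have n23' : ¬ IsConj g23⁻¹ g23 := fun h => n23 h.symm
    have n7' : ¬ IsConj g7⁻¹ g7 := fun h => n7 h.symm
    intro i j hij
    have ho := isConj_order hij
    fin_cases i <;> fin_cases j <;> simp_all)
  simp only [Fin.sum_univ_succ, Fin.sum_univ_zero, Matrix.cons_val_zero, Matrix.cons_val_succ, card_cent_inv, normSq_inv' hc,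
    c23, c11, c7, c5] at hcl
  obtain ⟨s, t, u, e1, e2, e3, -⟩ := half23 hc o23 r23 hd
  obtain ⟨s', t', u', e1', e2', e3', -⟩ := half7 hc o7 r7 hd
  obtain ⟨x, hx, hx2⟩ := full11 hc o11 r11 hd
  obtain ⟨y, hy, hy2⟩ := full5 hc o5 r5 hd
  have hxn : Complex.normSq ((χ : G → ℂ) g11) = ((x ^ 2 : ℤ) : ℝ) := by
    rw [hx, Complex.normSq_intCast]; push_cast; ring
  have hyn : Complex.normSq ((χ : G → ℂ) g5) = ((y ^ 2 : ℤ) : ℝ) := by
    rw [hy, Complex.normSq_intCast]; push_cast; ring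
  have hn7 := Complex.normSq_nonneg ((χ : G → ℂ) g7)
  have hn11 := Complex.normSq_nonneg ((χ : G → ℂ) g11)
  have hn5 := Complex.normSq_nonneg ((χ : G → ℂ) g5)
  have hn23 := Complex.normSq_nonneg ((χ : G → ℂ) g23)
  rcases hks with rfl | rfl | hks
  · have h23 := ar_23a s t u (by push_cast at e2; linarith) e3
    have h7 := ar_7a s' t' u' (by push_cast at e2'; linarith) e3'
    have hx1 : 1 ≤ x ^ 2 := by
      have : x ≠ 0 := by rintro rfl; revert hx2; norm_num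
      have := sq_pos_of_ne_zero this
      omega
    have hy4 : (4 : ℤ) ∣ y := by
      have := dz_value χ (a := 15939) (b := 4) (d := 2 ^ 10 * 1) hy hG c5 hd (by norm_num) (by norm_num)
      have h5 : IsCoprime (4 : ℤ) 15939 := by norm_num
      exact h5.dvd_of_dvd_mul_left (by exact_mod_cast this)
    have hy1 : 16 ≤ y ^ 2 := by
      obtain ⟨z, rfl⟩ := hy4
      have : z ≠ 0 := by rintro rfl; revert hy2; norm_num
      have := sq_pos_of_ne_zero this
      nlinarith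
    have h23' : (24 : ℝ) ≤ ((s ^ 2 + (23 : ℕ) * t ^ 2 : ℤ) : ℝ) := by exact_mod_cast h23
    have h7' : (16 : ℝ) ≤ ((s' ^ 2 + (7 : ℕ) * t' ^ 2 : ℤ) : ℝ) := by exact_mod_cast h7
    have hx' : (1 : ℝ) ≤ ((x ^ 2 : ℤ) : ℝ) := by exact_mod_cast hx1
    have hy' : (16 : ℝ) ≤ ((y ^ 2 : ℤ) : ℝ) := by exact_mod_cast hy1
    rw [← e1] at h23'
    rw [← e1'] at h7'
    rw [← hxn] at hx'
    rw [← hyn] at hy'
    norm_num at hcl
    linarith
  · have h23 := ar_23b s t u (by push_cast at e2; linarith) e3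
    have hx1 : 9 ≤ x ^ 2 := by
      by_contra h5
      have h6 : x ^ 2 < 3 ^ 2 := by linarith
      have h7 := abs_lt.1 (abs_lt_of_sq_lt_sq h6 (by norm_num))
      obtain ⟨h8, h9⟩ := h7
      obtain ⟨w, hw⟩ := hx2
      push_cast at hw
      clear * - hw h8 h9
      interval_cases x <;> omega
    have h23' : (32 : ℝ) ≤ ((s ^ 2 + (23 : ℕ) * t ^ 2 : ℤ) : ℝ) := by exact_mod_cast h23
    have hx' : (9 : ℝ) ≤ ((x ^ 2 : ℤ) : ℝ) := by exact_mod_cast hx1
    rw [← e1] at h23'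
    rw [← hxn] at hx'
    norm_num at hcl
    linarith
  · have h23 := ar_23c k s t u (by omega) (by push_cast at e2; linarith) e3
    have h23' : (48 : ℝ) ≤ ((s ^ 2 + (23 : ℕ) * t ^ 2 : ℤ) : ℝ) := by exact_mod_cast h23
    rw [← e1] at h23'
    norm_num at hcl
    linarith

theorem sum_char_zero (χ : IrrCharacter G) (h1 : (χ : G → ℂ) 1 ≠ 1) [Fintype G] : ∑ g : G, (χ : G → ℂ) g = 0 := by
  have h2 : (χ : G → ℂ) ≠ fun _ => 1 := by
    intro h; apply h1; rw [h]
  have h3 := Cfsg.Agent.H3.classInner_of_irr_ne χ.2 Cfsg.Agent.H3.isIrr_one h2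
  unfold classInner at h3
  rcases mul_eq_zero.1 h3 with h4 | h4
  · exact absurd h4 (inv_ne_zero Cfsg.Agent.H3.card_ne_zeroC)
  · simpa using h4

theorem sum_normSq (χ : IrrCharacter G) [Fintype G] : ∑ g : G, Complex.normSq ((χ : G → ℂ) g) = (Nat.card G : ℝ) := by
  have h2 := Cfsg.Agent.H27.irr_sum_mul_inv χ.2
  have h3 : ((∑ g : G, Complex.normSq ((χ : G → ℂ) g) : ℝ) : ℂ) = (Nat.card G : ℂ) := by
    rw [← h2]
    push_cast
    apply Finset.sum_congr rfl
    intro g _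
    rw [show (χ : G → ℂ) g⁻¹ = conj ((χ : G → ℂ) g) from char_inv' (Cfsg.Agent.H27.isIrr_isCharacter χ.2) g, Complex.mul_conj]
  exact_mod_cast h3

set_option maxHeartbeats 1000000 in
theorem no_dz_22 (hG : Nat.card G = 443520) {g11 g7 g5 : G} (o11 : orderOf g11 = 11)
    (o7 : orderOf g7 = 7) (o5 : orderOf g5 = 5)
    (c11 : Nat.card (Subgroup.centralizer ({g11} : Set G)) = 11)
    (c7 : Nat.card (Subgroup.centralizer ({g7} : Set G)) = 7) (c5 : Nat.card (Subgroup.centralizer ({g5} : Set G)) = 5)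
    (r11 : IsConj g11 (g11 ^ 3)) (r7 : IsConj g7 (g7 ^ 2)) (r5 : IsConj g5 (g5 ^ 2))
    (n11 : ¬ IsConj g11 g11⁻¹) (n7 : ¬ IsConj g7 g7⁻¹) (χ : IrrCharacter G) :
    2 ∣ Nat.card G / charDegree (χ : G → ℂ) := by
  by_contra h
  obtain ⟨k, hk, hkd⟩ := dz_deg (a := 7) (n := 3465) (by rw [hG]; norm_num) h
  have hle := deg_sq_le χ
  have hc := Cfsg.Agent.H27.isIrr_isCharacter χ.2
  have hd := (Cfsg.Agent.H27.charDegree_cast hc).symm
  rw [hG, hk] at hle
  have hk15 : k ≤ 5 := by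
    by_contra h1
    have h2 : 6 ≤ k := by omega
    have h3 : (2 ^ 7 * 6) ^ 2 ≤ (2 ^ 7 * k) ^ 2 := Nat.pow_le_pow_left (Nat.mul_le_mul_left _ h2) 2
    have h4 := h3.trans hle
    norm_num at h4
  have hks : k = 1 ∨ k = 3 ∨ k = 5 := by
    interval_cases k <;> omega
  rw [hk] at hd
  have e1 : orderOf g11⁻¹ = 11 := by rw [orderOf_inv, o11]
  have e2 : orderOf g7⁻¹ = 7 := by rw [orderOf_inv, o7]
  have n11' : ¬ IsConj g11⁻¹ g11 := fun h => n11 h.symm
  have n7' : ¬ IsConj g7⁻¹ g7 := fun h => n7 h.symm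
  have hord : ∀ i, orderOf (![1, g11, g11⁻¹, g7, g7⁻¹, g5] i) = (![1, 11, 11, 7, 7, 5] : Fin 6 → ℕ) i := by
    intro i
    fin_cases i
    exacts [orderOf_one, o11, e1, o7, e2, o5]
  have hinj : ∀ i j, IsConj (![1, g11, g11⁻¹, g7, g7⁻¹, g5] i) (![1, g11, g11⁻¹, g7, g7⁻¹, g5] j) → i = j := by
    intro i j hij
    have ho := isConj_order hij
    rw [hord, hord] at ho
    fin_cases i <;> fin_cases j <;> first
      | rfl
      | exact absurd hij n11
      | exact absurd hij n11'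
      | exact absurd hij n7
      | exact absurd hij n7'
      | (exfalso; revert ho; decide)
  have hcl := class_bound' χ ![1, g11, g11⁻¹, g7, g7⁻¹, g5] hinj
  have hC1 : Subgroup.centralizer ({1} : Set G) = ⊤ := by
    ext x
    simp [Subgroup.mem_centralizer_singleton_iff]
  have hd1 : Complex.normSq ((χ : G → ℂ) 1) = ((2 ^ 7 * k : ℕ) : ℝ) ^ 2 := by
    rw [show (χ : G → ℂ) 1 = ((2 ^ 7 * k : ℕ) : ℂ) from hd, Complex.normSq_natCast, sq]
  have hC1' : Nat.card (Subgroup.centralizer ({1} : Set G)) = 443520 := by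
    rw [hC1, Nat.card_congr Subgroup.topEquiv.toEquiv, hG]
  simp only [Fin.sum_univ_succ, Fin.sum_univ_zero, Matrix.cons_val_zero, Matrix.cons_val_succ, card_cent_inv, normSq_inv' hc,
    c11, c7, c5, hC1'] at hcl
  obtain ⟨s, t, u, e1, e2, e3, e4⟩ := half11 hc o11 r11 hd
  obtain ⟨s', t', u', e1', e2', e3', e4'⟩ := half7 hc o7 r7 hd
  obtain ⟨y, hy, hy2⟩ := full5 hc o5 r5 hd
  have hyn : Complex.normSq ((χ : G → ℂ) g5) = ((y ^ 2 : ℤ) : ℝ) := by
    rw [hy, Complex.normSq_intCast]; push_cast; ring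
  have hn7 := Complex.normSq_nonneg ((χ : G → ℂ) g7)
  have hn11 := Complex.normSq_nonneg ((χ : G → ℂ) g11)
  have hn5 := Complex.normSq_nonneg ((χ : G → ℂ) g5)
  have hn1 := Complex.normSq_nonneg ((χ : G → ℂ) 1)
  rcases hks with rfl | rfl | rfl
  · have h7 := ar_7b s' t' u' (by push_cast at e2'; linarith) e3'
    have h7' : (16 : ℝ) ≤ ((s' ^ 2 + (7 : ℕ) * t' ^ 2 : ℤ) : ℝ) := by exact_mod_cast h7
    rw [← e1'] at h7'
    norm_num at hcl
    linarith
  · have h11 := ar_11d s t u (by push_cast at e2; linarith) e3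
    have h7 := ar_7d s' t' u' (by push_cast at e2'; linarith) e3'
    have h11a : (4 : ℝ) ≤ ((s ^ 2 + (11 : ℕ) * t ^ 2 : ℤ) : ℝ) := by
      rcases h11 with ⟨rfl, rfl⟩ | h
      · norm_num
      · have : (8 : ℝ) ≤ ((s ^ 2 + (11 : ℕ) * t ^ 2 : ℤ) : ℝ) := by exact_mod_cast h
        linarith
    have h7a : (4 : ℝ) ≤ ((s' ^ 2 + (7 : ℕ) * t' ^ 2 : ℤ) : ℝ) := by
      rcases h7 with ⟨rfl, rfl⟩ | h
      · norm_num
      · have : (8 : ℝ) ≤ ((s' ^ 2 + (7 : ℕ) * t' ^ 2 : ℤ) : ℝ) := by exact_mod_cast h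
        linarith
    have hy1 : 1 ≤ y ^ 2 := by
      have : y ≠ 0 := by rintro rfl; revert hy2; norm_num
      have := sq_pos_of_ne_zero this
      omega
    have hy' : (1 : ℝ) ≤ ((y ^ 2 : ℤ) : ℝ) := by exact_mod_cast hy1
    rw [← e1] at h11a
    rw [← e1'] at h7a
    rw [← hyn] at hy'
    rw [hd1] at hcl
    norm_num at hcl
    have f11 : Complex.normSq ((χ : G → ℂ) g11) = 1 := by linarith
    have f7 : Complex.normSq ((χ : G → ℂ) g7) = 1 := by linarith
    have f5 : Complex.normSq ((χ : G → ℂ) g5) = 1 := by linarith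
    have v11 : (χ : G → ℂ) g11 = -1 := by
      rcases h11 with ⟨rfl, rfl⟩ | h
      · have := e4 rfl
        push_cast at this
        linear_combination this / 2
      · have : (8 : ℝ) ≤ ((s ^ 2 + (11 : ℕ) * t ^ 2 : ℤ) : ℝ) := by exact_mod_cast h
        rw [← e1, f11] at this
        norm_num at this
    have v7 : (χ : G → ℂ) g7 = -1 := by
      rcases h7 with ⟨rfl, rfl⟩ | h
      · have := e4' rfl
        push_cast at this
        linear_combination this / 2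
      · have : (8 : ℝ) ≤ ((s' ^ 2 + (7 : ℕ) * t' ^ 2 : ℤ) : ℝ) := by exact_mod_cast h
        rw [← e1', f7] at this
        norm_num at this
    have v5 : (χ : G → ℂ) g5 = -1 := by
      rw [hyn] at f5
      have hy3 : y ^ 2 = 1 := by exact_mod_cast f5
      have hy4 : y = -1 := by
        have hy5 : (y - 1) * (y + 1) = 0 := by linear_combination hy3
        rcases mul_eq_zero.1 hy5 with h14 | h14
        · have : y = 1 := by linarith
          rw [this] at hy2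
          revert hy2; norm_num
        · linarith
      rw [hy, hy4]; norm_num
    -- all other values vanish
    have hall : ∀ w : G, w ≠ 1 → (χ : G → ℂ) w = - (Complex.normSq ((χ : G → ℂ) w) : ℂ) := by
      intro w hw
      by_cases hin : ∃ i, IsConj w (![1, g11, g11⁻¹, g7, g7⁻¹, g5] i)
      · obtain ⟨i, hi⟩ := hin
        rw [Cfsg.Agent.H27.isCharacter_isConj hc hi]
        have k1 : (χ : G → ℂ) g11⁻¹ = -1 := by rw [char_inv' hc, v11]; simp
        have k2 : (χ : G → ℂ) g7⁻¹ = -1 := by rw [char_inv' hc, v7]; simp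
        fin_cases i
        · exfalso
          apply hw
          exact isConj_one_left.1 hi
        all_goals simp [v11, v7, v5, k1, k2]
      · push Not at hin
        have hcl2 := class_bound' χ (Matrix.vecCons w ![1, g11, g11⁻¹, g7, g7⁻¹, g5]) (by
          intro i j
          refine Fin.cases ?_ (fun i' => ?_) i
          · refine Fin.cases (fun _ => rfl) (fun j' hij => ?_) j
            exact absurd hij (hin j')
          · refine Fin.cases (fun hij => ?_) (fun j' hij => ?_) j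
            · exact absurd hij.symm (hin i')
            · rw [hinj i' j' hij])
        simp only [Fin.sum_univ_succ, Fin.sum_univ_zero, Matrix.cons_val_zero, Matrix.cons_val_succ, card_cent_inv, normSq_inv' hc,
          c11, c7, c5, hC1', hd1, f11, f7, f5] at hcl2
        norm_num at hcl2
        have h10 : Complex.normSq ((χ : G → ℂ) w) / (Nat.card (Subgroup.centralizer ({w} : Set G)) : ℝ) ≤ 0 := by linarith
        have h11 : (0 : ℝ) < Nat.card (Subgroup.centralizer ({w} : Set G)) := by exact_mod_cast Nat.card_pos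
        have h12 : Complex.normSq ((χ : G → ℂ) w) = 0 := by
          apply le_antisymm _ (Complex.normSq_nonneg _)
          by_contra h13
          rw [not_le] at h13
          have := div_pos h13 h11
          linarith
        rw [h12, Complex.normSq_eq_zero.1 h12]
        simp
    have := Fintype.ofFinite G
    classical
    have hs := sum_char_zero χ (by rw [show (χ : G → ℂ) 1 = ((2 ^ 7 * 3 : ℕ) : ℂ) from hd]; norm_num)
    have hs2 := sum_normSq χ
    rw [← Finset.add_sum_erase _ _ (Finset.mem_univ (1 : G))] at hs hs2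
    rw [Finset.sum_congr rfl (fun w hw => hall w (Finset.ne_of_mem_erase hw)), Finset.sum_neg_distrib, ← Complex.ofReal_sum] at hs
    have h9 : ∑ x ∈ Finset.univ.erase (1 : G), Complex.normSq ((χ : G → ℂ) x) = 443520 - 147456 := by
      rw [hG, hd1, show (((2 ^ 7 * 3 : ℕ) : ℝ) ^ 2) = 147456 by norm_num] at hs2
      push_cast at hs2
      linarith
    rw [h9, show (χ : G → ℂ) 1 = ((2 ^ 7 * 3 : ℕ) : ℂ) from hd] at hs
    norm_num at hs
  · have h11 := ar_11c s t u (by push_cast at e2; linarith) e3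
    have h7 := ar_7c s' t' u' (by push_cast at e2'; linarith) e3'
    have h11' : (16 : ℝ) ≤ ((s ^ 2 + (11 : ℕ) * t ^ 2 : ℤ) : ℝ) := by exact_mod_cast h11
    have h7' : (8 : ℝ) ≤ ((s' ^ 2 + (7 : ℕ) * t' ^ 2 : ℤ) : ℝ) := by exact_mod_cast h7
    rw [← e1] at h11'
    rw [← e1'] at h7'
    norm_num at hcl
    linarith

end Cfsg.Agent.H29
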