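import Cfsg.Agent.H29.M24Leaf
import Cfsg.Agent.H29.M24List
import Cfsg.Agent.H29.NoDZ
import Cfsg.Prelude.Def_Spor_Mathieu

/-!
Elements of orders 23, 11, 7, 5 of `M24` and `M22`, their centralisers and fusion.
-/
set_option autoImplicit false

namespace Cfsg.Agent.H29
open Cfsg Cfsg.Agent.H7
open scoped Pointwise

theorem conj_count_ms {D : CData} (hD : D.OK = true) {h : ℕ} (hh : okPerm h = true) {ms : List (ℕ × List ℕ)} (hms : msOK ms = true)
    {N : ℕ}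
    (hk : Nat.beq (tf0 Nat.add 0 (preC h D.pre) (prAnd (prMs ms) (prTab h D.tab))
      (cnt (fun f => bif lfC h D.lf f then lfMs ms f else false)) idc) N = true) :
    {σ | σ ∈ M24 ∧ (σ * mkPerm D.g = mkPerm h * σ ∧ StabMs ms σ)}.ncard = N := by
  unfold CData.OK at hD
  simp only [Bool.and_eq_true] at hD
  obtain ⟨⟨⟨h1, h2⟩, h3⟩, h4⟩ := hD
  rw [beq_iff_eq] at h4
  have hg := okPerm_isPerm h1
  have hh' := okPerm_isPerm hh
  exact card_of_tf (PreSound.mono (preC_sound hg hh' h2) (fun _ _ h => h.1))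
    (prAnd_sound (PruneSound.mono (prMs_sound ms) (fun _ _ h => h.2))
      (PruneSound.mono (prTab_sound hg hh' h3) (fun _ _ h => h.1)))
    (LeafIff.and (lfC_iff h1 hh h4) (lfMs_iff hms)) hk

def ms22 : List (ℕ × List ℕ) := [(8388608, [23]), (1, [0])]

theorem ms22_ok : msOK ms22 = true := by decide +kernel

theorem stab22_iff (σ : Equiv.Perm GolayPt) : StabMs ms22 σ ↔ σ none = none ∧ σ (some 0) = some 0 := by
  have h1 : (8388608 : ℕ) = 1 <<< 23 := by decide +kernel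
  have h2 : (1 : ℕ) = 1 <<< 0 := by decide +kernel
  have e1 : σ • toSet 8388608 = toSet 8388608 ↔ σ none = none := by
    rw [h1]; exact smul_single (by norm_num)
  have e2 : σ • toSet 1 = toSet 1 ↔ σ (some 0) = some 0 := by
    conv_lhs => rw [h2]
    exact smul_single (by norm_num)
  unfold StabMs ms22
  simp only [List.forall_mem_cons, List.not_mem_nil, false_imp_iff, implies_true, and_true]
  exact and_congr e1 e2

theorem mem_M22' (σ : Equiv.Perm GolayPt) : σ ∈ Spor.M22 ↔ σ ∈ M24 ∧ StabMs ms22 σ := by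
  rw [stab22_iff]
  constructor
  · rintro ⟨⟨h1, h2⟩, h3⟩; exact ⟨h1, h2, h3⟩
  · rintro ⟨h1, h2, h3⟩; exact ⟨⟨h1, h2⟩, h3⟩

def c23 : ℕ := 0xbbceab01b284c91755654512660c41
def D23 : CData := ⟨c23, [],
  [[(3, 0)], [(2, 0)], [(2, 0), (1, 0)], [(2, 0), (1, 1)], [(2, 0), (1, 2)], [(2, 0)], [(2, 0)]],
  [(23, 23), (0, 1), (1, 2), (2, 3), (3, 12), (5, 9), (4, 6)]⟩
def i23 : ℕ := 0xbcd467418fb2e234d0a7a910d10412
def s23 : ℕ := 0xba65344156754e6a3c830ae256b040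
def c11 : ℕ := 0xbc1ea6b934910c58cec159d0ca8c40
def D11 : CData := ⟨c11, [],
  [[(3, 0)], [(3, 0)], [(2, 0)], [(2, 0), (1, 1)], [(2, 0), (1, 2)], [(2, 0)], [(2, 0)]],
  [(23, 23), (0, 0), (1, 2), (2, 3), (3, 21), (5, 8), (4, 12)]⟩
def i11 : ℕ := 0xba47053d76aca643d2253358e10500
def s11 : ℕ := 0x30c2925e85c08d1d5d1094ea9d2d7
def t11 : ℕ := 0xbc4b34bd5011283b1ccc5b64875420
def c7 : ℕ := 0xb964d5512e7903061d66b4d11a8c40
def D7 : CData := ⟨c7, [],
  [[(3, 0)], [(3, 0)], [(2, 0)], [(2, 0), (1, 1)], [(2, 0), (1, 2)], [(2, 0)], [(2, 0)]],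
  [(23, 23), (0, 0), (1, 2), (2, 3), (3, 21), (5, 8), (4, 17)]⟩
def i7 : ℕ := 0xb9c723548c7c28b4ce25522ce105a0
def s7 : ℕ := 0xbcdb55092b7c29175985418e490c20
def c5 : ℕ := 0xbcdb07a436a3948a99843ae3228c40
def D5 : CData := ⟨c5, [(5, 17), (14, 14), (17, 1)],
  [[(3, 0)], [(3, 0)], [(2, 0)], [(2, 0), (1, 1)], [(2, 0), (1, 2)], [(2, 0), (1, 3)], [(2, 0)]],
  [(23, 23), (0, 0), (1, 2), (2, 3), (3, 5), (5, 17), (4, 18)]⟩
def s5 : ℕ := 0xb94d10b2c219ea96a88872e929c1e0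

theorem D23_ok : D23.OK = true := by decide +kernel
theorem D11_ok : D11.OK = true := by decide +kernel
theorem D7'_ok : D7.OK = true := by decide +kernel
theorem D5_ok : D5.OK = true := by decide +kernel

theorem els_ok : ([c23, i23, s23, c11, i11, s11, t11, c7, i7, s7, c5, s5].all okPerm) = true := by decide +kernel

theorem el_ok {c : ℕ} (h : c ∈ [c23, i23, s23, c11, i11, s11, t11, c7, i7, s7, c5, s5]) : okPerm c = true := by
  have := els_ok
  rw [List.all_eq_true] at this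
  exact this c h

theorem okc23 : okPerm c23 = true := el_ok (by simp)
theorem oki23 : okPerm i23 = true := el_ok (by simp)
theorem oks23 : okPerm s23 = true := el_ok (by simp)
theorem okc11 : okPerm c11 = true := el_ok (by simp)
theorem oki11 : okPerm i11 = true := el_ok (by simp)
theorem oks11 : okPerm s11 = true := el_ok (by simp)
theorem okt11 : okPerm t11 = true := el_ok (by simp)
theorem okc7 : okPerm c7 = true := el_ok (by simp)
theorem oki7 : okPerm i7 = true := el_ok (by simp)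
theorem oks7 : okPerm s7 = true := el_ok (by simp)
theorem okc5 : okPerm c5 = true := el_ok (by simp)
theorem oks5 : okPerm s5 = true := el_ok (by simp)

theorem inv_code {c i : ℕ} (hc : okPerm c = true) (hi : okPerm i = true) (h : pm i c = idc) : mkPerm i = (mkPerm c)⁻¹ := by
  rw [eq_inv_iff_mul_eq_one, ← mkPerm_pm hi hc, h]
  exact idc_ok.2

theorem inv23 : mkPerm i23 = (mkPerm c23)⁻¹ := inv_code okc23 oki23 (by decide +kernel)
theorem inv11 : mkPerm i11 = (mkPerm c11)⁻¹ := inv_code okc11 oki11 (by decide +kernel)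
theorem inv7 : mkPerm i7 = (mkPerm c7)⁻¹ := inv_code okc7 oki7 (by decide +kernel)

theorem conj2 {s c : ℕ} (hs : okPerm s = true) (hc : okPerm c = true) (h2 : pm s c = pm (pm c c) s)
    (hcc : okPerm (pm c c) = true) : mkPerm s * mkPerm c * (mkPerm s)⁻¹ = mkPerm c ^ 2 := by
  rw [mul_inv_eq_iff_eq_mul, ← mkPerm_pm hs hc, h2, mkPerm_pm hcc hs, mkPerm_pm hc hc, sq]

theorem conj3 {s c : ℕ} (hs : okPerm s = true) (hc : okPerm c = true) (h2 : pm s c = pm (pm (pm c c) c) s)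
    (hcc : okPerm (pm c c) = true) (hccc : okPerm (pm (pm c c) c) = true) : mkPerm s * mkPerm c * (mkPerm s)⁻¹ = mkPerm c ^ 3 := by
  rw [mul_inv_eq_iff_eq_mul, ← mkPerm_pm hs hc, h2, mkPerm_pm hccc hs, mkPerm_pm hcc hc, mkPerm_pm hc hc, pow_succ, sq]

theorem cj23 : mkPerm s23 * mkPerm c23 * (mkPerm s23)⁻¹ = mkPerm c23 ^ 2 :=
  conj2 oks23 okc23 (by decide +kernel) (by decide +kernel)
theorem cj11 : mkPerm s11 * mkPerm c11 * (mkPerm s11)⁻¹ = mkPerm c11 ^ 2 :=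
  conj2 oks11 okc11 (by decide +kernel) (by decide +kernel)
theorem ct11 : mkPerm t11 * mkPerm c11 * (mkPerm t11)⁻¹ = mkPerm c11 ^ 3 :=
  conj3 okt11 okc11 (by decide +kernel) (by decide +kernel) (by decide +kernel)
theorem cj7 : mkPerm s7 * mkPerm c7 * (mkPerm s7)⁻¹ = mkPerm c7 ^ 2 :=
  conj2 oks7 okc7 (by decide +kernel) (by decide +kernel)
theorem cj5 : mkPerm s5 * mkPerm c5 * (mkPerm s5)⁻¹ = mkPerm c5 ^ 2 :=
  conj2 oks5 okc5 (by decide +kernel) (by decide +kernel)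

theorem cn23 : {σ | σ ∈ M24 ∧ σ * mkPerm D23.g = mkPerm c23 * σ}.ncard = 23 := conj_count D23_ok okc23 (by decide +kernel)
theorem cn23' : {σ | σ ∈ M24 ∧ σ * mkPerm D23.g = mkPerm i23 * σ}.ncard = 0 := conj_count D23_ok oki23 (by decide +kernel)
theorem cn11 : {σ | σ ∈ M24 ∧ σ * mkPerm D11.g = mkPerm c11 * σ}.ncard = 11 := conj_count D11_ok okc11 (by decide +kernel)
theorem cn7 : {σ | σ ∈ M24 ∧ σ * mkPerm D7.g = mkPerm c7 * σ}.ncard = 42 := conj_count D7'_ok okc7 (by decide +kernel)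
theorem cn7' : {σ | σ ∈ M24 ∧ σ * mkPerm D7.g = mkPerm i7 * σ}.ncard = 0 := conj_count D7'_ok oki7 (by decide +kernel)
theorem cn5 : {σ | σ ∈ M24 ∧ σ * mkPerm D5.g = mkPerm c5 * σ}.ncard = 60 := conj_count D5_ok okc5 (by decide +kernel)

theorem cm11 : {σ | σ ∈ M24 ∧ (σ * mkPerm D11.g = mkPerm c11 * σ ∧ StabMs ms22 σ)}.ncard = 11 :=
  conj_count_ms D11_ok okc11 ms22_ok (by decide +kernel)
theorem cm11' : {σ | σ ∈ M24 ∧ (σ * mkPerm D11.g = mkPerm i11 * σ ∧ StabMs ms22 σ)}.ncard = 0 :=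
  conj_count_ms D11_ok oki11 ms22_ok (by decide +kernel)
theorem cm7 : {σ | σ ∈ M24 ∧ (σ * mkPerm D7.g = mkPerm c7 * σ ∧ StabMs ms22 σ)}.ncard = 7 :=
  conj_count_ms D7'_ok okc7 ms22_ok (by decide +kernel)
theorem cm5 : {σ | σ ∈ M24 ∧ (σ * mkPerm D5.g = mkPerm c5 * σ ∧ StabMs ms22 σ)}.ncard = 5 :=
  conj_count_ms D5_ok okc5 ms22_ok (by decide +kernel)

/-! ### transfer to the groups -/

theorem card_cent_sub {P : Type*} [Group P] (H : Subgroup P) (x : P) (hx : x ∈ H) :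
    Nat.card (Subgroup.centralizer ({⟨x, hx⟩} : Set H)) = {σ | σ ∈ H ∧ σ * x = x * σ}.ncard := by
  rw [← Nat.card_coe_set_eq]
  refine Nat.card_congr ⟨fun y => ⟨y.1.1, y.1.2, ?_⟩, fun y => ⟨⟨y.1, y.2.1⟩, ?_⟩, fun _ => rfl, fun _ => rfl⟩
  · have := Subgroup.mem_centralizer_singleton_iff.1 y.2
    exact congrArg Subtype.val this
  · rw [Subgroup.mem_centralizer_singleton_iff]
    exact Subtype.ext y.2.2

theorem isConj_sub {P : Type*} [Group P] (H : Subgroup P) {x y s : P} (hx : x ∈ H) (hy : y ∈ H) (hs : s ∈ H)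
    (h : s * x * s⁻¹ = y) : IsConj (⟨x, hx⟩ : H) ⟨y, hy⟩ :=
  isConj_iff.2 ⟨⟨s, hs⟩, Subtype.ext h⟩

theorem not_isConj_sub {P : Type*} [Group P] [Finite P] (H : Subgroup P) {x y : P} (hx : x ∈ H) (hy : y ∈ H)
    (h : {σ | σ ∈ H ∧ σ * x = y * σ}.ncard = 0) : ¬ IsConj (⟨x, hx⟩ : H) ⟨y, hy⟩ := by
  intro hc
  obtain ⟨c, hc⟩ := isConj_iff.1 hc
  rw [Set.ncard_eq_zero (Set.toFinite _)] at h
  have h1 : (c : P) ∈ {σ | σ ∈ H ∧ σ * x = y * σ} := by
    refine ⟨c.2, ?_⟩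
    have := congrArg Subtype.val hc
    exact mul_inv_eq_iff_eq_mul.1 this
  rw [h] at h1
  exact h1

theorem mem24 {c : ℕ} (h : okPerm c = true) : mkPerm c ∈ M24 := mkPerm_mem_M24 h

theorem no_dz_M24 (χ : IrrCharacter ↥M24) : 2 ∣ Nat.card ↥M24 / charDegree (χ : ↥M24 → ℂ) := by
  have hsub : ∀ (c : ℕ) (h : okPerm c = true) (n : ℕ), (⟨mkPerm c, mem24 h⟩ : M24) ^ n = ⟨mkPerm c ^ n, M24.pow_mem (mem24 h) n⟩ :=
    fun _ _ _ => rfl
  have hsubi : ∀ (c : ℕ) (h : okPerm c = true), (⟨mkPerm c, mem24 h⟩ : M24)⁻¹ = ⟨(mkPerm c)⁻¹, M24.inv_mem (mem24 h)⟩ :=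
    fun _ _ => rfl
  refine no_dz_24 (g23 := ⟨mkPerm c23, mem24 okc23⟩) (g11 := ⟨mkPerm c11, mem24 okc11⟩) (g7 := ⟨mkPerm c7, mem24 okc7⟩)
    (g5 := ⟨mkPerm c5, mem24 okc5⟩) card_M24 ?_ ?_ ?_ ?_ ?_ ?_ ?_ ?_ ?_ ?_ ?_ ?_ ?_ ?_ χ
  · rw [Subgroup.orderOf_mk]
    exact orderOf_mkPerm (by norm_num) (okPerm_isPerm okc23) (by decide +kernel) 0 (by norm_num) (by decide +kernel)
  · rw [Subgroup.orderOf_mk]
    exact orderOf_mkPerm (by norm_num) (okPerm_isPerm okc11) (by decide +kernel) 1 (by norm_num) (by decide +kernel)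
  · rw [Subgroup.orderOf_mk]
    exact orderOf_mkPerm (by norm_num) (okPerm_isPerm okc7) (by decide +kernel) 1 (by norm_num) (by decide +kernel)
  · rw [Subgroup.orderOf_mk]
    exact orderOf_mkPerm (by norm_num) (okPerm_isPerm okc5) (by decide +kernel) 1 (by norm_num) (by decide +kernel)
  · rw [card_cent_sub]; exact cn23
  · rw [card_cent_sub]; exact cn11
  · rw [card_cent_sub]; exact cn7
  · rw [card_cent_sub]; exact cn5
  · rw [hsub _ okc23]; exact isConj_sub _ _ _ (mem24 oks23) cj23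
  · rw [hsub _ okc11]; exact isConj_sub _ _ _ (mem24 oks11) cj11
  · rw [hsub _ okc7]; exact isConj_sub _ _ _ (mem24 oks7) cj7
  · rw [hsub _ okc5]; exact isConj_sub _ _ _ (mem24 oks5) cj5
  · rw [hsubi _ okc23]
    apply not_isConj_sub
    rw [← inv23]; exact cn23'
  · rw [hsubi _ okc7]
    apply not_isConj_sub
    rw [← inv7]; exact cn7'

theorem M22_eq_SB2 : Spor.M22 = SB 2 := by
  ext σ
  rw [mem_SB]
  constructor
  · rintro ⟨⟨h1, h2⟩, h3⟩
    refine ⟨h1, fun i hi => ?_⟩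
    interval_cases i
    · exact h2
    · exact h3
  · rintro ⟨h1, h2⟩
    exact ⟨⟨h1, h2 0 (by norm_num)⟩, h2 1 (by norm_num)⟩

theorem card_M22s : Nat.card ↥Spor.M22 = 443520 := by
  rw [M22_eq_SB2]; exact card_SB2

def fix22 (c : ℕ) : Bool := okPerm c && Nat.beq (papp c 23) 23 && Nat.beq (papp c 0) 0

theorem mem22 {c : ℕ} (h : fix22 c = true) : mkPerm c ∈ Spor.M22 := by
  unfold fix22 at h
  rw [Bool.and_eq_true, Bool.and_eq_true] at h
  obtain ⟨⟨h1, h2⟩, h3⟩ := h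
  refine ⟨⟨mem24 h1, ?_⟩, ?_⟩
  · have := mkPerm_gpt (okPerm_isPerm h1) (show 23 < 24 by norm_num)
    rw [Nat.eq_of_beq_eq_true h2] at this
    exact this
  · have := mkPerm_gpt (okPerm_isPerm h1) (show 0 < 24 by norm_num)
    rw [Nat.eq_of_beq_eq_true h3] at this
    exact this

theorem set22 (Q : Equiv.Perm GolayPt → Prop) : {σ | σ ∈ Spor.M22 ∧ Q σ} = {σ | σ ∈ M24 ∧ (Q σ ∧ StabMs ms22 σ)} := by
  ext σ
  simp only [Set.mem_ofPred_eq, mem_M22']
  tauto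

theorem f22c11 : fix22 c11 = true := by decide +kernel
theorem f22t11 : fix22 t11 = true := by decide +kernel
theorem f22c7 : fix22 c7 = true := by decide +kernel
theorem f22s7 : fix22 s7 = true := by decide +kernel
theorem f22c5 : fix22 c5 = true := by decide +kernel
theorem f22s5 : fix22 s5 = true := by decide +kernel

theorem no_dz_M22 (χ : IrrCharacter ↥Spor.M22) : 2 ∣ Nat.card ↥Spor.M22 / charDegree (χ : ↥Spor.M22 → ℂ) := by
  have hsub : ∀ (c : ℕ) (h : fix22 c = true) (n : ℕ), (⟨mkPerm c, mem22 h⟩ : Spor.M22) ^ n =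
      ⟨mkPerm c ^ n, Spor.M22.pow_mem (mem22 h) n⟩ := fun _ _ _ => rfl
  have hsubi : ∀ (c : ℕ) (h : fix22 c = true), (⟨mkPerm c, mem22 h⟩ : Spor.M22)⁻¹ =
      ⟨(mkPerm c)⁻¹, Spor.M22.inv_mem (mem22 h)⟩ := fun _ _ => rfl
  refine no_dz_22 (g11 := ⟨mkPerm c11, mem22 f22c11⟩) (g7 := ⟨mkPerm c7, mem22 f22c7⟩)
    (g5 := ⟨mkPerm c5, mem22 f22c5⟩) card_M22s ?_ ?_ ?_ ?_ ?_ ?_ ?_ ?_ ?_ ?_ ?_ χ
  · rw [Subgroup.orderOf_mk]
    exact orderOf_mkPerm (by norm_num) (okPerm_isPerm okc11) (by decide +kernel) 1 (by norm_num) (by decide +kernel)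
  · rw [Subgroup.orderOf_mk]
    exact orderOf_mkPerm (by norm_num) (okPerm_isPerm okc7) (by decide +kernel) 1 (by norm_num) (by decide +kernel)
  · rw [Subgroup.orderOf_mk]
    exact orderOf_mkPerm (by norm_num) (okPerm_isPerm okc5) (by decide +kernel) 1 (by norm_num) (by decide +kernel)
  · rw [card_cent_sub, set22]; exact cm11
  · rw [card_cent_sub, set22]; exact cm7
  · rw [card_cent_sub, set22]; exact cm5
  · rw [hsub _ f22c11]; exact isConj_sub _ _ _ (mem22 f22t11) ct11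
  · rw [hsub _ f22c7]; exact isConj_sub _ _ _ (mem22 f22s7) cj7
  · rw [hsub _ f22c5]; exact isConj_sub _ _ _ (mem22 f22s5) cj5
  · rw [hsubi _ f22c11]
    apply not_isConj_sub
    rw [← inv11, set22]; exact cm11'
  · rw [hsubi _ f22c7]
    apply not_isConj_sub
    rw [← inv7]
    apply Nat.eq_zero_of_le_zero
    rw [← cn7']
    refine Set.ncard_le_ncard ?_ (Set.toFinite _)
    rintro σ ⟨h1, h2⟩
    exact ⟨h1.1.1, h2⟩

end Cfsg.Agent.H29
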