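import Cfsg.Agent.H29.HSConf
import Cfsg.Agent.H29.Trans4

/-!
The McLaughlin configuration in standard position.
-/
set_option autoImplicit false

namespace Cfsg.Agent.H29
open Cfsg Cfsg.Agent.H7
open scoped Pointwise

/-- the 275 vectors -/
def X275 : Set leechLattice := {x | (bL x x = 4 ∧ bL x t3 = 3) ∧ bL t2 x = 2}

theorem t2_two_iff (x : leechLattice) : bL t2 x = 2 ↔ (x : GolayPt → ℤ) (gpt 23) + (x : GolayPt → ℤ) (gpt 0) = 4 := by
  have := two_bL_t2 x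
  constructor <;> intro h <;> omega

theorem V552_iff {x : leechLattice} : (bL x x = 4 ∧ bL x t3 = 3) ↔ x ∈ V552 := Iff.rfl

theorem val_four {x : leechLattice} {i : GolayPt} (h : (x : GolayPt → ℤ) = (4 : ℤ) • (ind {gpt 23} + ind {i})) (k : GolayPt) :
    (x : GolayPt → ℤ) k = 4 * ((if k = gpt 23 then 1 else 0) + (if k = i then 1 else 0)) := by
  rw [h]
  show 4 * (ind {gpt 23} k + ind {i} k) = _
  rw [ind_single, ind_single]

theorem val_two {x : leechLattice} {o : Finset GolayPt} (h : (x : GolayPt → ℤ) = (2 : ℤ) • ind o) (k : GolayPt) :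
    (x : GolayPt → ℤ) k = 2 * (if k ∈ o then 1 else 0) := by
  rw [h]; rfl

theorem X275_iff {x : leechLattice} : x ∈ X275 ↔
      (∃ i, i ≠ gpt 23 ∧ i ≠ gpt 0 ∧ (x : GolayPt → ℤ) = (4 : ℤ) • (ind {gpt 23} + ind {i})) ∨
      (∃ o, o ∈ octads ∧ gpt 23 ∈ o ∧ gpt 0 ∈ o ∧ (x : GolayPt → ℤ) = (2 : ℤ) • ind o) ∨
      (∃ o, o ∈ octads ∧ gpt 23 ∈ o ∧ gpt 0 ∉ o ∧ (x : GolayPt → ℤ) = oddv o (gpt 23)) ∨
      (∃ j, j ≠ gpt 23 ∧ False ∧ (x : GolayPt → ℤ) = oddv ∅ j) := by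
  have hne := g23_ne_g0
  have k1 : ∀ {i : GolayPt}, i ≠ gpt 23 → (x : GolayPt → ℤ) = (4 : ℤ) • (ind {gpt 23} + ind {i}) →
      (bL t2 x = 2 ↔ i ≠ gpt 0) := by
    intro i hi hx
    rw [t2_two_iff, val_four hx, val_four hx, if_pos rfl, if_neg (Ne.symm hi), if_neg (Ne.symm hne)]
    by_cases h : gpt 0 = i
    · rw [if_pos h]
      simp [h]
    · rw [if_neg h]
      simp [Ne.symm h]
  have k2 : ∀ {o : Finset GolayPt}, gpt 23 ∈ o → (x : GolayPt → ℤ) = (2 : ℤ) • ind o → (bL t2 x = 2 ↔ gpt 0 ∈ o) := by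
    intro o ho hx
    rw [t2_two_iff, val_two hx, val_two hx, if_pos ho]
    by_cases h : gpt 0 ∈ o
    · simp [h]
    · simp [h]
  have k3 : ∀ {o : Finset GolayPt}, gpt 23 ∈ o → (x : GolayPt → ℤ) = oddv o (gpt 23) → (bL t2 x = 2 ↔ gpt 0 ∉ o) := by
    intro o ho hx
    rw [t2_two_iff, hx, oddv_apply', oddv_apply', if_pos ho, if_pos rfl, if_neg (Ne.symm hne)]
    by_cases h : gpt 0 ∈ o
    · simp [h]
    · simp [h]
  have k4 : ∀ {j : GolayPt}, j ≠ gpt 23 → (x : GolayPt → ℤ) = oddv ∅ j → ¬ bL t2 x = 2 := by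
    intro j hj hx
    rw [t2_two_iff, hx, oddv_apply', oddv_apply', if_neg (Finset.notMem_empty _), if_neg (Finset.notMem_empty _),
      if_neg (Ne.symm hj)]
    split_ifs <;> norm_num
  constructor
  · rintro ⟨h1, h2⟩
    rcases mem_V552.1 (V552_iff.1 h1) with ⟨i, hi, -, hx⟩ | ⟨o, ho, h, -, hx⟩ | ⟨o, ho, h, -, hx⟩ | ⟨j, hj, -, hx⟩
    · exact Or.inl ⟨i, hi, (k1 hi hx).1 h2, hx⟩
    · exact Or.inr (Or.inl ⟨o, ho, h, (k2 h hx).1 h2, hx⟩)
    · exact Or.inr (Or.inr (Or.inl ⟨o, ho, h, (k3 h hx).1 h2, hx⟩))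
    · exact absurd h2 (k4 hj hx)
  · rintro (⟨i, hi, h, hx⟩ | ⟨o, ho, h, h', hx⟩ | ⟨o, ho, h, h', hx⟩ | ⟨j, hj, h, hx⟩)
    · exact ⟨V552_iff.2 (mem_V552.2 (Or.inl ⟨i, hi, trivial, hx⟩)), (k1 hi hx).2 h⟩
    · exact ⟨V552_iff.2 (mem_V552.2 (Or.inr (Or.inl ⟨o, ho, h, trivial, hx⟩))), (k2 h hx).2 h'⟩
    · exact ⟨V552_iff.2 (mem_V552.2 (Or.inr (Or.inr (Or.inl ⟨o, ho, h, trivial, hx⟩)))), (k3 h hx).2 h'⟩
    · exact h.elim

theorem n176 : {o : Finset GolayPt | o ∈ octads ∧ gpt 23 ∈ o ∧ gpt 0 ∉ o}.ncard = 176 := by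
  have h : {s | s ∈ octads ∧ CP [23] [0] [] s}.ncard = 176 := enm_oct.countC (by decide) (by decide +kernel)
  rw [← h]
  congr 1
  ext s
  simp [CP]

theorem X275_ncard : X275.ncard = 275 := by
  rw [V552_ncard_aux _ _ _ _ X275 (fun x => X275_iff), ncard_ne2, card_octads_2, n176]
  simp

/-! ### the auxiliary vector -/

/-- twice an octad with two sign changes -/
def ww (O : Finset GolayPt) (hO : O ∈ octads) (j : GolayPt) : leechLattice := twoV O hO - pp (gpt 0) j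

theorem ww_val {O : Finset GolayPt} (hO : O ∈ octads) (j k : GolayPt) : (ww O hO j : GolayPt → ℤ) k =
    2 * (if k ∈ O then 1 else 0) - 4 * ((if k = gpt 0 then 1 else 0) + (if k = j then 1 else 0)) := by
  show (twoV O hO : GolayPt → ℤ) k - (pp (gpt 0) j : GolayPt → ℤ) k = _
  rw [pp_coe, twoV_apply]
  show _ - 4 * (ind {gpt 0} k + ind {j} k) = _
  rw [ind_single, ind_single]
  split_ifs <;> ring

theorem ww_bL {O : Finset GolayPt} (hO : O ∈ octads) (j : GolayPt) (y : leechLattice) :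
    8 * bL (ww O hO j) y = 2 * ∑ k ∈ O, (y : GolayPt → ℤ) k - 4 * ((y : GolayPt → ℤ) (gpt 0) + (y : GolayPt → ℤ) j) := by
  have h1 : 8 * bL (twoV O hO) y = 2 * ∑ k ∈ O, (y : GolayPt → ℤ) k := by
    rw [bL_mul, dot_comm]
    have : (twoV O hO : GolayPt → ℤ) = (2 : ℤ) • ind O := rfl
    rw [this, dot_smul_right, dot_ind]
  have h2 := two_bL_pp y (gpt 0) j
  have h3 : bL (ww O hO j) y = bL (twoV O hO) y - bL (pp (gpt 0) j) y := bL_sub _ _ _
  rw [h3, bL_comm (pp (gpt 0) j) y]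
  linarith

theorem sum_two {O o : Finset GolayPt} {y : leechLattice} (hy : (y : GolayPt → ℤ) = (2 : ℤ) • ind o) :
    ∑ k ∈ O, (y : GolayPt → ℤ) k = 2 * ((O ∩ o).card : ℤ) := by
  rw [hy]
  show ∑ k ∈ O, 2 * (if k ∈ o then (1 : ℤ) else 0) = _
  rw [← Finset.mul_sum, Finset.sum_ite_mem, Finset.sum_const, nsmul_eq_mul, mul_one]

theorem sum_four {O : Finset GolayPt} {i : GolayPt} {y : leechLattice} (hy : (y : GolayPt → ℤ) = (4 : ℤ) • (ind {gpt 23} + ind {i}))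
    (h23 : gpt 23 ∈ O) (hi : i ∈ O) : ∑ k ∈ O, (y : GolayPt → ℤ) k = 8 := by
  have : ∀ k ∈ O, (y : GolayPt → ℤ) k = (if gpt 23 = k then 4 else 0) + (if i = k then 4 else 0) := by
    intro k _
    rw [val_four hy]
    simp only [eq_comm (a := k)]
    split_ifs <;> norm_num
  rw [Finset.sum_congr rfl this, Finset.sum_add_distrib, Finset.sum_ite_eq, Finset.sum_ite_eq, if_pos h23, if_pos hi]
  norm_num

theorem sum_odd {O o : Finset GolayPt} {y : leechLattice} (hy : (y : GolayPt → ℤ) = oddv o (gpt 23)) (h23 : gpt 23 ∈ O)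
    (h : gpt 23 ∈ o) : ∑ k ∈ O, (y : GolayPt → ℤ) k = O.card - 2 * ((O ∩ o).card : ℤ) + 4 := by
  have : ∀ k ∈ O, (y : GolayPt → ℤ) k = 1 - 2 * (if k ∈ o then 1 else 0) + (if gpt 23 = k then 4 else 0) := by
    intro k _
    rw [hy, oddv_apply']
    by_cases h1 : k = gpt 23
    · subst h1; simp [h]
    · by_cases h2 : k ∈ o
      · simp [h1, h2, Ne.symm h1]
      · simp [h1, h2, Ne.symm h1]
  rw [Finset.sum_congr rfl this, Finset.sum_add_distrib, Finset.sum_sub_distrib, ← Finset.mul_sum, Finset.sum_ite_mem,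
    Finset.sum_ite_eq, if_pos h23, Finset.sum_const, Finset.sum_const, nsmul_eq_mul, nsmul_eq_mul, mul_one, mul_one]

section
variable {O : Finset GolayPt} (hO : O ∈ octads) (h23 : gpt 23 ∈ O) (h0 : gpt 0 ∈ O) {j : GolayPt} (hj : j ∈ O)
  (hj23 : j ≠ gpt 23) (hj0 : j ≠ gpt 0)
include h23 h0 hj hj23 hj0

theorem ww_sum : ∑ k, (ww O hO j : GolayPt → ℤ) k = 8 := by
  have : ∀ k ∈ (Finset.univ : Finset GolayPt), (ww O hO j : GolayPt → ℤ) k = 2 * (if k ∈ O then 1 else 0) - 4 * ((if gpt 0 = k then 1 else 0) + (if j = k then 1 else 0)) := by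
    intro k _
    rw [ww_val]
    simp only [eq_comm (a := k)]
  rw [Finset.sum_congr rfl this, Finset.sum_sub_distrib, ← Finset.mul_sum, ← Finset.mul_sum, Finset.sum_add_distrib,
    Finset.sum_ite_mem, Finset.univ_inter, Finset.sum_const, Finset.sum_ite_eq, Finset.sum_ite_eq, if_pos (Finset.mem_univ _),
    if_pos (Finset.mem_univ _), (mem_octads.1 hO).2]
  norm_num

theorem ww_norm : bL (ww O hO j) (ww O hO j) = 4 := by
  have h1 := ww_bL hO j (ww O hO j)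
  have h2 : ∑ k ∈ O, (ww O hO j : GolayPt → ℤ) k = 8 := by
    have : ∀ k ∈ O, (ww O hO j : GolayPt → ℤ) k = 2 - 4 * ((if gpt 0 = k then 1 else 0) + (if j = k then 1 else 0)) := by
      intro k hk
      rw [ww_val, if_pos hk]
      simp only [eq_comm (a := k)]
      ring
    rw [Finset.sum_congr rfl this, Finset.sum_sub_distrib, ← Finset.mul_sum, Finset.sum_add_distrib,
      Finset.sum_const, Finset.sum_ite_eq, Finset.sum_ite_eq, if_pos h0, if_pos hj, (mem_octads.1 hO).2]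
    norm_num
  rw [h2, ww_val, ww_val, if_pos h0, if_pos hj, if_pos rfl, if_pos rfl, if_neg hj0, if_neg (Ne.symm hj0)] at h1
  omega

theorem ww_t2 : bL (ww O hO j) t2 = 0 := by
  have h1 := two_bL_t2 (ww O hO j)
  rw [ww_val, ww_val, if_pos h23, if_pos h0, if_neg g23_ne_g0, if_pos rfl, if_neg (Ne.symm hj23), if_neg (Ne.symm hj0)] at h1
  rw [bL_comm]; omega

theorem ww_t3 : bL (ww O hO j) t3 = 2 := by
  have h1 := bL_t3 (ww O hO j)
  rw [ww_sum hO h23 h0 hj hj23 hj0, ww_val, if_pos h23, if_neg g23_ne_g0, if_neg (Ne.symm hj23)] at h1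
  omega
end

end Cfsg.Agent.H29
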