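import Cfsg.Agent.H29.CoStab2
import Cfsg.Agent.H29.XS3
import Cfsg.Agent.H1.Cores

/-!
The interface of the Monster type hypothesis.
-/
set_option autoImplicit false

namespace Cfsg.Agent.H29
open Cfsg Cfsg.Agent.H7
open scoped Pointwise

theorem XS.mapInj {G H : Type*} [Group G] [Group H] {Q : Subgroup G} {z : G} (h : XS Q z)
    (f : G →* H) (hf : Function.Injective f) : XS (Q.map f) (f z) where
  hp := h.hp.map f
  z_ne := fun h1 => h.z_ne (hf (by rw [h1, map_one]))
  z_sq := by rw [← map_mul, h.z_sq, map_one]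
  z_mem := ⟨z, h.z_mem, rfl⟩
  z_comm := by
    rintro _ ⟨x, hx, rfl⟩
    rw [← map_mul, h.z_comm x hx, map_mul]
  cent := by
    rintro _ ⟨x, hx, rfl⟩ hy
    rcases h.cent x hx (fun y hy' => hf (by
      rw [map_mul, map_mul]; exact hy _ ⟨y, hy', rfl⟩)) with h1 | h1
    · left; rw [h1, map_one]
    · right; rw [h1]
  comm := by
    rintro _ ⟨x, hx, rfl⟩ _ ⟨y, hy, rfl⟩
    rw [← map_mul, ← map_mul, ← map_mul]
    rcases h.comm x hx y hy with h1 | h1
    · left; rw [h1]
    · right; rw [h1]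
  sq := by
    rintro _ ⟨x, hx, rfl⟩
    rw [← map_mul]
    rcases h.sq x hx with h1 | h1
    · left; rw [h1, map_one]
    · right; rw [h1]
  nonab := by
    obtain ⟨x, hx, y, hy, hxy⟩ := h.nonab
    refine ⟨f x, ⟨x, hx, rfl⟩, f y, ⟨y, hy, rfl⟩, ?_⟩
    rw [← map_mul, ← map_mul]
    exact fun h1 => hxy (hf h1)
  center_eq := by
    ext y
    constructor
    · rintro ⟨⟨_, x, hx, rfl⟩, hy, rfl⟩
      have hxc : x = 1 ∨ x = z := by
        apply h.cent x hx
        intro w hw
        apply hf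
        rw [map_mul, map_mul]
        exact (congrArg Subtype.val (Subgroup.mem_center_iff.1 hy ⟨f w, ⟨w, hw, rfl⟩⟩)).symm
      rcases hxc with rfl | rfl
      · show f 1 ∈ _
        rw [map_one]; exact one_mem _
      · exact Subgroup.mem_zpowers _
    · intro hy
      have h1 : f z * f z = 1 := by rw [← map_mul, h.z_sq, map_one]
      rcases (mem_zpowers_of_sq h1).1 hy with rfl | rfl
      · exact one_mem _
      · refine ⟨⟨f z, ⟨z, h.z_mem, rfl⟩⟩, ?_, rfl⟩
        rw [SetLike.mem_coe, Subgroup.mem_center_iff]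
        rintro ⟨_, w, hw, rfl⟩
        apply Subtype.ext
        show f w * f z = f z * f w
        rw [← map_mul, h.z_comm w hw, map_mul]

/-- Elementwise facts about a group of Monster type -/
structure MI {G : Type*} [Group G] (z : G) (P : Subgroup G)
    (θ : Subgroup.centralizer ({z} : Set G) →* Co1Q) (R : leechLattice → G → Prop) : Prop where
  xs : XS P z
  card : Nat.card P = 2 ^ 25
  conj : ∀ h : Subgroup.centralizer ({z} : Set G), ∀ x ∈ P, (h : G) * x * (h : G)⁻¹ ∈ P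
  le : P ≤ Subgroup.centralizer ({z} : Set G)
  surj : Function.Surjective θ
  ker : ∀ h, θ h = 1 ↔ (h : G) ∈ P
  mem : ∀ {v x}, R v x → x ∈ P
  ex : ∀ v, ∃ x, R v x
  onto : ∀ x ∈ P, ∃ v, R v x
  mul : ∀ {v w x y}, R v x → R w y → R (v + w) (x * y)
  zero : ∀ {x}, R 0 x ↔ x = 1 ∨ x = z
  one_iff : ∀ {v}, R v 1 ↔ LCong v 0
  act : ∀ {h : Subgroup.centralizer ({z} : Set G)} {g v x}, cq g = θ h → R v x →
    R (g • v) ((h : G) * x * (h : G)⁻¹)

theorem xs_of_setting {G : Type*} [Group G] [Finite G] {z : G}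
    {Q : Subgroup (Subgroup.centralizer ({z} : Set G))} {w : ℕ}
    (hS : IsExtraspecialCentralizerSetting z Q w) :
    ∃ hz : z ∈ Subgroup.centralizer ({z} : Set G), XS Q ⟨z, hz⟩ := by
  obtain ⟨hz2, hF, hX, hc, -⟩ := hS
  have hz : z ∈ Subgroup.centralizer ({z} : Set G) := by
    rw [Subgroup.mem_centralizer_singleton_iff]
  refine ⟨hz, ?_⟩
  obtain ⟨z0, hx⟩ := xs_of_isExtraspecial Q hX
  have h1 : (⟨z, hz⟩ : Subgroup.centralizer ({z} : Set G)) ∈
      Subgroup.center (Subgroup.centralizer ({z} : Set G)) := by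
    rw [Subgroup.mem_center_iff]
    rintro ⟨g, hg⟩
    apply Subtype.ext
    exact (Subgroup.mem_centralizer_singleton_iff.1 hg)
  have h2 : Subgroup.center (Subgroup.centralizer ({z} : Set G)) ≤ Q := by
    rw [← hF]
    refine le_trans ?_ le_sup_right
    apply Cfsg.Agent.H1.le_fitting
    · infer_instance
    · let cg : CommGroup (Subgroup.center (Subgroup.centralizer ({z} : Set G))) :=
        { (inferInstance : Group (Subgroup.center (Subgroup.centralizer ({z} : Set G)))) with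
          mul_comm := fun a b => Subtype.ext (Subgroup.mem_center_iff.1 b.2 a) }
      exact @CommGroup.isNilpotent _ cg
  have h3 := hx.cent _ (h2 h1) (fun y hy => (Subgroup.mem_center_iff.1 h1 y).symm)
  rcases h3 with h3 | h3
  · exfalso
    have h4 : z = 1 := congrArg Subtype.val h3
    rw [h4, orderOf_one] at hz2
    norm_num at hz2
  · rw [h3]; exact hx

theorem mi_of {G : Type*} [Group G] [Finite G] (z : G)
    (Q : Subgroup (Subgroup.centralizer ({z} : Set G))) [Q.Normal]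
    (hS : IsExtraspecialCentralizerSetting z Q 12)
    (e : (Subgroup.centralizer ({z} : Set G)) ⧸ Q ≃* Spor.Co1)
    (ψ : leechLattice → Q ⧸ Subgroup.center Q) (hψ : IsLeechModTwoIso Q e ψ) :
    MI z (Q.map (Subgroup.centralizer ({z} : Set G)).subtype)
      ((e : (Subgroup.centralizer ({z} : Set G)) ⧸ Q →* Co1Q).comp (QuotientGroup.mk' Q))
      (fun v x => ∃ q : Q, ((q : Subgroup.centralizer ({z} : Set G)) : G) = x ∧
        ψ v = QuotientGroup.mk q) := by
  obtain ⟨hz, hx⟩ := xs_of_setting hS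
  obtain ⟨hz2, hF, hX, hc, -⟩ := hS
  obtain ⟨hadd, hsurj, hker, hact⟩ := hψ
  have hcen : ∀ q : Q, q ∈ Subgroup.center Q ↔ ((q : Subgroup.centralizer ({z} : Set G)) : G) = 1 ∨
      ((q : Subgroup.centralizer ({z} : Set G)) : G) = z := by
    intro q
    have h1 := hx.center_eq
    have h2 : (q : Subgroup.centralizer ({z} : Set G)) ∈ (Subgroup.center Q).map Q.subtype ↔
        q ∈ Subgroup.center Q := by
      constructor
      · rintro ⟨r, hr, hqr⟩
        have : r = q := Subtype.ext hqr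
        rw [← this]; exact hr
      · intro h; exact ⟨q, h, rfl⟩
    rw [← h2, h1, mem_zpowers_of_sq hx.z_sq]
    constructor
    · rintro (h | h)
      · left; rw [h]; rfl
      · right; rw [h]
    · rintro (h | h)
      · left; exact Subtype.ext h
      · right; exact Subtype.ext h
  refine ⟨hx.mapInj _ (Subgroup.subtype_injective _), ?_, ?_, ?_, ?_, ?_, ?_, ?_, ?_, ?_, ?_, ?_, ?_⟩
  · rw [← hc]
    exact Nat.card_congr (Subgroup.equivMapOfInjective Q _ (Subgroup.subtype_injective _)).symm.toEquiv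
  · rintro h _ ⟨x, hx', rfl⟩
    exact ⟨h * x * h⁻¹, (inferInstance : Q.Normal).conj_mem x hx' h, rfl⟩
  · rintro _ ⟨x, hx', rfl⟩; exact x.2
  · exact e.surjective.comp (QuotientGroup.mk'_surjective _)
  · intro h
    show e (QuotientGroup.mk h) = 1 ↔ _
    rw [map_eq_one_iff _ e.injective, QuotientGroup.eq_one_iff]
    constructor
    · intro h1; exact ⟨h, h1, rfl⟩
    · rintro ⟨y, hy, hyh⟩
      have : y = h := Subtype.ext hyh
      rw [← this]; exact hy
  · rintro v _ ⟨q, rfl, -⟩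
    exact ⟨q, q.2, rfl⟩
  · intro v
    obtain ⟨q, hq⟩ := QuotientGroup.mk_surjective (ψ v)
    exact ⟨_, q, rfl, hq.symm⟩
  · rintro _ ⟨x, hx', rfl⟩
    obtain ⟨v, hv⟩ := hsurj (QuotientGroup.mk ⟨x, hx'⟩)
    exact ⟨v, ⟨x, hx'⟩, rfl, hv⟩
  · rintro v w _ _ ⟨q, rfl, hq⟩ ⟨r, rfl, hr⟩
    refine ⟨q * r, rfl, ?_⟩
    rw [hadd, hq, hr]; rfl
  · intro x
    have h0 : ψ 0 = 1 := (hker 0).2 ⟨0, by simp⟩
    constructor
    · rintro ⟨q, rfl, hq⟩
      rw [h0] at hq
      exact (hcen q).1 ((QuotientGroup.eq_one_iff q).1 hq.symm)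
    · rintro (h | h)
      · exact ⟨1, h.symm, h0⟩
      · refine ⟨⟨⟨z, hz⟩, hx.z_mem⟩, h.symm, ?_⟩
        rw [h0]
        exact ((QuotientGroup.eq_one_iff _).2 ((hcen _).2 (Or.inr rfl))).symm
  · intro v
    have h1 : (∃ q : Q, ((q : Subgroup.centralizer ({z} : Set G)) : G) = 1 ∧
        ψ v = QuotientGroup.mk q) ↔ ψ v = 1 := by
      constructor
      · rintro ⟨q, hq, h⟩
        have : q = 1 := Subtype.ext (Subtype.ext hq)
        rw [h, this]; rfl
      · intro h; exact ⟨1, rfl, h⟩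
    rw [h1, hker]
    constructor
    · rintro ⟨w, hw⟩; exact ⟨w, by rw [sub_zero]; exact hw⟩
    · rintro ⟨w, hw⟩; exact ⟨w, by rwa [sub_zero] at hw⟩
  · rintro h g v _ hgh ⟨q, rfl, hq⟩
    exact ⟨_, rfl, hact h g hgh v q hq⟩

end Cfsg.Agent.H29
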