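import Cfsg.Agent.H29.Mon

/-!
Groups of Monster type: the element classes of the extraspecial group.
-/
set_option autoImplicit false

namespace Cfsg.Agent.H29
open Cfsg Cfsg.Agent.H7
open scoped Pointwise

namespace MI
variable {G : Type*} [Group G] {z : G} {P : Subgroup G}
    {θ : Subgroup.centralizer ({z} : Set G) →* Co1Q} {R : leechLattice → G → Prop}

theorem R_mul_z (h : MI z P θ R) {v : leechLattice} {x : G} (hx : R v x) : R v (x * z) := by
  have := h.mul hx (h.zero.2 (Or.inr rfl))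
  rwa [add_zero] at this

theorem R_of_cong (h : MI z P θ R) {v w : leechLattice} {x : G} (hx : R v x) (hc : LCong v w) :
    R w x := by
  obtain ⟨u, hu⟩ := hc.symm
  obtain ⟨y, hy⟩ := h.ex u
  have h1 := h.mul hx (h.mul hy hy)
  have h2 : v + (u + u) = w := by rw [← hu]; abel
  rw [h2] at h1
  rcases h.xs.sq y (h.mem hy) with h3 | h3
  · rwa [h3, mul_one] at h1
  · rw [h3] at h1
    have h4 := h.R_mul_z h1
    rwa [mul_assoc, h.xs.z_sq, mul_one] at h4

theorem R_inv (h : MI z P θ R) {v : leechLattice} {x : G} (hx : R v x) : R (-v) x⁻¹ := by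
  obtain ⟨y, hy⟩ := h.ex (-v)
  have h1 := h.mul hx hy
  rw [add_neg_cancel, h.zero] at h1
  rcases h1 with h1 | h1
  · rwa [← eq_inv_of_mul_eq_one_right h1]
  · have h2 : x⁻¹ = y * z := by
      rw [inv_eq_iff_mul_eq_one, ← mul_assoc, h1, h.xs.z_sq]
    rw [h2]
    exact h.R_mul_z hy

theorem R_unique (h : MI z P θ R) {v : leechLattice} {x y : G} (hx : R v x) (hy : R v y) :
    y = x ∨ y = x * z := by
  have h1 := h.mul (h.R_inv hx) hy
  rw [neg_add_cancel, h.zero] at h1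
  rcases h1 with h1 | h1
  · left; exact (inv_mul_eq_one.1 h1).symm
  · right; exact inv_mul_eq_iff_eq_mul.1 h1

theorem R_cong (h : MI z P θ R) {v w : leechLattice} {x : G} (hx : R v x) (hy : R w x) :
    LCong v w := by
  have h1 := h.mul hx (h.R_inv hy)
  rw [mul_inv_cancel, ← sub_eq_add_neg, h.one_iff] at h1
  obtain ⟨u, hu⟩ := h1
  exact ⟨u, by rw [← hu, sub_zero]⟩

theorem z_cent (h : MI z P θ R) : z ∈ Subgroup.centralizer ({z} : Set G) := h.le h.xs.z_mem

/-- short representative of an element of `P` -/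
theorem short (h : MI z P θ R) {x : G} (hx : x ∈ P) (h1 : x ≠ 1) (hz : x ≠ z) :
    ∃ v, R v x ∧ (bL v v = 4 ∨ bL v v = 6 ∨ bL v v = 8) := by
  obtain ⟨v, hv⟩ := h.onto x hx
  obtain ⟨w, hw, hw'⟩ := exists_short v
  have h2 := h.R_of_cong hv hw
  refine ⟨w, h2, ?_⟩
  rcases hw' with rfl | h3
  · exfalso
    rcases h.zero.1 h2 with h4 | h4
    · exact h1 h4
    · exact hz h4
  · exact h3

theorem short_ne (h : MI z P θ R) {x : G} {v : leechLattice} (hx : R v x)
    (hv : bL v v = 4 ∨ bL v v = 6 ∨ bL v v = 8) : x ≠ 1 ∧ x ≠ z := by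
  have hv0 : v ≠ 0 := by
    rcases hv with h1 | h1 | h1
    · exact ne_zero_of_norm h1 (by norm_num)
    · exact ne_zero_of_norm h1 (by norm_num)
    · exact ne_zero_of_norm h1 (by norm_num)
  have hn : ¬ LCong v 0 := not_lcong_zero hv0 (by omega)
  constructor
  · rintro rfl; exact hn (h.one_iff.1 hx)
  · rintro rfl
    apply hn
    exact h.R_cong hx (h.zero.2 (Or.inr rfl))

theorem fix (h : MI z P θ R) {y : G} (hy : y ∈ P) (hy1 : y ≠ 1) (hyz : y ≠ z) :
    ∃ q ∈ P, q⁻¹ * (y * z) * q = y := by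
  have h4 : ∃ q ∈ P, y * q ≠ q * y := by
    by_contra hne
    push Not at hne
    rcases h.xs.cent y hy hne with h5 | h5
    · exact hy1 h5
    · exact hyz h5
  obtain ⟨q, hq, hyq⟩ := h4
  have h5 : y * q = z * (q * y) := (h.xs.comm y hy q hq).resolve_left hyq
  refine ⟨q, hq, ?_⟩
  calc q⁻¹ * (y * z) * q = q⁻¹ * y * (z * q) := by group
    _ = q⁻¹ * y * (q * z) := by rw [h.xs.z_comm q hq]
    _ = q⁻¹ * (y * q) * z := by group
    _ = q⁻¹ * (z * (q * y)) * z := by rw [h5]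
    _ = q⁻¹ * (z * q) * y * z := by group
    _ = q⁻¹ * (q * z) * y * z := by rw [h.xs.z_comm q hq]
    _ = z * (y * z) := by group
    _ = z * (z * y) := by rw [h.xs.z_comm y hy]
    _ = y := by rw [← mul_assoc, h.xs.z_sq, one_mul]

/-- transitivity -/
theorem trans (h : MI z P θ R) {x y : G} {v w : leechLattice} (hx : R v x) (hy : R w y)
    (hvw : bL v v = bL w w) (hv : bL v v = 4 ∨ bL v v = 6 ∨ bL v v = 8) :
    ∃ k : Subgroup.centralizer ({z} : Set G), (k : G) * x * (k : G)⁻¹ = y := by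
  obtain ⟨g, hg⟩ := co0_trans hvw hv
  obtain ⟨k, hk⟩ := h.surj (cq g)
  have h1 := h.act hk.symm hx
  rw [hg] at h1
  rcases h.R_unique h1 hy with h2 | h2
  · exact ⟨k, h2.symm⟩
  · have h3 := h.short_ne hy (by rw [← hvw]; exact hv)
    obtain ⟨q, hq, hq2⟩ := h.fix (h.mem hy) h3.1 h3.2
    refine ⟨⟨q, h.le hq⟩⁻¹ * k, ?_⟩
    show (q⁻¹ * (k : G)) * x * (q⁻¹ * (k : G))⁻¹ = y
    have h6 : (k : G) * x * (k : G)⁻¹ = y * z := by
      rw [h2, mul_assoc _ z z, h.xs.z_sq, mul_one]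
    calc (q⁻¹ * (k : G)) * x * (q⁻¹ * (k : G))⁻¹ = q⁻¹ * ((k : G) * x * (k : G)⁻¹) * q := by group
      _ = y := by rw [h6, hq2]

/-- image of the centralizer of an element -/
theorem image_cent (h : MI z P θ R) {v : leechLattice} {s : G} (hs : R v s)
    (hv : bL v v = 4 ∨ bL v v = 6 ∨ bL v v = 8) :
    ((Subgroup.centralizer ({z} : Set G) ⊓ Subgroup.centralizer ({s} : Set G)).subgroupOf
      (Subgroup.centralizer ({z} : Set G))).map θ = (CS v).map cq := by
  have h3 := h.short_ne hs hv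
  ext x
  constructor
  · rintro ⟨k, hk, rfl⟩
    have hk2 : (k : G) * s * (k : G)⁻¹ = s := by
      have : (k : G) ∈ Subgroup.centralizer ({s} : Set G) := hk.2
      rw [mul_inv_eq_iff_eq_mul]
      exact Subgroup.mem_centralizer_singleton_iff.1 this
    obtain ⟨g, hg⟩ := cq_surj (θ k)
    have h1 := h.act hg hs
    rw [hk2] at h1
    exact ⟨g, mem_CS.2 (h.R_cong h1 hs), hg⟩
  · rintro ⟨g, hg, rfl⟩
    obtain ⟨k, hk⟩ := h.surj (cq g)
    have h1 := h.R_of_cong (h.act hk.symm hs) (mem_CS.1 hg)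
    rcases h.R_unique hs h1 with h2 | h2
    · refine ⟨k, ⟨k.2, ?_⟩, hk⟩
      show (k : G) ∈ Subgroup.centralizer ({s} : Set G)
      rw [Subgroup.mem_centralizer_singleton_iff]
      exact mul_inv_eq_iff_eq_mul.1 h2
    · obtain ⟨q, hq, hq2⟩ := h.fix (h.mem hs) h3.1 h3.2
      refine ⟨⟨q, h.le hq⟩⁻¹ * k, ⟨Subgroup.mul_mem _ (Subgroup.inv_mem _ (h.le hq)) k.2, ?_⟩, ?_⟩
      · show q⁻¹ * (k : G) ∈ Subgroup.centralizer ({s} : Set G)
        rw [Subgroup.mem_centralizer_singleton_iff]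
        apply mul_inv_eq_iff_eq_mul.1
        calc (q⁻¹ * (k : G)) * s * (q⁻¹ * (k : G))⁻¹ = q⁻¹ * ((k : G) * s * (k : G)⁻¹) * q := by group
          _ = s := by rw [h2, hq2]
      · rw [map_mul, map_inv, (h.ker ⟨q, h.le hq⟩).2 hq, inv_one, one_mul, hk]


theorem card_split {G H : Type*} [Group G] [Finite G] [Group H] {C : Subgroup G} (θ : C →* H)
    {P : Subgroup G} (ker : ∀ h, θ h = 1 ↔ (h : G) ∈ P) (A : Subgroup G) (hA : A ≤ C) :
    Nat.card A = Nat.card (A ⊓ P : Subgroup G) * Nat.card ((A.subgroupOf C).map θ) := by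
  set f : A →* H := θ.comp (Subgroup.inclusion hA) with hf
  have h1 : Nat.card A = Nat.card f.ker * Nat.card f.range := by
    rw [← Subgroup.index_ker]
    exact (Subgroup.card_mul_index f.ker).symm
  have h2 : Nat.card f.ker = Nat.card (A ⊓ P : Subgroup G) := by
    have e : f.ker.map A.subtype = A ⊓ P := by
      ext x
      constructor
      · rintro ⟨y, hy, rfl⟩
        exact ⟨y.2, (ker _).1 hy⟩
      · rintro ⟨h3, h4⟩
        exact ⟨⟨x, h3⟩, (ker ⟨x, hA h3⟩).2 h4, rfl⟩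
    rw [← e]
    exact Nat.card_congr (Subgroup.equivMapOfInjective f.ker A.subtype
      (Subgroup.subtype_injective A)).toEquiv
  have h3 : f.range = (A.subgroupOf C).map θ := by
    ext x
    constructor
    · rintro ⟨y, rfl⟩
      exact ⟨Subgroup.inclusion hA y, y.2, rfl⟩
    · rintro ⟨y, hy, rfl⟩
      exact ⟨⟨y, hy⟩, rfl⟩
  rw [h1, h2, h3]

end MI

end Cfsg.Agent.H29
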