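import Cfsg.Agent.H29.Mon2

/-!
Groups of Monster type: the conjugates of `z` in `P`.
-/
set_option autoImplicit false

namespace Cfsg.Agent.H29
open Cfsg Cfsg.Agent.H7
open scoped Pointwise
open XS (centIn mem_centIn)

/-- the conjugate subgroup -/
abbrev cj {G : Type*} [Group G] (g : G) (P : Subgroup G) : Subgroup G :=
  P.map (MulAut.conj g).toMonoidHom

theorem mem_cj {G : Type*} [Group G] {g : G} {P : Subgroup G} {x : G} :
    x ∈ cj g P ↔ g⁻¹ * x * g ∈ P := by
  constructor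
  · rintro ⟨y, hy, rfl⟩
    have e : g⁻¹ * (MulAut.conj g) y * g = y := by
      rw [MulAut.conj_apply]; group
    show g⁻¹ * (MulAut.conj g) y * g ∈ P
    rw [e]; exact hy
  · intro h
    refine ⟨_, h, ?_⟩
    show (MulAut.conj g) (g⁻¹ * x * g) = x
    rw [MulAut.conj_apply]; group

theorem card_cj {G : Type*} [Group G] (g : G) (P : Subgroup G) : Nat.card (cj g P) = Nat.card P :=
  Nat.card_congr (Subgroup.equivMapOfInjective P _ (MulAut.conj g).injective).symm.toEquiv

theorem XS.cjs {G : Type*} [Group G] {P : Subgroup G} {z s g : G} (h : XS P z)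
    (hs : g * z * g⁻¹ = s) : XS (cj g P) s := by
  have := h.mapInj (MulAut.conj g).toMonoidHom (MulAut.conj g).injective
  rw [← hs]
  exact this

theorem XS.card_cent_elem {G : Type*} [Group G] {P : Subgroup G} [Finite P] {z : G} (h : XS P z)
    {s : G} (hs : s ∈ P) (h1 : s ≠ 1) (hz : s ≠ z) :
    2 * Nat.card (P ⊓ Subgroup.centralizer ({s} : Set G) : Subgroup G) = Nat.card P := by
  apply le_antisymm
  · have hlt : P ⊓ Subgroup.centralizer ({s} : Set G) < P := by
      rw [lt_iff_le_and_ne]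
      refine ⟨inf_le_left, fun h2 => ?_⟩
      rw [inf_eq_left] at h2
      rcases h.cent s hs (fun y hy =>
        (Subgroup.mem_centralizer_singleton_iff.1 (h2 hy)).symm) with h3 | h3
      · exact h1 h3
      · exact hz h3
    have hd : Nat.card (P ⊓ Subgroup.centralizer ({s} : Set G) : Subgroup G) ∣ Nat.card P :=
      Subgroup.card_dvd_of_le hlt.le
    obtain ⟨k, hk⟩ := hd
    have hne : Nat.card (P ⊓ Subgroup.centralizer ({s} : Set G) : Subgroup G) ≠ Nat.card P := by
      intro h2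
      exact hlt.ne (Subgroup.eq_of_le_of_card_ge hlt.le h2.ge)
    have hk0 : k ≠ 0 := by
      rintro rfl
      rw [mul_zero] at hk
      exact Nat.card_pos.ne' hk
    have hk1 : k ≠ 1 := by
      rintro rfl
      rw [mul_one] at hk
      exact hne hk.symm
    rw [hk, mul_comm]
    exact Nat.mul_le_mul_left _ (by omega)
  · exact h.card_le_two_mul_cent hs le_rfl

theorem isSelfCent {G : Type*} [Group G] {P : Subgroup G} [Finite P] {z : G} (h : XS P z)
    {E : Subgroup G} (hE : E ≤ P) (hz : z ∈ E) (hc : ∀ x ∈ E, ∀ y ∈ E, x * y = y * x) :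
    Nat.card E * Nat.card E ≤ 2 * Nat.card P := by
  have h1 := h.card_cent_mul hz hE
  have hf : Finite (centIn P E) := Finite.of_injective _ (Subgroup.inclusion_injective inf_le_left)
  have h2 : E ≤ centIn P E := by
    intro x hx
    rw [mem_centIn]
    exact ⟨hE hx, fun y hy => hc x hx y hy⟩
  have h3 : Nat.card E ≤ Nat.card (centIn P E) := Nat.card_le_card_of_injective _
    (Subgroup.inclusion_injective h2)
  rw [← h1]
  exact Nat.mul_le_mul_right _ h3

set_option linter.unusedSectionVars false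
namespace MI
variable {G : Type*} [Group G] [Finite G] {z : G} {P : Subgroup G}
    {θ : Subgroup.centralizer ({z} : Set G) →* Co1Q} {R : leechLattice → G → Prop}

/-- `z` lies in the conjugate -/
theorem z_mem_cj (h : MI z P θ R) {g s : G} (hg : g * z * g⁻¹ = s) (hs : s ∈ P) (hsz : s ≠ z) :
    z ∈ cj g P := by
  by_contra hz
  have hs1 : s ≠ 1 := by
    rintro rfl
    apply h.xs.z_ne
    have : z = g⁻¹ * (g * z * g⁻¹) * g := by group
    rw [this, hg]; group
  have hxs := h.xs.cjs hg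
  set A : Subgroup G := P ⊓ Subgroup.centralizer ({s} : Set G) with hA
  have hAc : 2 * Nat.card A = 2 ^ 25 := by rw [← h.card]; exact h.xs.card_cent_elem hs hs1 hsz
  -- the homomorphism of the centralizer of `s`
  have hconj : ∀ x ∈ Subgroup.centralizer ({s} : Set G),
      g⁻¹ * x * g ∈ Subgroup.centralizer ({z} : Set G) := by
    intro x hx
    rw [Subgroup.mem_centralizer_singleton_iff] at hx ⊢
    have e : z = g⁻¹ * s * g := by rw [← hg]; group
    rw [e]
    calc g⁻¹ * x * g * (g⁻¹ * s * g) = g⁻¹ * (x * s) * g := by group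
      _ = g⁻¹ * (s * x) * g := by rw [hx]
      _ = g⁻¹ * s * g * (g⁻¹ * x * g) := by group
  let κ : Subgroup.centralizer ({s} : Set G) →* Subgroup.centralizer ({z} : Set G) :=
    { toFun := fun x => ⟨g⁻¹ * x * g, hconj x x.2⟩
      map_one' := by apply Subtype.ext; show g⁻¹ * 1 * g = 1; group
      map_mul' := by
        intro x y; apply Subtype.ext
        show g⁻¹ * (x * y) * g = g⁻¹ * x * g * (g⁻¹ * y * g)
        group }
  have hsplit := card_split (θ.comp κ) (P := cj g P) (fun x => by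
    rw [MonoidHom.comp_apply, h.ker]
    exact mem_cj.symm) A inf_le_right
  -- `A ∩ Pˢ` is small
  have hnorm : ∀ a ∈ A, ∀ x ∈ cj g P, a * x * a⁻¹ ∈ cj g P := by
    intro a ha x hx
    rw [mem_cj] at hx ⊢
    have := h.conj (κ ⟨a, ha.2⟩) _ hx
    have e : g⁻¹ * (a * x * a⁻¹) * g = (g⁻¹ * a * g) * (g⁻¹ * x * g) * (g⁻¹ * a * g)⁻¹ := by group
    rw [e]; exact this
  have hD : A ⊓ cj g P ≤ centIn P A := by
    rintro x ⟨hx1, hx2⟩
    rw [mem_centIn]
    refine ⟨hx1.1, fun y hy => ?_⟩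
    rcases h.xs.comm y hy.1 x hx1.1 with h1 | h1
    · exact h1.symm
    · exfalso
      apply hz
      have h2 := hnorm y hy x hx2
      have h3 : z = (y * x * y⁻¹) * x⁻¹ := by
        rw [h1]; group
      rw [h3]
      exact (cj g P).mul_mem h2 ((cj g P).inv_mem hx2)
  have hzA : z ∈ A := ⟨h.xs.z_mem, by
    show z ∈ Subgroup.centralizer ({s} : Set G)
    rw [Subgroup.mem_centralizer_singleton_iff]
    exact (h.xs.z_comm s hs).symm⟩
  have hcA := h.xs.card_cent_mul hzA inf_le_left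
  have hAcard : Nat.card A = 2 ^ 24 := by omega
  have hcc : Nat.card (centIn P A) = 4 := by
    rw [h.card, hAcard] at hcA
    omega
  have hf1 : Finite (centIn P A) := inferInstance
  have hd1 : Nat.card (A ⊓ cj g P : Subgroup G) ∣ 4 := by
    rw [← hcc]; exact Subgroup.card_dvd_of_le hD
  have hd2 : Nat.card ((A.subgroupOf (Subgroup.centralizer ({s} : Set G))).map (θ.comp κ)) ∣
      Nat.card Co1Q := Subgroup.card_subgroup_dvd_card _
  rw [card_Co1] at hd2
  rw [hAcard] at hsplit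
  have h22 : 2 ^ 22 ∣ Nat.card ((A.subgroupOf (Subgroup.centralizer ({s} : Set G))).map (θ.comp κ)) := by
    obtain ⟨k, hk⟩ := hd1
    have h5 : 4 * 2 ^ 22 = Nat.card (A ⊓ cj g P : Subgroup G) * k * 2 ^ 22 := by rw [← hk]
    have hpos : 0 < Nat.card (A ⊓ cj g P : Subgroup G) := Nat.card_pos
    refine ⟨k, ?_⟩
    have h6 : Nat.card (A ⊓ cj g P : Subgroup G) *
        Nat.card ((A.subgroupOf (Subgroup.centralizer ({s} : Set G))).map (θ.comp κ)) =
        Nat.card (A ⊓ cj g P : Subgroup G) * (2 ^ 22 * k) := by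
      rw [← hsplit]
      calc (2 : ℕ) ^ 24 = 4 * 2 ^ 22 := by norm_num
        _ = _ := by rw [h5]; ring
    exact Nat.eq_of_mul_eq_mul_left hpos h6
  have h23 := h22.trans hd2
  norm_num at h23


theorem ne_one_of (h : MI z P θ R) {g s : G} (hg : g * z * g⁻¹ = s) : s ≠ 1 := by
  rintro rfl
  apply h.xs.z_ne
  have : z = g⁻¹ * (g * z * g⁻¹) * g := by group
  rw [this, hg]; group

/-- elements centralizing `s` normalise the conjugate -/
theorem cj_norm (h : MI z P θ R) {g s : G} (hg : g * z * g⁻¹ = s) {a x : G}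
    (ha : a ∈ Subgroup.centralizer ({s} : Set G)) (hx : x ∈ cj g P) : a * x * a⁻¹ ∈ cj g P := by
  rw [mem_cj] at hx ⊢
  have hk : g⁻¹ * a * g ∈ Subgroup.centralizer ({z} : Set G) := by
    rw [Subgroup.mem_centralizer_singleton_iff] at ha ⊢
    have e : z = g⁻¹ * s * g := by rw [← hg]; group
    rw [e]
    calc g⁻¹ * a * g * (g⁻¹ * s * g) = g⁻¹ * (a * s) * g := by group
      _ = g⁻¹ * (s * a) * g := by rw [ha]
      _ = g⁻¹ * s * g * (g⁻¹ * a * g) := by group
  have := h.conj ⟨_, hk⟩ _ hx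
  have e : g⁻¹ * (a * x * a⁻¹) * g = (g⁻¹ * a * g) * (g⁻¹ * x * g) * (g⁻¹ * a * g)⁻¹ := by group
  rw [e]; exact this

theorem cj_le (h : MI z P θ R) {g s : G} (hg : g * z * g⁻¹ = s) :
    cj g P ≤ Subgroup.centralizer ({s} : Set G) := by
  intro x hx
  rw [Subgroup.mem_centralizer_singleton_iff]
  exact (h.xs.cjs hg).z_comm x hx

/-- the intersection of `P` with the conjugate -/
theorem inf_comm' (h : MI z P θ R) {g s : G} (hg : g * z * g⁻¹ = s) (hsz : s ≠ z) {x y : G}
    (hx : x ∈ P ⊓ cj g P) (hy : y ∈ P ⊓ cj g P) : x * y = y * x := by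
  rcases h.xs.comm x hx.1 y hy.1 with h1 | h1
  · exact h1
  · rcases (h.xs.cjs hg).comm x hx.2 y hy.2 with h2 | h2
    · exact h2
    · exfalso
      apply hsz
      rw [h1] at h2
      exact (mul_right_cancel h2).symm

theorem inf_sq (h : MI z P θ R) {g s : G} (hg : g * z * g⁻¹ = s) (hsz : s ≠ z) {x : G}
    (hx : x ∈ P ⊓ cj g P) : x * x = 1 := by
  rcases h.xs.sq x hx.1 with h1 | h1
  · exact h1
  · rcases (h.xs.cjs hg).sq x hx.2 with h2 | h2
    · exact h2
    · exfalso
      apply hsz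
      rw [← h1, ← h2]

/-- the image in `Co1` of the centralizer of `z` in the conjugate -/
abbrev bImg (θ : Subgroup.centralizer ({z} : Set G) →* Co1Q) (g : G) (P : Subgroup G) : Subgroup Co1Q :=
  ((cj g P ⊓ Subgroup.centralizer ({z} : Set G)).subgroupOf (Subgroup.centralizer ({z} : Set G))).map θ

theorem main (h : MI z P θ R) {g s : G} (hg : g * z * g⁻¹ = s) (hs : s ∈ P) (hsz : s ≠ z) :
    ∃ (v : leechLattice) (g0 : Co0), R v s ∧ bL v v = 8 ∧ g0 • v = e8 none ∧
      Nat.card (P ⊓ cj g P : Subgroup G) = 2 ^ 13 ∧ bImg θ g P = Sg.map (fc g0) := by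
  have hs1 := h.ne_one_of hg
  have hxs := h.xs.cjs hg
  have hz := h.z_mem_cj hg hs hsz
  obtain ⟨v, hv, hn⟩ := h.short hs hs1 hsz
  have hB : 2 * Nat.card (cj g P ⊓ Subgroup.centralizer ({z} : Set G) : Subgroup G) = 2 ^ 25 := by
    rw [hxs.card_cent_elem hz h.xs.z_ne hsz.symm, card_cj, h.card]
  have hsplit := card_split θ h.ker (cj g P ⊓ Subgroup.centralizer ({z} : Set G)) inf_le_right
  have hBP : cj g P ⊓ Subgroup.centralizer ({z} : Set G) ⊓ P = P ⊓ cj g P := by
    ext x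
    constructor
    · rintro ⟨⟨h1, h2⟩, h3⟩; exact ⟨h3, h1⟩
    · rintro ⟨h1, h2⟩; exact ⟨⟨h2, h.le h1⟩, h1⟩
  rw [hBP] at hsplit
  have hE := isSelfCent h.xs (E := P ⊓ cj g P) inf_le_left ⟨h.xs.z_mem, hz⟩
    (fun x hx y hy => h.inf_comm' hg hsz hx hy)
  rw [h.card] at hE
  have hE' : Nat.card (P ⊓ cj g P : Subgroup G) ≤ 2 ^ 13 := by
    by_contra hlt
    push Not at hlt
    have : (2 : ℕ) ^ 13 * 2 ^ 13 < Nat.card (P ⊓ cj g P : Subgroup G) *
      Nat.card (P ⊓ cj g P : Subgroup G) := Nat.mul_lt_mul_of_lt_of_lt hlt hlt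
    norm_num at this hE
    omega
  set E : Subgroup G := P ⊓ cj g P with hEdef
  have hprod : Nat.card E * Nat.card (bImg θ g P) = 2 ^ 24 := by
    rw [← hsplit]; omega
  have hX : bImg θ g P ≤ (CS v).map cq := by
    rw [← h.image_cent hv hn]
    apply Subgroup.map_mono
    rintro x ⟨h1, h2⟩
    exact ⟨h2, h.cj_le hg h1⟩
  have h2g : IsPGroup 2 (bImg θ g P) := by
    apply IsPGroup.map
    intro x
    obtain ⟨k, hk⟩ := hxs.hp ⟨((x : Subgroup.centralizer ({z} : Set G)) : G), x.2.1⟩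
    refine ⟨k, ?_⟩
    apply Subtype.ext; apply Subtype.ext
    have := congrArg Subtype.val hk
    simpa using this
  have hnorm : ∀ x ∈ (CS v).map cq, ∀ y ∈ bImg θ g P, x * y * x⁻¹ ∈ bImg θ g P := by
    intro x hx y hy
    rw [← h.image_cent hv hn] at hx
    obtain ⟨a, ha, rfl⟩ := hx
    obtain ⟨b, hb, rfl⟩ := hy
    refine ⟨a * b * a⁻¹, ⟨?_, (a * b * a⁻¹).2⟩, by rw [map_mul, map_mul, map_inv]⟩
    exact h.cj_norm hg ha.2 hb.1
  have hge : 2 ^ 11 ≤ Nat.card (bImg θ g P) := by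
    by_contra hlt
    push Not at hlt
    have h5 : Nat.card E * Nat.card (bImg θ g P) < 2 ^ 13 * 2 ^ 11 :=
      Nat.mul_lt_mul_of_le_of_lt hE' hlt (by norm_num)
    rw [hprod] at h5
    norm_num at h5
  have h8 : bL v v = 8 := by
    by_contra hne
    have h5 : bL v v = 4 ∨ bL v v = 6 := by tauto
    have h6 := small_bound h5 _ h2g hX hnorm
    rw [h6, Subgroup.card_bot] at hge
    norm_num at hge
  obtain ⟨g0, hg0⟩ := to_e8 v h8
  have hb := norm8_bound hg0 _ h2g hX hnorm
  have hfS : Finite (Sg.map (fc g0)) := inferInstance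
  have hle := Sg_map_card_le g0
  have hle2 : Nat.card (bImg θ g P) ≤ Nat.card (Sg.map (fc g0)) :=
    Nat.card_le_card_of_injective _ (Subgroup.inclusion_injective hb)
  have h2048 : (2 : ℕ) ^ 11 = 2048 := by norm_num
  have heq : Nat.card (bImg θ g P) = 2048 := by
    omega
  refine ⟨v, g0, hv, h8, hg0, ?_, ?_⟩
  · rw [heq] at hprod
    have h4 : (2 : ℕ) ^ 24 = 2 ^ 13 * 2048 := by norm_num
    rw [h4] at hprod
    exact Nat.eq_of_mul_eq_mul_right (by norm_num) hprod
  · exact Subgroup.eq_of_le_of_card_ge hb (by omega)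

end MI

end Cfsg.Agent.H29
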