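import Cfsg.Agent.H29.Mon3

/-!
Groups of Monster type: from the hypothesis to the interface.
-/
set_option autoImplicit false

namespace Cfsg.Agent.H29
open Cfsg Cfsg.Agent.H7
open scoped Pointwise

section
variable {G : Type*} [Group G] [Finite G] {z : G}
  {Q : Subgroup (Subgroup.centralizer ({z} : Set G))} [Q.Normal]

/-- the relation -/
def Rel (ψ : leechLattice → Q ⧸ Subgroup.center Q) (v : leechLattice) (x : G) : Prop :=
  ∃ q : Q, ((q : Subgroup.centralizer ({z} : Set G)) : G) = x ∧ ψ v = QuotientGroup.mk q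

/-- the homomorphism -/
def thE (e : (Subgroup.centralizer ({z} : Set G)) ⧸ Q ≃* Spor.Co1) :
    Subgroup.centralizer ({z} : Set G) →* Co1Q :=
  (e : (Subgroup.centralizer ({z} : Set G)) ⧸ Q →* Co1Q).comp (QuotientGroup.mk' Q)

/-- the subgroup of `G` -/
abbrev PG (Q : Subgroup (Subgroup.centralizer ({z} : Set G))) : Subgroup G :=
  Q.map (Subgroup.centralizer ({z} : Set G)).subtype

theorem mi (hS : IsExtraspecialCentralizerSetting z Q 12)
    {e : (Subgroup.centralizer ({z} : Set G)) ⧸ Q ≃* Spor.Co1}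
    {ψ : leechLattice → Q ⧸ Subgroup.center Q} (hψ : IsLeechModTwoIso Q e ψ) :
    MI z (PG Q) (thE e) (Rel ψ) := mi_of z Q hS e ψ hψ

omit [Finite G] [Q.Normal] in
theorem mem_PG {x : G} : x ∈ PG Q ↔ ∃ hx : x ∈ Subgroup.centralizer ({z} : Set G),
    (⟨x, hx⟩ : Subgroup.centralizer ({z} : Set G)) ∈ Q := by
  constructor
  · rintro ⟨y, hy, rfl⟩; exact ⟨y.2, hy⟩
  · rintro ⟨hx, h⟩; exact ⟨_, h, rfl⟩

omit [Finite G] in
theorem conj_of {s : G} (h : IsConj z s) : ∃ g : G, g * z * g⁻¹ = s := by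
  rw [isConj_iff] at h; exact h

omit [Finite G] [Q.Normal] in
theorem exists_s (hS : IsExtraspecialCentralizerSetting z Q 12) :
    ∃ g s : G, g * z * g⁻¹ = s ∧ s ∈ PG Q ∧ s ≠ z := by
  obtain ⟨-, -, -, -, g, hg, hne⟩ := hS
  exact ⟨g, _, rfl, mem_PG.2 hg, hne⟩

theorem sq64 {v : leechLattice} : sqNorm (v : GolayPt → ℤ) = 64 ↔ bL v v = 8 := by
  have := bL_self v
  constructor
  · intro h; omega
  · intro h; omega

end

theorem MI.card_bImg {G : Type*} [Group G] [Finite G] {z : G} {P : Subgroup G}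
    {θ : Subgroup.centralizer ({z} : Set G) →* Co1Q} {R : leechLattice → G → Prop}
    (h : MI z P θ R) {g s : G} (hg : g * z * g⁻¹ = s) (hs : s ∈ P) (hsz : s ≠ z) :
    Nat.card (MI.bImg θ g P) = 2 ^ 11 := by
  obtain ⟨v, -, hv, h8, -, h2, -⟩ := h.main hg hs hsz
  have hz := h.z_mem_cj hg hs hsz
  have hB : 2 * Nat.card (cj g P ⊓ Subgroup.centralizer ({z} : Set G) : Subgroup G) = 2 ^ 25 := by
    rw [(h.xs.cjs hg).card_cent_elem hz h.xs.z_ne hsz.symm, card_cj, h.card]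
  have hsplit := MI.card_split θ h.ker (cj g P ⊓ Subgroup.centralizer ({z} : Set G)) inf_le_right
  have hBP : cj g P ⊓ Subgroup.centralizer ({z} : Set G) ⊓ P = P ⊓ cj g P := by
    ext x
    constructor
    · rintro ⟨⟨h1, h2⟩, h3⟩; exact ⟨h3, h1⟩
    · rintro ⟨h1, h2⟩; exact ⟨⟨h2, h.le h1⟩, h1⟩
  rw [hBP, h2] at hsplit
  have h4 : (2 : ℕ) ^ 13 * Nat.card (MI.bImg θ g P) = 2 ^ 13 * 2 ^ 11 := by
    rw [← hsplit]; omega
  exact Nat.eq_of_mul_eq_mul_left (by norm_num) h4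

end Cfsg.Agent.H29
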