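import Cfsg.Agent.H29.Mon4

/-!
Groups of Monster type: squares and commutators in the extraspecial group.
-/
set_option autoImplicit false

namespace Cfsg.Agent.H29
open Cfsg Cfsg.Agent.H7
open scoped Pointwise

theorem XS.comm_iff_sq {G : Type*} [Group G] {P : Subgroup G} {z : G} (h : XS P z) {x y : G}
    (hx : x ∈ P) (hy : y ∈ P) :
    x * y = y * x ↔ ((x * y) * (x * y) = 1 ↔ (x * x = 1 ↔ y * y = 1)) := by
  have hxy := h.comm x hx y hy
  have hz := h.z_ne
  have hzz := h.z_sq
  have hzx := h.z_comm x hx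
  have hzy := h.z_comm y hy
  have key1 : x * y = y * x → (x * y) * (x * y) = (x * x) * (y * y) := by
    intro h1
    calc (x * y) * (x * y) = x * (y * x) * y := by group
      _ = x * (x * y) * y := by rw [h1]
      _ = (x * x) * (y * y) := by group
  have key2 : x * y = z * (y * x) → (x * y) * (x * y) = z * ((x * x) * (y * y)) := by
    intro h1
    have h2 : y * x = z * (x * y) := by
      rw [h1, ← mul_assoc, hzz, one_mul]
    calc (x * y) * (x * y) = x * (y * x) * y := by group
      _ = x * (z * (x * y)) * y := by rw [h2]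
      _ = (x * z) * x * y * y := by group
      _ = (z * x) * x * y * y := by rw [hzx]
      _ = z * ((x * x) * (y * y)) := by group
  constructor
  · intro h1
    rw [key1 h1]
    rcases h.sq x hx with h2 | h2 <;> rcases h.sq y hy with h3 | h3 <;> rw [h2, h3]
    · simp
    · simp [hz]
    · simp [hz]
    · simp [hz, hzz]
  · intro h1
    rcases hxy with h4 | h4
    · exact h4
    · exfalso
      rw [key2 h4] at h1
      rcases h.sq x hx with h2 | h2 <;> rcases h.sq y hy with h3 | h3 <;> rw [h2, h3] at h1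
      · simp [hz] at h1
      · simp [hz, hzz] at h1
      · simp [hz, hzz] at h1
      · simp [hz, hzz] at h1

theorem par_aux (a b c : ℤ) (h1 : 2 ∣ a) (h2 : 2 ∣ b) :
    ((4 ∣ a + c + (c + b)) ↔ (4 ∣ a ↔ 4 ∣ b)) ↔ 2 ∣ c := by
  omega

/-- the vectors used to compute the squares -/
theorem three_vectors : ∃ v w w' : leechLattice, bL v v = 4 ∧ bL w w = 4 ∧ bL w' w' = 4 ∧
    bL (w + w') (w + w') = 4 ∧ bL v w = -1 ∧ bL v w' = -1 := by
  have hO : toSet stdX1 ∈ octads := stdG_octads (List.mem_cons_self ..)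
  obtain ⟨c, hc, hca⟩ : ∃ c ∈ toSet stdX1, c ≠ gpt 23 := by
    have h1 : 1 < (toSet stdX1).card := by rw [hO.2]; norm_num
    obtain ⟨c, hc, hne⟩ := Finset.exists_mem_ne h1 (gpt 23)
    exact ⟨c, hc, hne⟩
  have hcb : c ≠ gpt 0 := by
    rintro rfl; exact stdX1_0 hc
  have hab := g23_ne_g0
  set x : leechLattice := ⟨(2 : ℤ) • ind (toSet stdX1), leech_two hO.1⟩ with hx
  have hxa : ∀ k, (x : GolayPt → ℤ) k = if k ∈ toSet stdX1 then 2 else 0 := by
    intro k
    show (2 : ℤ) * ind (toSet stdX1) k = _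
    unfold ind
    split_ifs <;> norm_num
  have hxx : bL x x = 4 := by
    have h1 := bL_self x
    have h2 : sqNorm (x : GolayPt → ℤ) = 32 := by
      unfold sqNorm
      have : ∀ i, (x : GolayPt → ℤ) i ^ 2 = if i ∈ toSet stdX1 then 4 else 0 := by
        intro i; rw [hxa]; split_ifs <;> norm_num
      simp only [this]
      rw [← Finset.sum_filter, Finset.sum_const, Finset.filter_mem_eq_inter, Finset.univ_inter, hO.2]
      norm_num
    omega
  refine ⟨-x, pp (gpt 23) (gpt 0), pm c (gpt 0), ?_, pp_norm hab, pm_norm hcb, ?_, ?_, ?_⟩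
  · rw [bL_neg, bL_neg_right, neg_neg, hxx]
  · rw [bL_add, bL_add_right, bL_add_right, pp_norm hab, pm_norm hcb, bL_comm (pm c (gpt 0))]
    have h1 := two_bL_pm (pp (gpt 23) (gpt 0)) c (gpt 0)
    rw [pp_coe] at h1
    simp only [Pi.smul_apply, Pi.add_apply, smul_eq_mul, ind_single, if_neg hca, if_neg hcb,
      if_neg hab.symm, if_true] at h1
    omega
  · rw [bL_neg]
    have h1 := two_bL_pp x (gpt 23) (gpt 0)
    rw [hxa, hxa, if_pos stdX1_23, if_neg stdX1_0] at h1
    omega
  · rw [bL_neg]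
    have h1 := two_bL_pm x c (gpt 0)
    rw [hxa, hxa, if_pos hc, if_neg stdX1_0] at h1
    omega

namespace MI
variable {G : Type*} [Group G] [Finite G] {z : G} {P : Subgroup G}
    {θ : Subgroup.centralizer ({z} : Set G) →* Co1Q} {R : leechLattice → G → Prop}

omit [Finite G] in
theorem sq_const (h : MI z P θ R) {x y : G} {v w : leechLattice} (hx : R v x) (hy : R w y)
    (hvw : bL v v = bL w w) (hv : bL v v = 4 ∨ bL v v = 6 ∨ bL v v = 8) :
    x * x = 1 ↔ y * y = 1 := by
  obtain ⟨k, rfl⟩ := h.trans hx hy hvw hv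
  have e : (k : G) * x * (k : G)⁻¹ * ((k : G) * x * (k : G)⁻¹) = (k : G) * (x * x) * (k : G)⁻¹ := by
    group
  rw [e]
  constructor
  · intro h1; rw [h1]; group
  · intro h1
    have e2 : x * x = (k : G)⁻¹ * ((k : G) * (x * x) * (k : G)⁻¹) * k := by group
    rw [e2, h1]; group

/-- squares in the extraspecial group -/
theorem sq_iff (h : MI z P θ R) {g s : G} (hg : g * z * g⁻¹ = s) (hs : s ∈ P) (hsz : s ≠ z)
    {x : G} {v : leechLattice} (hx : R v x) : x * x = 1 ↔ (4 : ℤ) ∣ bL v v := by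
  -- norm 8
  have h8 : ∀ {v : leechLattice} {x : G}, R v x → bL v v = 8 → x * x = 1 := by
    intro v x hx hv
    obtain ⟨w, -, hw, hw8, -⟩ := h.main hg hs hsz
    rw [← h.sq_const hw hx (by rw [hw8, hv]) (Or.inr (Or.inr hw8)), ← hg]
    calc g * z * g⁻¹ * (g * z * g⁻¹) = g * (z * z) * g⁻¹ := by group
      _ = 1 := by rw [h.xs.z_sq]; group
  -- norm 4 and 6
  have h46 : (∀ {v : leechLattice} {x : G}, R v x → bL v v = 4 → x * x = 1) ∧
      (∀ {v : leechLattice} {x : G}, R v x → bL v v = 6 → x * x ≠ 1) := by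
    obtain ⟨v, w, w', hv, hw, hw', hww, hvw, hvw'⟩ := three_vectors
    obtain ⟨x, hx⟩ := h.ex v
    obtain ⟨y, hy⟩ := h.ex w
    obtain ⟨y', hy'⟩ := h.ex w'
    have hvw6 : bL (v + w) (v + w) = 6 := by
      rw [bL_add, bL_add_right, bL_add_right, bL_comm w v, hv, hw, hvw]; norm_num
    have hvw6' : bL (v + w') (v + w') = 6 := by
      rw [bL_add, bL_add_right, bL_add_right, bL_comm w' v, hv, hw', hvw']; norm_num
    have hvww : bL (v + (w + w')) (v + (w + w')) = 4 := by
      rw [bL_add v (w + w') (v + (w + w')), bL_add_right v v (w + w'), bL_add_right (w + w') v (w + w'),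
        bL_comm (w + w') v, bL_add_right v w w', hv, hww, hvw, hvw']; norm_num
    have c1 := h.xs.comm_iff_sq (h.mem hx) (h.mem hy)
    have c2 := h.xs.comm_iff_sq (h.mem hx) (h.mem hy')
    have c3 := h.xs.comm_iff_sq (h.mem hx) (h.mem (h.mul hy hy'))
    have s1 := h.sq_const hx hy (by rw [hv, hw]) (Or.inl hv)
    have s2 := h.sq_const hx hy' (by rw [hv, hw']) (Or.inl hv)
    have s3 := h.sq_const hx (h.mul hy hy') (by rw [hv, hww]) (Or.inl hv)
    have s4 := h.sq_const hx (h.mul hx (h.mul hy hy')) (by rw [hv, hvww]) (Or.inl hv)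
    have s5 := h.sq_const (h.mul hx hy) (h.mul hx hy') (by rw [hvw6, hvw6']) (Or.inr (Or.inl hvw6))
    have c1' := c1.trans (iff_true_right s1)
    have c2' := c2.trans (iff_true_right s2)
    have c3' := c3.trans (iff_true_right s3)
    have hA4 : x * x = 1 := by
      have hc3 : x * (y * y') = (y * y') * x := by
        by_cases h6 : (x * y) * (x * y) = 1
        · have e1 : x * y = y * x := c1'.2 h6
          have e2 : x * y' = y' * x := c2'.2 (s5.1 h6)
          rw [← mul_assoc, e1, mul_assoc, e2, mul_assoc]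
        · have e1 : x * y ≠ y * x := fun h7 => h6 (c1'.1 h7)
          have e2 : x * y' ≠ y' * x := fun h7 => h6 (s5.2 (c2'.1 h7))
          exact h.xs.comm_mul (h.mem hx) (h.mem hy) (h.mem hy') e1 e2
      exact s4.2 (c3'.1 hc3)
    refine ⟨fun {a b} hb ha => (h.sq_const hx hb (by rw [hv, ha]) (Or.inl hv)).1 hA4, ?_⟩
    intro a b hb ha h1
    -- then every element has square one
    have hall : ∀ u ∈ P, u * u = 1 := by
      intro u hu
      by_cases hu1 : u = 1
      · rw [hu1, one_mul]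
      by_cases huz : u = z
      · rw [huz, h.xs.z_sq]
      obtain ⟨w1, hw1, hn⟩ := h.short hu hu1 huz
      rcases hn with hn | hn | hn
      · exact (h.sq_const hx hw1 (by rw [hv, hn]) (Or.inl hv)).1 hA4
      · exact (h.sq_const hb hw1 (by rw [ha, hn]) (Or.inr (Or.inl ha))).1 h1
      · exact h8 hw1 hn
    obtain ⟨p, hp, q, hq, hpq⟩ := h.xs.nonab
    apply hpq
    rw [h.xs.comm_iff_sq hp hq]
    simp [hall p hp, hall q hq, hall _ (P.mul_mem hp hq)]
  obtain ⟨w, hw, hw'⟩ := exists_short v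
  have hRw := h.R_of_cong hx hw
  have h00 : bL (0 : leechLattice) 0 = 0 := leech_LLat.zero_left 0
  have hq := qf_cong hw
  rcases hw' with rfl | h1 | h1 | h1
  · rw [h00] at hq
    constructor
    · intro _; simpa using hq
    · intro _
      rcases h.zero.1 hRw with h2 | h2
      · rw [h2, one_mul]
      · rw [h2, h.xs.z_sq]
  · rw [h1] at hq
    constructor
    · intro _; omega
    · intro _; exact h46.1 hRw h1
  · rw [h1] at hq
    constructor
    · intro h2; exact absurd h2 (h46.2 hRw h1)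
    · intro h2; omega
  · rw [h1] at hq
    constructor
    · intro _; omega
    · intro _; exact h8 hRw h1

/-- commutators in the extraspecial group -/
theorem comm_iff (h : MI z P θ R) {g s : G} (hg : g * z * g⁻¹ = s) (hs : s ∈ P) (hsz : s ≠ z)
    {x y : G} {v w : leechLattice} (hx : R v x) (hy : R w y) :
    x * y = y * x ↔ (2 : ℤ) ∣ bL v w := by
  rw [h.xs.comm_iff_sq (h.mem hx) (h.mem hy), h.sq_iff hg hs hsz (h.mul hx hy),
    h.sq_iff hg hs hsz hx, h.sq_iff hg hs hsz hy, bL_add, bL_add_right, bL_add_right, bL_comm w v]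
  have h1 := bL_even v
  have h2 := bL_even w
  exact par_aux _ _ _ h1 h2

/-- elements of norm 8 are conjugate to `z` -/
theorem conj_of_norm8 (h : MI z P θ R) {g s : G} (hg : g * z * g⁻¹ = s) (hs : s ∈ P) (hsz : s ≠ z)
    {x : G} {v : leechLattice} (hx : R v x) (hv : bL v v = 8) : ∃ k : G, k * z * k⁻¹ = x := by
  obtain ⟨w, -, hw, hw8, -⟩ := h.main hg hs hsz
  obtain ⟨k, hk⟩ := h.trans hw hx (by rw [hw8, hv]) (Or.inr (Or.inr hw8))
  refine ⟨k * g, ?_⟩
  rw [← hk, ← hg]
  group

/-- the involutions of `P` not conjugate to `z` -/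
theorem norm4_of (h : MI z P θ R) {g s : G} (hg : g * z * g⁻¹ = s) (hs : s ∈ P) (hsz : s ≠ z)
    {x : G} (hx : x ∈ P) (hxx : x * x = 1) (h1 : x ≠ 1) (hc : ¬ ∃ k : G, k * z * k⁻¹ = x) :
    ∃ v, R v x ∧ bL v v = 4 := by
  have hxz : x ≠ z := by
    rintro rfl
    exact hc ⟨1, by group⟩
  obtain ⟨v, hv, hn⟩ := h.short hx h1 hxz
  refine ⟨v, hv, ?_⟩
  rcases hn with hn | hn | hn
  · exact hn
  · exfalso
    have := (h.sq_iff hg hs hsz hv).1 hxx
    rw [hn] at this
    omega
  · exfalso
    exact hc (h.conj_of_norm8 hg hs hsz hv hn)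

/-- elements of norm 4 are not conjugate to `z` -/
theorem not_conj_of_norm4 (h : MI z P θ R) {x : G} {v : leechLattice} (hx : R v x) (hv : bL v v = 4) :
    ¬ ∃ k : G, k * z * k⁻¹ = x := by
  rintro ⟨k, hk⟩
  obtain ⟨w, -, hw, hw8, -⟩ := h.main hk (h.mem hx) (h.short_ne hx (Or.inl hv)).2
  have h1 := h.R_cong hx hw
  rcases short_cong' (by omega) (by omega) h1 with h2 | h2 | h2
  · rw [h2] at hv; omega
  · rw [h2, bL_neg, bL_neg_right, neg_neg] at hv; omega
  · omega

end MI

end Cfsg.Agent.H29
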