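import Cfsg.Agent.H29.Mon5

/-!
Groups of Monster type: the intersection `P ∩ Pᵍ` contains elements of norm 4.
-/
set_option autoImplicit false

namespace Cfsg.Agent.H29
open Cfsg Cfsg.Agent.H7
open scoped Pointwise
open XS (centIn mem_centIn)

theorem stdX1_octad : toSet stdX1 ∈ octads := stdG_octads (List.mem_cons_self ..)

/-- vectors almost invariant under a sign change -/
theorem coords_of_sign {x w : leechLattice} {ε : ℤ}
    (hw : ∀ k, (w : GolayPt → ℤ) k = - (if k ∈ toSet stdX1 then (x : GolayPt → ℤ) k else 0) -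
      4 * (if k = none then ε else 0)) {i j : GolayPt} (hi : i ∈ toSet stdX1)
    (hj : j ∈ toSet stdX1) : (4 : ℤ) ∣ (x : GolayPt → ℤ) i + (x : GolayPt → ℤ) j := by
  have h0 := hw (gpt 0)
  rw [if_neg stdX1_0] at h0
  have hev : ∃ a : ℤ, (w : GolayPt → ℤ) (gpt 0) = 4 * a := by
    rw [h0]
    split_ifs
    · exact ⟨-ε, by ring⟩
    · exact ⟨0, by ring⟩
  obtain ⟨a, ha⟩ := hev
  rcases mem_leech_cases.1 w.2 with ⟨s', y', hs', hw2, -⟩ | ⟨s', y', hs', hw2, -⟩
  · rcases mem_leech_cases.1 x.2 with ⟨s, y, hs, hx, -⟩ | ⟨s, y, hs, hx, -⟩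
    · -- both even
      have key : s' = s ∩ toSet stdX1 := by
        ext k
        have h1 := hw k
        rw [hw2 k, hx k] at h1
        unfold ind at h1
        rw [Finset.mem_inter]
        generalize (if k = none then ε else 0) = e5 at h1
        by_cases h2 : k ∈ s' <;> by_cases h3 : k ∈ s <;> by_cases h4 : k ∈ toSet stdX1
        all_goals simp only [h2, h3, h4, if_true, if_false] at h1
        all_goals simp only [h2, h3, h4, and_true, and_false, iff_self, false_iff, iff_false,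
          not_true]
        all_goals omega
      have hc := GC_weights _ hs'
      have hle : s'.card ≤ 8 := by
        rw [← stdX1_octad.2, key]
        exact Finset.card_le_card Finset.inter_subset_right
      rw [hx i, hx j]
      unfold ind
      rcases (show s'.card = 0 ∨ s'.card = 8 by omega) with h1 | h1
      · rw [Finset.card_eq_zero] at h1
        have h2 : ∀ k ∈ toSet stdX1, k ∉ s := by
          intro k hk hks
          have : k ∈ s' := by rw [key]; exact Finset.mem_inter.2 ⟨hks, hk⟩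
          rw [h1] at this
          simp at this
        rw [if_neg (h2 i hi), if_neg (h2 j hj)]
        omega
      · have h2 : s' = toSet stdX1 := by
          apply Finset.eq_of_subset_of_card_le
          · rw [key]; exact Finset.inter_subset_right
          · rw [h1, stdX1_octad.2]
        have h3 : ∀ k ∈ toSet stdX1, k ∈ s := by
          intro k hk
          rw [← h2, key] at hk
          exact (Finset.mem_inter.1 hk).1
        rw [if_pos (h3 i hi), if_pos (h3 j hj)]
        omega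
    · exfalso
      have h1 := hw i
      rw [if_pos hi, hw2 i, hx i] at h1
      unfold ind at h1
      split_ifs at h1 <;> omega
  · exfalso
    have h1 := hw2 (gpt 0)
    rw [ha] at h1
    unfold ind at h1
    split_ifs at h1 <;> omega

theorem other_pt : ∃ c ∈ toSet stdX1, c ≠ gpt 23 := by
  have h1 : 1 < (toSet stdX1).card := by rw [stdX1_octad.2]; norm_num
  obtain ⟨c, hc, hne⟩ := Finset.exists_mem_ne h1 (gpt 23)
  exact ⟨c, hc, hne⟩

/-- the consequence for two points of the octad -/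
theorem even_of_sign {x : leechLattice}
    (h : LCong (sgEl _ stdX1_GC • x) x ∨ LCong (sgEl _ stdX1_GC • x) (e8 none + x))
    {i j : GolayPt} (hi : i ∈ toSet stdX1) (hj : j ∈ toSet stdX1) : (2 : ℤ) ∣ bL x (pp i j) := by
  have h2 := two_bL_pp x i j
  have h4 : (4 : ℤ) ∣ (x : GolayPt → ℤ) i + (x : GolayPt → ℤ) j := by
    rcases h with ⟨w, hw⟩ | ⟨w, hw⟩
    · apply coords_of_sign (w := w) (ε := 0) _ hi hj
      intro k
      have h5 := congrFun (congrArg Subtype.val hw) k
      have h6 : (1 - 2 * ind (toSet stdX1) k) * (x : GolayPt → ℤ) k - (x : GolayPt → ℤ) k =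
          (w : GolayPt → ℤ) k + (w : GolayPt → ℤ) k := h5
      unfold ind at h6
      simp only [ite_self]
      by_cases hk : k ∈ toSet stdX1
      · rw [if_pos hk] at h6 ⊢
        omega
      · rw [if_neg hk] at h6 ⊢
        omega
    · apply coords_of_sign (w := w) (ε := 1) _ hi hj
      intro k
      have h5 := congrFun (congrArg Subtype.val hw) k
      have h6 : (1 - 2 * ind (toSet stdX1) k) * (x : GolayPt → ℤ) k - ((e8 none : GolayPt → ℤ) k +
          (x : GolayPt → ℤ) k) = (w : GolayPt → ℤ) k + (w : GolayPt → ℤ) k := h5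
      rw [e8_apply] at h6
      unfold ind at h6
      by_cases hk : k ∈ toSet stdX1 <;> by_cases hn : k = none
      · rw [if_pos hk] at h6 ⊢
        rw [if_pos hn] at h6 ⊢
        omega
      · rw [if_pos hk] at h6 ⊢
        rw [if_neg hn] at h6 ⊢
        omega
      · rw [if_neg hk] at h6 ⊢
        rw [if_pos hn] at h6 ⊢
        omega
      · rw [if_neg hk] at h6 ⊢
        rw [if_neg hn] at h6 ⊢
        omega
  omega

namespace MI
variable {G : Type*} [Group G] [Finite G] {z : G} {P : Subgroup G}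
    {θ : Subgroup.centralizer ({z} : Set G) →* Co1Q} {R : leechLattice → G → Prop}

/-- the intersection contains elements of norm 4 -/
theorem inf_norm4 (h : MI z P θ R) {g s : G} (hg : g * z * g⁻¹ = s) (hs : s ∈ P) (hsz : s ≠ z) :
    ∃ (x : G) (v : leechLattice), x ∈ P ⊓ cj g P ∧ R v x ∧ bL v v = 4 := by
  obtain ⟨vs, g0, hvs, h8, hg0, hE, hB⟩ := h.main hg hs hsz
  have hxs := h.xs.cjs hg
  have hz := h.z_mem_cj hg hs hsz
  obtain ⟨c, hc, hca⟩ := other_pt
  obtain ⟨x1, hx1⟩ := h.ex (g0⁻¹ • pp (gpt 23) c)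
  refine ⟨x1, _, ?_, hx1, by rw [co0_bL]; exact pp_norm hca.symm⟩
  have hcc : centIn P (P ⊓ cj g P) = P ⊓ cj g P := by
    have h1 := h.xs.card_cent_mul (H := P ⊓ cj g P) ⟨h.xs.z_mem, hz⟩ inf_le_left
    rw [hE, h.card] at h1
    have h2 : Nat.card (centIn P (P ⊓ cj g P)) = 2 ^ 13 := by
      have h3 : Nat.card (centIn P (P ⊓ cj g P)) * 2 ^ 13 = 2 ^ 13 * 2 ^ 13 := by
        rw [h1]; norm_num
      exact Nat.eq_of_mul_eq_mul_right (by norm_num) h3
    symm
    apply Subgroup.eq_of_le_of_card_ge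
    · intro y hy
      rw [mem_centIn]
      exact ⟨hy.1, fun y' hy' => h.inf_comm' hg hsz hy hy'⟩
    · rw [h2, hE]
  rw [← hcc, mem_centIn]
  refine ⟨h.mem hx1, fun y hy => ?_⟩
  obtain ⟨v, hv⟩ := h.onto y hy.1
  rw [h.comm_iff hg hs hsz hx1 hv, bL_comm]
  have e1 : bL v (g0⁻¹ • pp (gpt 23) c) = bL (g0 • v) (pp (gpt 23) c) := by
    rw [← co0_bL g0, smul_inv_smul]
  rw [e1]
  apply even_of_sign _ stdX1_23 hc
  -- an element inducing the sign change
  have hmem : fc g0 (sgEl _ stdX1_GC) ∈ bImg θ g P := by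
    rw [hB]
    exact ⟨_, ⟨_, _, rfl⟩, rfl⟩
  obtain ⟨b, hb, hb2⟩ := hmem
  have hact := h.act (h := b) (g := g0⁻¹ * sgEl _ stdX1_GC * g0) (by rw [hb2, fc_apply]) hv
  have hby : (b : G) * y = y * b ∨ (b : G) * y = s * (y * b) := hxs.comm b hb.1 y hy.2
  rcases hby with h1 | h1
  · left
    rw [h1, mul_inv_cancel_right] at hact
    have h2 := (h.R_cong hact hv).smul g0
    rw [mul_smul, mul_smul, smul_inv_smul] at h2
    exact h2
  · right
    have h3 : (b : G) * y * (b : G)⁻¹ = s * y := by rw [h1]; group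
    rw [h3] at hact
    have h2 := (h.R_cong hact (h.mul hvs hv)).smul g0
    rw [mul_smul, mul_smul, smul_inv_smul, co0_add, hg0] at h2
    exact h2

/-- elements of norm 4 are centralised by elements moving `z` inside `P` -/
theorem exists_cent (h : MI z P θ R) {g s : G} (hg : g * z * g⁻¹ = s) (hs : s ∈ P) (hsz : s ≠ z)
    {t : G} {v : leechLattice} (ht : R v t) (hv : bL v v = 4) :
    ∃ k : G, k * t = t * k ∧ k * z * k⁻¹ ∈ P ∧ k * z * k⁻¹ ≠ z := by
  obtain ⟨x, w, hx, hw, hw4⟩ := h.inf_norm4 hg hs hsz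
  -- the conjugate of `x` in `P`
  have hy : g⁻¹ * x * g ∈ P := mem_cj.1 hx.2
  have hxx := h.inf_sq hg hsz hx
  have hx1 : x ≠ 1 := (h.short_ne hw (Or.inl hw4)).1
  obtain ⟨w1, hw1, hw14⟩ := h.norm4_of hg hs hsz hy (by
      calc g⁻¹ * x * g * (g⁻¹ * x * g) = g⁻¹ * (x * x) * g := by group
        _ = 1 := by rw [hxx]; group) (by
      intro h1
      apply hx1
      calc x = g * (g⁻¹ * x * g) * g⁻¹ := by group
        _ = 1 := by rw [h1]; group) (by
      rintro ⟨k, hk⟩
      apply h.not_conj_of_norm4 hw hw4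
      refine ⟨g * k, ?_⟩
      calc g * k * z * (g * k)⁻¹ = g * (k * z * k⁻¹) * g⁻¹ := by group
        _ = x := by rw [hk]; group)
  obtain ⟨a, ha⟩ := h.trans hw1 hw (by rw [hw14, hw4]) (Or.inl hw14)
  obtain ⟨b, hb⟩ := h.trans hw ht (by rw [hw4, hv]) (Or.inl hw4)
  have haz : (a : G) * z = z * a := Subgroup.mem_centralizer_singleton_iff.1 a.2
  have hbz : (b : G) * z = z * b := Subgroup.mem_centralizer_singleton_iff.1 b.2
  have e1 : ((b : G) * (g * (a : G)⁻¹) * (b : G)⁻¹) * z * ((b : G) * (g * (a : G)⁻¹) * (b : G)⁻¹)⁻¹ =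
      (b : G) * s * (b : G)⁻¹ := by
    have h1 : (b : G)⁻¹ * z * b = z := by
      rw [mul_assoc, ← hbz]; group
    have h2 : (a : G)⁻¹ * z * a = z := by
      rw [mul_assoc, ← haz]; group
    calc _ = (b : G) * g * (a : G)⁻¹ * ((b : G)⁻¹ * z * b) * a * g⁻¹ * (b : G)⁻¹ := by group
      _ = (b : G) * g * ((a : G)⁻¹ * z * a) * g⁻¹ * (b : G)⁻¹ := by rw [h1]; group
      _ = (b : G) * (g * z * g⁻¹) * (b : G)⁻¹ := by rw [h2]; group
      _ = _ := by rw [hg]
  refine ⟨(b : G) * (g * (a : G)⁻¹) * (b : G)⁻¹, ?_, ?_, ?_⟩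
  · have h3 : (a : G)⁻¹ * x * a = g⁻¹ * x * g := by
      calc (a : G)⁻¹ * x * a = (a : G)⁻¹ * ((a : G) * (g⁻¹ * x * g) * (a : G)⁻¹) * a := by rw [ha]
        _ = _ := by group
    rw [← mul_inv_eq_iff_eq_mul]
    calc _ = (b : G) * g * (a : G)⁻¹ * ((b : G)⁻¹ * t * b) * a * g⁻¹ * (b : G)⁻¹ := by group
      _ = (b : G) * g * (a : G)⁻¹ * x * a * g⁻¹ * (b : G)⁻¹ := by rw [← hb]; group
      _ = (b : G) * g * ((a : G)⁻¹ * x * a) * g⁻¹ * (b : G)⁻¹ := by group
      _ = (b : G) * x * (b : G)⁻¹ := by rw [h3]; group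
      _ = t := hb
  · rw [e1]
    exact h.conj b s hs
  · rw [e1]
    intro h1
    apply hsz
    calc s = (b : G)⁻¹ * ((b : G) * s * (b : G)⁻¹) * b := by group
      _ = (b : G)⁻¹ * (z * b) := by rw [h1]; group
      _ = z := by rw [← hbz]; group

end MI

end Cfsg.Agent.H29
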