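import Cfsg.Agent.H29.Mon6
import Cfsg.Agent.H29.XS4

/-!
Groups of Monster type: preparations for the centralizer of an element of norm 4.
-/
set_option autoImplicit false

namespace Cfsg.Agent.H29
open Cfsg Cfsg.Agent.H7
open scoped Pointwise
open XS (centIn mem_centIn)

/-! ### facts about `Co2` -/

theorem leechU_eq : Spor.leechU = t2 := by
  apply Subtype.ext
  funext k
  rw [t2_apply]
  show Spor.vecU k = _
  revert k
  decide +kernel

theorem gpt23_none : gpt 23 = none := by decide +kernel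

/-- the inclusion of `Co2` in `Co0` -/
def co2in : Spor.Co2 →* Co0 where
  toFun g := ⟨g, g.2.1⟩
  map_one' := rfl
  map_mul' _ _ := rfl

theorem co2in_smul (g : Spor.Co2) (v : leechLattice) : co2in g • v = g • v := rfl

theorem co2in_inj : Function.Injective co2in := by
  intro g h hgh
  exact Subtype.ext (congrArg (fun x : Co0 => (x : Equiv.Perm leechLattice)) hgh)

theorem co2_fix (g : Spor.Co2) : g • Spor.leechU = Spor.leechU := g.2.2

/-- `Co2` as stabiliser -/
def co2Equiv : Spor.Co2 ≃* MulAction.stabilizer Co0 Spor.leechU where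
  toFun g := ⟨co2in g, g.2.2⟩
  invFun g := ⟨(g : Co0), ⟨(g : Co0).2, g.2⟩⟩
  left_inv _ := rfl
  right_inv _ := rfl
  map_mul' _ _ := rfl

theorem co2_isSimple : IsSimpleGroup Spor.Co2 := by
  have h := co2_simple
  rw [← leechU_eq] at h
  exact isSimple_congr co2Equiv

theorem co2_card : Nat.card Spor.Co2 = 42305421312000 := by
  rw [Nat.card_congr co2Equiv.toEquiv, leechU_eq, card_stab_t2]

theorem co2_not_solvable : ¬ Group.IsSolvable Spor.Co2 := by
  intro h
  have hs := co2_isSimple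
  have hc : ∀ a b : Spor.Co2, a * b = b * a := IsSimpleGroup.comm_iff_isSolvable.2 h
  let cg : CommGroup Spor.Co2 := { (inferInstance : Group Spor.Co2) with mul_comm := hc }
  have hp : (Nat.card Spor.Co2).Prime := @IsSimpleGroup.prime_card _ cg hs
  rw [co2_card] at hp
  norm_num at hp

theorem co2_cq {g h : Spor.Co2} (hgh : cq (co2in g) = cq (co2in h)) : g = h := by
  rw [cq_eq_iff] at hgh
  rcases hgh with h1 | h1
  · exact (co2in_inj h1).symm
  · exfalso
    have h2 : co2in h • Spor.leechU = Spor.leechU := co2_fix h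
    have h3 : co2in g • Spor.leechU = Spor.leechU := co2_fix g
    rw [h1, mul_smul, h3, negOne_smul] at h2
    apply neg_ne_self _ h2
    rw [leechU_eq]
    exact ne_zero_of_norm (n := 4) (pp_norm g23_ne_g0) (by norm_num)

theorem leechU_norm : bL Spor.leechU Spor.leechU = 4 := by
  rw [leechU_eq]; exact pp_norm g23_ne_g0

theorem co2_range : (CS Spor.leechU).map cq = (cq.comp co2in).range := by
  rw [← stHom_range (Or.inl leechU_norm)]
  ext x
  constructor
  · rintro ⟨g, rfl⟩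
    exact ⟨co2Equiv.symm g, rfl⟩
  · rintro ⟨g, rfl⟩
    exact ⟨co2Equiv g, rfl⟩

theorem mem_perp {x : leechLattice} : x ∈ leechPerpU ↔ (2 : ℤ) ∣ bL x Spor.leechU := by
  have h1 := bL_mul x Spor.leechU
  have h2 : dotInt (x : GolayPt → ℤ) (Spor.leechU : GolayPt → ℤ) = dotInt (x : GolayPt → ℤ) Spor.vecU :=
    rfl
  rw [h2] at h1
  show (16 : ℤ) ∣ dotInt (x : GolayPt → ℤ) Spor.vecU ↔ _
  omega

/-- an element of `Co2` acting non-trivially -/
theorem exists_moved : ∃ (g : Spor.Co2) (x : leechLattice), (2 : ℤ) ∣ bL x Spor.leechU ∧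
    ¬ LCong (g • x) x ∧ ¬ LCong (g • x) (x + Spor.leechU) := by
  obtain ⟨σ, hσ, h⟩ := M24_mapn (n := 4) (by norm_num) ![gpt 23, gpt 0, gpt 1, gpt 2]
    ![gpt 23, gpt 0, gpt 3, gpt 2] (by decide +kernel) (by decide +kernel)
  have e0 : σ (gpt 23) = gpt 23 := h 0
  have e1 : σ (gpt 0) = gpt 0 := h 1
  have e2 : σ (gpt 1) = gpt 3 := h 2
  have e3 : σ (gpt 2) = gpt 2 := h 3
  have n12 : gpt 1 ≠ gpt 2 := by decide +kernel
  have n13 : gpt 1 ≠ gpt 3 := by decide +kernel
  have n32 : gpt 3 ≠ gpt 2 := by decide +kernel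
  have n10 : gpt 1 ≠ gpt 0 := by decide +kernel
  have n20 : gpt 2 ≠ gpt 0 := by decide +kernel
  have n123 : gpt 1 ≠ gpt 23 := by decide +kernel
  have n223 : gpt 2 ≠ gpt 23 := by decide +kernel
  have hfix : pmEl σ hσ • Spor.leechU = Spor.leechU := by
    apply Subtype.ext
    funext k
    rw [pmEl_apply, leechU_eq, t2_apply, t2_apply]
    have h1 : σ⁻¹ k = gpt 23 ↔ k = gpt 23 := by rw [Equiv.Perm.inv_eq_iff_eq, e0]
    have h2 : σ⁻¹ k = gpt 0 ↔ k = gpt 0 := by rw [Equiv.Perm.inv_eq_iff_eq, e1]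
    simp only [h1, h2]
  have hx : bL (pp (gpt 1) (gpt 2)) Spor.leechU = 0 := by
    have h1 := two_bL_pp (pp (gpt 1) (gpt 2)) (gpt 23) (gpt 0)
    rw [pp_coe] at h1
    simp only [Pi.smul_apply, Pi.add_apply, smul_eq_mul, ind_single, if_neg n10.symm, if_neg n20.symm,
      if_neg n123.symm, if_neg n223.symm] at h1
    rw [leechU_eq]
    show bL _ (pp (gpt 23) (gpt 0)) = 0
    omega
  refine ⟨⟨(pmEl σ hσ : Equiv.Perm leechLattice), ⟨(pmEl σ hσ).2, hfix⟩⟩, pp (gpt 1) (gpt 2), ?_, ?_, ?_⟩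
  · rw [hx]; norm_num
  · intro hc
    have hc' : LCong (pmEl σ hσ • pp (gpt 1) (gpt 2)) (pp (gpt 1) (gpt 2)) := hc
    have hn : bL (pmEl σ hσ • pp (gpt 1) (gpt 2)) (pmEl σ hσ • pp (gpt 1) (gpt 2)) = 4 := by
      rw [co0_bL]; exact pp_norm n12
    have hev : (pmEl σ hσ • pp (gpt 1) (gpt 2) : leechLattice).1 (gpt 1) = 0 := by
      have h1 : (pmEl σ hσ • pp (gpt 1) (gpt 2) : leechLattice).1 (gpt 1) =
        (pp (gpt 1) (gpt 2)).1 (σ⁻¹ (gpt 1)) := rfl
      have h2 : σ⁻¹ (gpt 1) ≠ gpt 1 := by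
        intro h3; rw [Equiv.Perm.inv_eq_iff_eq, e2] at h3; exact n13 h3
      have h4 : σ⁻¹ (gpt 1) ≠ gpt 2 := by
        intro h3; rw [Equiv.Perm.inv_eq_iff_eq, e3] at h3; exact n12 h3
      rw [h1]
      show (4 : ℤ) * (ind {gpt 1} _ + ind {gpt 2} _) = 0
      rw [ind_single, ind_single, if_neg h2, if_neg h4]; norm_num
    have hev2 : (pp (gpt 1) (gpt 2)).1 (gpt 1) = 4 := by
      show (4 : ℤ) * (ind {gpt 1} _ + ind {gpt 2} _) = 4
      rw [ind_single, ind_single, if_pos rfl, if_neg n12]; norm_num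
    rcases short_cong' (by omega) (by rw [pp_norm n12]; norm_num) hc' with h1 | h1 | h1
    · rw [h1, hev2] at hev; norm_num at hev
    · rw [h1] at hev
      have h2 : (-(pp (gpt 1) (gpt 2)) : leechLattice).1 (gpt 1) = - (pp (gpt 1) (gpt 2)).1 (gpt 1) := rfl
      rw [h2, hev2] at hev; norm_num at hev
    · omega
  · intro hc
    have hc' : LCong (pmEl σ hσ • pp (gpt 1) (gpt 2)) (pp (gpt 1) (gpt 2) + Spor.leechU) := hc
    have hn : bL (pmEl σ hσ • pp (gpt 1) (gpt 2)) (pmEl σ hσ • pp (gpt 1) (gpt 2)) = 4 := by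
      rw [co0_bL]; exact pp_norm n12
    have hn2 : bL (pp (gpt 1) (gpt 2) + Spor.leechU) (pp (gpt 1) (gpt 2) + Spor.leechU) = 8 := by
      rw [bL_add, bL_add_right, bL_add_right, pp_norm n12, leechU_norm, bL_comm Spor.leechU, hx]
      norm_num
    rcases short_cong' (by omega) (by omega) hc' with h1 | h1 | h1
    · rw [h1] at hn; omega
    · rw [h1, bL_neg, bL_neg_right, neg_neg] at hn; omega
    · omega

namespace MI
variable {G : Type*} [Group G] {z : G} {P : Subgroup G}
    {θ : Subgroup.centralizer ({z} : Set G) →* Co1Q} {R : leechLattice → G → Prop}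

/-- twisting by an element of `Co0` -/
theorem twist (h : MI z P θ R) (g0 : Co0) :
    MI z P ((MulAut.conj (cq g0)⁻¹).toMonoidHom.comp θ) (fun v x => R (g0 • v) x) where
  xs := h.xs
  card := h.card
  conj := h.conj
  le := h.le
  surj := (MulAut.conj (cq g0)⁻¹).surjective.comp h.surj
  ker := by
    intro k
    rw [← h.ker]
    show (MulAut.conj (cq g0)⁻¹) (θ k) = 1 ↔ _
    rw [map_eq_one_iff _ (MulAut.conj (cq g0)⁻¹).injective]
  mem := fun h1 => h.mem h1
  ex := fun v => h.ex _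
  onto := by
    intro x hx
    obtain ⟨v, hv⟩ := h.onto x hx
    exact ⟨g0⁻¹ • v, by rwa [smul_inv_smul]⟩
  mul := by
    intro v w x y hx hy
    rw [co0_add]
    exact h.mul hx hy
  zero := by
    intro x
    rw [co0_zero]
    exact h.zero
  one_iff := by
    intro v
    rw [h.one_iff, ← lcong_smul_iff g0 (v := v) (w := 0), co0_zero]
  act := by
    intro k g v x hg hx
    have h1 : cq (g0 * g * g0⁻¹) = θ k := by
      have h2 : cq g = (cq g0)⁻¹ * θ k * ((cq g0)⁻¹)⁻¹ := hg
      rw [map_mul, map_mul, h2, map_inv]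
      group
    have h3 := h.act h1 hx
    have e : (g0 * g * g0⁻¹) • g0 • v = g0 • g • v := by
      rw [← mul_smul, ← mul_smul]
      congr 1
      group
    rwa [e] at h3

end MI

end Cfsg.Agent.H29
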