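import Cfsg.Agent.H29.Mon7

/-!
Groups of Monster type: the centralizer of an element of norm 4 is of Baby Monster type.
-/
set_option autoImplicit false

namespace Cfsg.Agent.H29
open Cfsg Cfsg.Agent.H7
open scoped Pointwise
open XS (centIn mem_centIn)

/-- homomorphism from a functional relation -/
theorem hom_of_rel {A B : Type*} [Group A] [Group B] (L : A → B → Prop) (tot : ∀ a, ∃ b, L a b)
    (func : ∀ a b b', L a b → L a b' → b = b')
    (mul : ∀ a a' b b', L a b → L a' b' → L (a * a') (b * b')) : ∃ f : A →* B, ∀ a, L a (f a) := by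
  choose f hf using tot
  exact ⟨MonoidHom.mk' f (fun a b => func _ _ _ (hf _) (mul _ _ _ _ (hf a) (hf b))), hf⟩

/-- double centralizer of an element of an extraspecial group -/
theorem XS.double_cent {G : Type*} [Group G] {P : Subgroup G} {z : G} (h : XS P z) {w t : G}
    (hw : w ∈ P) (ht : t ∈ P) (hc : ∀ y ∈ P, t * y = y * t → w * y = y * w) :
    w = 1 ∨ w = z ∨ w = t⁻¹ ∨ w = z * t⁻¹ := by
  by_cases h1 : ∀ y ∈ P, w * y = y * w
  · rcases h.cent w hw h1 with h2 | h2
    · exact Or.inl h2
    · exact Or.inr (Or.inl h2)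
  · push Not at h1
    obtain ⟨y0, hy0, hwy0⟩ := h1
    have hty0 : t * y0 ≠ y0 * t := fun h2 => hwy0 (hc y0 hy0 h2)
    have key : ∀ y ∈ P, (w * t) * y = y * (w * t) := by
      intro y hy
      by_cases h2 : t * y = y * t
      · have h3 := hc y hy h2
        calc (w * t) * y = w * (t * y) := by group
          _ = (w * y) * t := by rw [h2]; group
          _ = y * (w * t) := by rw [h3]; group
      · have h3 : t * (y * y0) = (y * y0) * t := h.comm_mul ht hy hy0 h2 hty0
        have h4 := hc _ (P.mul_mem hy hy0) h3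
        have h5 : w * y ≠ y * w := by
          intro h6
          apply hwy0
          have : w * y0 = y⁻¹ * (y * w) * y0 := by group
          rw [this, ← h6]
          calc y⁻¹ * (w * y) * y0 = y⁻¹ * (w * (y * y0)) := by group
            _ = y⁻¹ * ((y * y0) * w) := by rw [h4]
            _ = y0 * w := by group
        have h6 : w * y = z * (y * w) := (h.comm w hw y hy).resolve_left h5
        have h7 : t * y = z * (y * t) := (h.comm t ht y hy).resolve_left h2
        calc (w * t) * y = w * (t * y) := by group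
          _ = w * (z * (y * t)) := by rw [h7]
          _ = (w * z) * y * t := by group
          _ = z * (w * y) * t := by rw [h.z_comm w hw]; group
          _ = z * (z * (y * w)) * t := by rw [h6]
          _ = (z * z) * (y * (w * t)) := by group
          _ = y * (w * t) := by rw [h.z_sq, one_mul]
    rcases h.cent (w * t) (P.mul_mem hw ht) key with h2 | h2
    · right; right; left
      exact eq_inv_of_mul_eq_one_left h2
    · right; right; right
      exact eq_mul_inv_of_mul_eq h2

/-- the section of an extraspecial group attached to a noncentral involution -/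
theorem xs_quot {G C' : Type*} [Group G] [Finite G] [Group C'] {P : Subgroup G}
    {z t : G} (h : XS P z) (htP : t ∈ P) (htt : t * t = 1) (ht1 : t ≠ 1) (htz : t ≠ z)
    (h8 : 8 < Nat.card P)
    (W : Subgroup G) (hW : ∀ x, x ∈ W ↔ x * z = z * x ∧ x * t = t * x)
    (φ : W →* C') (hφ : ∀ a b : W, φ a = φ b ↔ (b : G) = a ∨ (b : G) = a * t)
    (K : Subgroup C') (hK : ∀ x, x ∈ K ↔ ∃ w : W, (w : G) ∈ P ∧ φ w = x)
    (zW : W) (hzW : (zW : G) = z) : XS K (φ zW) ∧ 4 * Nat.card K = Nat.card P := by
  have hinv : t⁻¹ = t := by rw [inv_eq_iff_mul_eq_one]; exact htt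
  set A : Subgroup G := P ⊓ Subgroup.centralizer ({t} : Set G) with hA
  have hmA : ∀ x, x ∈ A ↔ x ∈ P ∧ x * t = t * x := by
    intro x
    rw [hA, Subgroup.mem_inf, Subgroup.mem_centralizer_singleton_iff]
  have hAW : A ≤ W := by
    intro x hx
    rw [hmA] at hx
    exact (hW x).2 ⟨h.z_comm x hx.1, hx.2⟩
  have hcardA : 2 * Nat.card A = Nat.card P := h.card_cent_elem htP ht1 htz
  -- `φ w` commutes with `φ w'` only when the elements do
  have hcm : ∀ a b : W, (a : G) ∈ P → (b : G) ∈ P → φ a * φ b = φ b * φ a → (a : G) * b = b * a := by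
    intro a b ha hb hab
    rcases h.comm a ha b hb with h1 | h1
    · exact h1
    · exfalso
      rw [← map_mul, ← map_mul, hφ] at hab
      have h2 : (b : G) * a = a * b ∨ (b : G) * a = a * b * t := hab
      rcases h2 with h2 | h2
      · apply h.z_ne
        rw [h2] at h1
        exact (mul_eq_right.1 h1.symm)
      · apply htz
        rw [h2] at h1
        have hc : (a : G) * b * t = t * (a * b) := by
          have h3 := ((hW a).1 a.2).2
          have h4 := ((hW b).1 b.2).2
          rw [mul_assoc, h4, ← mul_assoc, h3, mul_assoc]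
        rw [hc, ← mul_assoc] at h1
        have h5 : z * t = 1 := mul_eq_right.1 h1.symm
        have h6 : z = t⁻¹ := eq_inv_of_mul_eq_one_left h5
        rw [h6, hinv]
  refine ⟨XS.mk' ?_ ?_ ?_ ?_ ?_ ?_ ?_ ?_ ?_, ?_⟩
  · rintro ⟨x, hx⟩
    obtain ⟨w, hw, rfl⟩ := (hK _).1 hx
    obtain ⟨k, hk⟩ := h.hp ⟨w, hw⟩
    refine ⟨k, ?_⟩
    apply Subtype.ext
    show (φ w) ^ 2 ^ k = 1
    rw [← map_pow]
    have : w ^ 2 ^ k = 1 := by
      apply Subtype.ext
      have h9 := congrArg Subtype.val hk
      rw [Subgroup.coe_pow] at h9 ⊢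
      exact h9
    rw [this, map_one]
  · intro h1
    rw [← map_one φ, hφ] at h1
    rw [hzW] at h1
    rcases h1 with h1 | h1
    · exact h.z_ne h1.symm
    · apply htz
      have h2 : z = t⁻¹ := eq_inv_of_mul_eq_one_left h1.symm
      rw [h2, hinv]
  · rw [← map_mul, ← map_one φ]
    congr 1
    apply Subtype.ext
    show (zW : G) * zW = 1
    rw [hzW, h.z_sq]
  · rw [hK]
    exact ⟨zW, by rw [hzW]; exact h.z_mem, rfl⟩
  · rintro _ hx
    obtain ⟨w, hw, rfl⟩ := (hK _).1 hx
    rw [← map_mul, ← map_mul]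
    congr 1
    apply Subtype.ext
    show (w : G) * zW = zW * w
    rw [hzW, ((hW w).1 w.2).1]
  · rintro _ hx hy
    obtain ⟨w, hw, rfl⟩ := (hK _).1 hx
    have h1 := h.double_cent hw htP (by
      intro y hy' hty
      have hyW : y ∈ W := (hW y).2 ⟨h.z_comm y hy', hty.symm⟩
      exact hcm w ⟨y, hyW⟩ hw hy' (hy _ ((hK _).2 ⟨⟨y, hyW⟩, hy', rfl⟩)))
    rw [hinv] at h1
    rcases h1 with h1 | h1 | h1 | h1
    · left
      rw [← map_one φ]
      congr 1
      exact Subtype.ext h1
    · right
      congr 1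
      apply Subtype.ext
      rw [h1, hzW]
    · left
      rw [← map_one φ, eq_comm, hφ]
      right
      rw [h1]; simp
    · right
      rw [eq_comm, hφ, hzW]
      right
      exact h1
  · intro x hx y hy
    obtain ⟨a, ha, rfl⟩ := (hK _).1 hx
    obtain ⟨b, hb, rfl⟩ := (hK _).1 hy
    rcases h.comm a ha b hb with h1 | h1
    · left
      rw [← map_mul, ← map_mul]
      congr 1
      exact Subtype.ext h1
    · right
      rw [← map_mul, ← map_mul, ← map_mul]
      congr 1
      apply Subtype.ext
      show (a : G) * b = zW * (b * a)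
      rw [hzW, h1]
  · intro x hx
    obtain ⟨a, ha, rfl⟩ := (hK _).1 hx
    rcases h.sq a ha with h1 | h1
    · left
      rw [← map_mul, ← map_one φ]
      congr 1
      exact Subtype.ext h1
    · right
      rw [← map_mul]
      congr 1
      apply Subtype.ext
      show (a : G) * a = zW
      rw [hzW, h1]
  · by_contra hne
    push Not at hne
    have h1 := isSelfCent h (E := A) inf_le_left ((hmA z).2 ⟨h.z_mem, (h.z_comm t htP).symm⟩)
      (by
        intro x hx y hy
        exact hcm ⟨x, hAW hx⟩ ⟨y, hAW hy⟩ ((hmA x).1 hx).1 ((hmA y).1 hy).1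
          (hne _ ((hK _).2 ⟨_, ((hmA x).1 hx).1, rfl⟩) _ ((hK _).2 ⟨_, ((hmA y).1 hy).1, rfl⟩)))
    rw [← hcardA] at h1 h8
    have h2 : Nat.card A * Nat.card A ≤ 4 * Nat.card A := by linarith
    have h3 : Nat.card A ≤ 4 := Nat.le_of_mul_le_mul_right h2 Nat.card_pos
    omega
  · -- the order
    set f : A →* C' := φ.comp (Subgroup.inclusion hAW) with hf
    have h1 : Nat.card A = Nat.card f.ker * Nat.card f.range := by
      rw [← Subgroup.index_ker]
      exact (Subgroup.card_mul_index f.ker).symm
    have h2 : f.range = K := by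
      ext x
      rw [hK]
      constructor
      · rintro ⟨w, rfl⟩
        exact ⟨Subgroup.inclusion hAW w, ((hmA _).1 w.2).1, rfl⟩
      · rintro ⟨w, hw, rfl⟩
        exact ⟨⟨w, (hmA _).2 ⟨hw, ((hW w).1 w.2).2⟩⟩, rfl⟩
    have h3 : f.ker.map A.subtype = Subgroup.zpowers t := by
      ext x
      rw [mem_zpowers_of_sq htt]
      constructor
      · rintro ⟨w, hw, rfl⟩
        have h4 : φ 1 = φ (Subgroup.inclusion hAW w) := by
          rw [map_one]; exact hw.symm
        rw [hφ] at h4
        rcases h4 with h4 | h4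
        · left; exact h4
        · right
          have h5 : (w : G) = 1 * t := h4
          rw [one_mul] at h5
          exact h5
      · intro hx
        have hxA : x ∈ A := by
          rw [hmA]
          rcases hx with rfl | rfl
          · exact ⟨one_mem _, by simp⟩
          · exact ⟨htP, rfl⟩
        refine ⟨⟨x, hxA⟩, ?_, rfl⟩
        show φ _ = 1
        rw [← map_one φ, eq_comm, hφ]
        rcases hx with hx | hx
        · left; exact hx
        · right
          show x = 1 * t
          rw [one_mul]; exact hx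
    have h4 : Nat.card f.ker = 2 := by
      rw [Nat.card_congr (Subgroup.equivMapOfInjective f.ker A.subtype
        (Subgroup.subtype_injective A)).toEquiv, h3, Nat.card_zpowers]
      exact orderOf_eq_prime (by rw [pow_two]; exact htt) ht1
    rw [h4, h2] at h1
    omega


theorem baby_abs {G D : Type*} [Group G] [Finite G] [Group D] [Finite D] {z : G} {P : Subgroup G}
    {θ : Subgroup.centralizer ({z} : Set G) →* Co1Q} {R : leechLattice → G → Prop}
    (h : MI z P θ R) {g s : G} (hg : g * z * g⁻¹ = s) (hs : s ∈ P) (hsz : s ≠ z) {t : G}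
    (ht : R Spor.leechU t) (z' : D)
    (W : Subgroup G) (hW : ∀ x, x ∈ W ↔ x * z = z * x ∧ x * t = t * x)
    (φ : W →* Subgroup.centralizer ({z'} : Set D)) (hφs : Function.Surjective φ)
    (hφ : ∀ a b : W, φ a = φ b ↔ (b : G) = a ∨ (b : G) = a * t)
    (zW tW : W) (hzW : (zW : G) = z) (htW : (tW : G) = t) (hz' : (φ zW : D) = z')
    (g' : D) (w0 : W) (hw0 : (w0 : G) ∈ P) (hg' : g' * z' * g'⁻¹ = φ w0) (hne : g' * z' * g'⁻¹ ≠ z') :
    IsOfBabyMonsterType D := by
  have htP := h.mem ht
  have htt : t * t = 1 := by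
    rw [h.sq_iff hg hs hsz ht, leechU_norm]
  have ht1 := h.short_ne ht (Or.inl leechU_norm)
  have hWC : ∀ w : W, (w : G) ∈ Subgroup.centralizer ({z} : Set G) := by
    intro w
    rw [Subgroup.mem_centralizer_singleton_iff]
    exact ((hW w).1 w.2).1
  let ι : W →* Subgroup.centralizer ({z} : Set G) := Subgroup.inclusion (fun x hx => hWC ⟨x, hx⟩)
  have hrange : (ι.range).map θ = (CS Spor.leechU).map cq := by
    rw [← h.image_cent ht (Or.inl leechU_norm)]
    congr 1
    ext x
    constructor
    · rintro ⟨w, rfl⟩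
      refine ⟨hWC w, ?_⟩
      show (w : G) ∈ Subgroup.centralizer ({t} : Set G)
      rw [Subgroup.mem_centralizer_singleton_iff]
      exact ((hW w).1 w.2).2
    · rintro ⟨h1, h2⟩
      have h1' : (x : G) ∈ Subgroup.centralizer ({z} : Set G) := h1
      have h2' : (x : G) ∈ Subgroup.centralizer ({t} : Set G) := h2
      rw [Subgroup.mem_centralizer_singleton_iff] at h1' h2'
      exact ⟨⟨x, (hW x).2 ⟨h1', h2'⟩⟩, rfl⟩
  -- the homomorphism onto `Co2`
  obtain ⟨Λ, hΛ⟩ := hom_of_rel (A := W) (B := Spor.Co2) (fun w g => cq (co2in g) = θ (ι w))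
    (by
      intro w
      have h1 : θ (ι w) ∈ (CS Spor.leechU).map cq := by
        rw [← hrange]; exact ⟨_, ⟨w, rfl⟩, rfl⟩
      rw [co2_range] at h1
      obtain ⟨g, hg⟩ := h1
      exact ⟨g, hg⟩)
    (by
      intro w g g' h1 h2
      exact co2_cq (h1.trans h2.symm))
    (by
      intro w w' g g' h1 h2
      show cq (co2in (g * g')) = θ (ι (w * w'))
      rw [map_mul, map_mul, map_mul, map_mul, h1, h2])
  have hΛs : Function.Surjective Λ := by
    intro g
    have h1 : cq (co2in g) ∈ (CS Spor.leechU).map cq := by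
      rw [co2_range]; exact ⟨g, rfl⟩
    rw [← hrange] at h1
    obtain ⟨_, ⟨w, rfl⟩, hw⟩ := h1
    exact ⟨w, co2_cq ((hΛ w).trans hw)⟩
  have hΛk : ∀ w, Λ w = 1 ↔ (w : G) ∈ P := by
    intro w
    have h0 : (w : G) = (ι w : G) := rfl
    rw [h0, ← h.ker (ι w)]
    constructor
    · intro h1
      have h2 := hΛ w
      rw [h1, map_one, map_one] at h2
      exact h2.symm
    · intro h1
      apply co2_cq
      rw [hΛ w, h1, map_one, map_one]
  -- the homomorphism on the centralizer
  obtain ⟨Λ', hΛ'⟩ := hom_of_rel (A := Subgroup.centralizer ({z'} : Set D)) (B := Spor.Co2)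
    (fun x g => ∃ w : W, φ w = x ∧ Λ w = g)
    (by
      intro x
      obtain ⟨w, hw⟩ := hφs x
      exact ⟨Λ w, w, hw, rfl⟩)
    (by
      rintro x _ _ ⟨w, hw, rfl⟩ ⟨w', hw', rfl⟩
      have h1 : Λ (w⁻¹ * w') = 1 := by
        rw [hΛk]
        rcases (hφ w w').1 (hw.trans hw'.symm) with h2 | h2
        · have : ((w⁻¹ * w' : W) : G) = 1 := by
            show (w : G)⁻¹ * (w' : G) = 1
            rw [h2]; group
          rw [this]; exact one_mem _
        · have : ((w⁻¹ * w' : W) : G) = t := by
            show (w : G)⁻¹ * (w' : G) = t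
            rw [h2]; group
          rw [this]; exact htP
      rw [map_mul, map_inv] at h1
      exact (inv_mul_eq_one.1 h1))
    (by
      rintro _ _ _ _ ⟨w, rfl, rfl⟩ ⟨w', rfl, rfl⟩
      exact ⟨w * w', map_mul _ _ _, map_mul _ _ _⟩)
  have hΛφ : ∀ w, Λ' (φ w) = Λ w := by
    intro w
    obtain ⟨w', h1, h2⟩ := hΛ' (φ w)
    rw [← h2]
    have h3 : Λ (w'⁻¹ * w) = 1 := by
      rw [hΛk]
      rcases (hφ w' w).1 h1 with h4 | h4
      · have : ((w'⁻¹ * w : W) : G) = 1 := by
          show (w' : G)⁻¹ * (w : G) = 1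
          rw [h4]; group
        rw [this]; exact one_mem _
      · have : ((w'⁻¹ * w : W) : G) = t := by
          show (w' : G)⁻¹ * (w : G) = t
          rw [h4]; group
        rw [this]; exact htP
    rw [map_mul, map_inv] at h3
    exact (inv_mul_eq_one.1 h3)
  have hΛ's : Function.Surjective Λ' := by
    intro g
    obtain ⟨w, hw⟩ := hΛs g
    exact ⟨φ w, by rw [hΛφ, hw]⟩
  have hmem : ∀ x, x ∈ Λ'.ker ↔ ∃ w : W, (w : G) ∈ P ∧ φ w = x := by
    intro x
    rw [MonoidHom.mem_ker]
    constructor
    · intro h1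
      obtain ⟨w, rfl⟩ := hφs x
      rw [hΛφ, hΛk] at h1
      exact ⟨w, h1, rfl⟩
    · rintro ⟨w, hw, rfl⟩
      rw [hΛφ, hΛk]; exact hw
  obtain ⟨hX, hcard⟩ := xs_quot h.xs htP htt ht1.1 ht1.2 (by rw [h.card]; norm_num) W hW φ hφ
    Λ'.ker hmem zW hzW
  -- the map on vectors
  have hWP : ∀ y ∈ P, y * t = t * y → ∃ w : W, (w : G) = y := by
    intro y hy hyt
    exact ⟨⟨y, (hW y).2 ⟨h.xs.z_comm y hy, hyt⟩⟩, rfl⟩
  have hψ : ∀ x : leechPerpU, ∃ q : Λ'.ker, ∃ w : W, R (x : leechLattice) w ∧
      (q : Subgroup.centralizer ({z'} : Set D)) = φ w := by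
    intro x
    obtain ⟨y, hy⟩ := h.ex (x : leechLattice)
    have h1 : y * t = t * y := by
      rw [h.comm_iff hg hs hsz hy ht]
      exact mem_perp.1 x.2
    obtain ⟨w, hw⟩ := hWP y (h.mem hy) h1
    exact ⟨⟨φ w, (hmem _).2 ⟨w, by rw [hw]; exact h.mem hy, rfl⟩⟩, w, by rw [hw]; exact hy, rfl⟩
  have hcen : ∀ q : Λ'.ker, (QuotientGroup.mk q : Λ'.ker ⧸ Subgroup.center Λ'.ker) = 1 ↔
      (q : Subgroup.centralizer ({z'} : Set D)) = 1 ∨
      (q : Subgroup.centralizer ({z'} : Set D)) = φ zW := by
    intro q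
    rw [QuotientGroup.eq_one_iff, ← mem_zpowers_of_sq hX.z_sq, ← hX.center_eq]
    constructor
    · intro h1; exact ⟨q, h1, rfl⟩
    · rintro ⟨r, hr, hqr⟩
      have : r = q := Subtype.ext hqr
      rw [← this]; exact hr
  have hmk : ∀ q q' : Λ'.ker, (QuotientGroup.mk q : Λ'.ker ⧸ Subgroup.center Λ'.ker) =
      QuotientGroup.mk q' ↔ (q' : Subgroup.centralizer ({z'} : Set D)) = q ∨
      (q' : Subgroup.centralizer ({z'} : Set D)) = q * φ zW := by
    intro q q'
    have h1 : (QuotientGroup.mk q : Λ'.ker ⧸ Subgroup.center Λ'.ker) = QuotientGroup.mk q' ↔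
        (QuotientGroup.mk (q⁻¹ * q') : Λ'.ker ⧸ Subgroup.center Λ'.ker) = 1 := by
      rw [QuotientGroup.eq, QuotientGroup.eq_one_iff]
    rw [h1, hcen]
    have e : ((q⁻¹ * q' : Λ'.ker) : Subgroup.centralizer ({z'} : Set D)) =
      (q : Subgroup.centralizer ({z'} : Set D))⁻¹ * q' := rfl
    rw [e, inv_mul_eq_iff_eq_mul, inv_mul_eq_iff_eq_mul, mul_one]
  choose qf wf hwf hqf using hψ
  -- relation between the map and the elements
  have hψ1 : ∀ (x : leechPerpU) (w : W) (q : Λ'.ker), R (x : leechLattice) w →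
      (q : Subgroup.centralizer ({z'} : Set D)) = φ w →
      (QuotientGroup.mk (qf x) : Λ'.ker ⧸ Subgroup.center Λ'.ker) = QuotientGroup.mk q := by
    intro x w q hw hq
    rw [hmk, hqf x, hq]
    rcases h.R_unique (hwf x) hw with h1 | h1
    · left
      congr 1
      exact Subtype.ext h1
    · right
      rw [← map_mul]
      congr 1
      apply Subtype.ext
      show (w : G) = (wf x : G) * zW
      rw [h1, hzW]
  have hψ2 : ∀ (x : leechPerpU) (q : Λ'.ker),
      (QuotientGroup.mk (qf x) : Λ'.ker ⧸ Subgroup.center Λ'.ker) = QuotientGroup.mk q →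
      ∃ w : W, R (x : leechLattice) w ∧ (q : Subgroup.centralizer ({z'} : Set D)) = φ w := by
    intro x q hq
    rw [hmk, hqf x] at hq
    rcases hq with hq | hq
    · exact ⟨_, hwf x, hq⟩
    · refine ⟨wf x * zW, ?_, by rw [hq, map_mul]⟩
      show R (x : leechLattice) ((wf x : G) * zW)
      rw [hzW]
      exact h.R_mul_z (hwf x)
  have hmodule : IsLeechPerpModTwoIso Λ'.ker (QuotientGroup.quotientKerEquivOfSurjective Λ' hΛ's)
      (fun x => QuotientGroup.mk (qf x)) := by
    refine ⟨?_, ?_, ?_, ?_⟩
    · intro x y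
      show (QuotientGroup.mk (qf (x + y)) : Λ'.ker ⧸ Subgroup.center Λ'.ker) =
        QuotientGroup.mk (qf x) * QuotientGroup.mk (qf y)
      rw [← QuotientGroup.mk_mul]
      refine hψ1 (x + y) (wf x * wf y) _ (h.mul (hwf x) (hwf y)) ?_
      show (qf x : Subgroup.centralizer ({z'} : Set D)) * (qf y) = φ (wf x * wf y)
      rw [hqf, hqf, map_mul]
    · intro Y
      obtain ⟨q, rfl⟩ := QuotientGroup.mk_surjective Y
      obtain ⟨w, hwP, hw⟩ := (hmem _).1 q.2
      obtain ⟨v, hv⟩ := h.onto w hwP
      have hvp : v ∈ leechPerpU := by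
        rw [mem_perp, ← h.comm_iff hg hs hsz hv ht]
        exact ((hW w).1 w.2).2
      exact ⟨⟨v, hvp⟩, hψ1 ⟨v, hvp⟩ w q hv hw.symm⟩
    · intro x
      have hA : (QuotientGroup.mk (qf x) : Λ'.ker ⧸ Subgroup.center Λ'.ker) = 1 ↔
          LCong (x : leechLattice) 0 ∨ LCong (x : leechLattice) Spor.leechU := by
        rw [hcen, hqf x]
        constructor
        · rintro (h1 | h1)
          · rw [← map_one φ, eq_comm, hφ] at h1
            rcases h1 with h1 | h1
            · left
              have h2 : (wf x : G) = 1 := h1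
              have h3 := hwf x
              rw [h2] at h3
              exact h.one_iff.1 h3
            · right
              have h2 : (wf x : G) = t := by
                have h3 : (wf x : G) = 1 * t := h1
                rw [h3, one_mul]
              have h3 := hwf x
              rw [h2] at h3
              exact h.R_cong h3 ht
          · rw [eq_comm, hφ] at h1
            rcases h1 with h1 | h1
            · left
              have h3 := hwf x
              rw [h1, hzW] at h3
              exact h.R_cong h3 (h.zero.2 (Or.inr rfl))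
            · right
              have h3 := hwf x
              rw [h1, hzW, ← h.xs.z_comm t htP] at h3
              exact h.R_cong h3 (h.R_mul_z ht)
        · rintro (h1 | h1)
          · have h2 := h.R_of_cong (hwf x) h1
            rcases h.zero.1 h2 with h3 | h3
            · left
              rw [← map_one φ]
              congr 1
              exact Subtype.ext h3
            · right
              congr 1
              exact Subtype.ext (h3.trans hzW.symm)
          · have h2 := h.R_of_cong (hwf x) h1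
            rcases h.R_unique ht h2 with h3 | h3
            · left
              rw [← map_one φ, eq_comm, hφ]
              right
              show (wf x : G) = 1 * t
              rw [one_mul]; exact h3
            · right
              rw [eq_comm, hφ]
              right
              rw [h3, hzW, h.xs.z_comm t htP]
      rw [hA]
      constructor
      · rintro (⟨w, hw⟩ | ⟨w, hw⟩)
        · left; exact ⟨w, by rw [← hw, sub_zero]⟩
        · right; exact ⟨w, by rw [← hw]; abel⟩
      · rintro (⟨w, hw⟩ | ⟨w, hw⟩)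
        · left; exact ⟨w, by rw [sub_zero]; exact hw⟩
        · right; exact ⟨w, by rw [hw]; abel⟩
    · intro a g hag x y hxy q hq
      obtain ⟨w, hw, hqw⟩ := hψ2 x q hq
      obtain ⟨b, rfl⟩ := hφs a
      have hg2 : Λ b = g := by
        rw [← hΛφ]; exact hag
      have hact := h.act (h := ι b) (g := co2in g) (by rw [← hg2]; exact hΛ b) hw
      have hact2 : R (y : leechLattice) ((b * w * b⁻¹ : W) : G) := by
        rw [← hxy]; exact hact
      apply hψ1 y _ _ hact2
      show φ b * (q : Subgroup.centralizer ({z'} : Set D)) * (φ b)⁻¹ = _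
      rw [hqw, map_mul, map_mul, map_inv]
  -- the centralizer of the extraspecial group
  have hsimple := co2_isSimple
  have hC : Subgroup.centralizer (Λ'.ker : Set (Subgroup.centralizer ({z'} : Set D))) ≤ Λ'.ker := by
    have hn : (Subgroup.centralizer (Λ'.ker : Set (Subgroup.centralizer ({z'} : Set D)))).Normal :=
      inferInstance
    rcases (hn.map Λ' hΛ's).eq_bot_or_eq_top with h1 | h1
    · rwa [Subgroup.map_eq_bot_iff] at h1
    · exfalso
      obtain ⟨g2, x, hx, hx1, hx2⟩ := exists_moved
      have h2 : g2 ∈ (Subgroup.centralizer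
          (Λ'.ker : Set (Subgroup.centralizer ({z'} : Set D)))).map Λ' := by
        rw [h1]; trivial
      obtain ⟨c, hc, hcg⟩ := h2
      obtain ⟨b, rfl⟩ := hφs c
      have hcg' : Λ b = g2 := by rw [← hΛφ]; exact hcg
      obtain ⟨y, hy⟩ := h.ex x
      have hyt : y * t = t * y := by
        rw [h.comm_iff hg hs hsz hy ht]; exact hx
      obtain ⟨w, hw⟩ := hWP y (h.mem hy) hyt
      have h3 : φ w * φ b = φ b * φ w :=
        Subgroup.mem_centralizer_iff.1 hc _ ((hmem _).2 ⟨w, by rw [hw]; exact h.mem hy, rfl⟩)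
      rw [← hw] at hy
      have hact := h.act (h := ι b) (g := co2in g2) (by rw [← hcg']; exact hΛ b) hy
      have h4 : φ w = φ (b * w * b⁻¹) := by
        rw [map_mul, map_mul, map_inv, ← h3]; group
      rw [hφ] at h4
      have e : ((b * w * b⁻¹ : W) : G) = ((ι b : Subgroup.centralizer ({z} : Set G)) : G) * w *
          ((ι b : Subgroup.centralizer ({z} : Set G)) : G)⁻¹ := rfl
      rw [← e] at hact
      rcases h4 with h4 | h4
      · rw [h4] at hact
        exact hx1 (h.R_cong hact hy)
      · rw [h4] at hact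
        exact hx2 (h.R_cong hact (h.mul hy ht))
  have hF := fstar_eq Λ' hΛ's hX.hp co2_not_solvable hC
  refine ⟨z', Λ'.ker, inferInstance, ⟨?_, hF, hX.isExtraspecial, ?_, g', ⟨?_, ?_⟩, hne⟩,
    QuotientGroup.quotientKerEquivOfSurjective Λ' hΛ's, _, hmodule⟩
  · apply orderOf_eq_prime
    · rw [pow_two, ← hz']
      exact congrArg Subtype.val hX.z_sq
    · intro h1
      apply hX.z_ne
      apply Subtype.ext
      rw [hz', h1]; rfl
  · rw [h.card] at hcard
    have : (2 : ℕ) ^ 25 = 4 * 2 ^ (2 * 11 + 1) := by norm_num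
    rw [this] at hcard
    exact Nat.eq_of_mul_eq_mul_left (by norm_num) hcard
  · rw [hg']; exact (φ w0).2
  · rw [hmem]
    exact ⟨w0, hw0, Subtype.ext hg'.symm⟩

end Cfsg.Agent.H29
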