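import Cfsg.Agent.H29.Trans4

/-!
The permutation representation of a set stabiliser on the set.
-/
set_option autoImplicit false
open scoped Pointwise
open Cfsg

namespace Cfsg.Agent.H29
open Cfsg.Agent.H7

section
variable {G β : Type*} [Group G] [MulAction G β] [DecidableEq β]

/-- action on the members of a stabilised finite set -/
def permOn (S : Finset β) : MulAction.stabilizer G S →* Equiv.Perm ↥S where
  toFun g :=
    { toFun := fun t => ⟨(g : G) • (t : β), by
        have h : (g : G) • S = S := g.2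
        have h2 := Finset.smul_mem_smul_finset (a := (g : G)) t.2
        rwa [h] at h2⟩
      invFun := fun t => ⟨(g : G)⁻¹ • (t : β), by
        have h : (g : G)⁻¹ • S = S := (g⁻¹).2
        have h2 := Finset.smul_mem_smul_finset (a := (g : G)⁻¹) t.2
        rwa [h] at h2⟩
      left_inv := fun t => Subtype.ext (inv_smul_smul _ _)
      right_inv := fun t => Subtype.ext (smul_inv_smul _ _) }
  map_one' := Equiv.ext fun t => Subtype.ext (one_smul _ _)
  map_mul' g h := Equiv.ext fun t => Subtype.ext (mul_smul _ _ _)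

theorem permOn_apply (S : Finset β) (g : MulAction.stabilizer G S) (t : ↥S) : ((permOn S g t : ↥S) : β) = (g : G) • (t : β) := rfl

theorem mem_ker_permOn {S : Finset β} {g : MulAction.stabilizer G S} : g ∈ (permOn S).ker ↔ ∀ t ∈ S, (g : G) • t = t := by
  rw [MonoidHom.mem_ker]
  constructor
  · intro h t ht
    have := congrArg (fun e : Equiv.Perm ↥S => ((e ⟨t, ht⟩ : ↥S) : β)) h
    exact this
  · intro h
    exact Equiv.ext fun t => Subtype.ext (h t t.2)

theorem permOn_surj [Finite G] {S : Finset β} {k : ℕ} (hk : Nat.card (permOn (G := G) S).ker = k)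
    (hc : Nat.card (MulAction.stabilizer G S) = k * (S.card).factorial) : Function.Surjective (permOn (G := G) S) := by
  have h1 := Subgroup.card_eq_card_quotient_mul_card_subgroup (permOn (G := G) S).ker
  have h2 : Nat.card (MulAction.stabilizer G S ⧸ (permOn (G := G) S).ker) = Nat.card (permOn (G := G) S).range :=
    Nat.card_congr (QuotientGroup.quotientKerEquivRange (permOn (G := G) S)).toEquiv
  have hk0 : 0 < k := by rw [← hk]; exact Nat.card_pos
  rw [h2, hk, hc, mul_comm] at h1
  have h3 : Nat.card (permOn (G := G) S).range = (S.card).factorial := (Nat.eq_of_mul_eq_mul_right hk0 h1).symm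
  have h4 : Nat.card (Equiv.Perm ↥S) = (S.card).factorial := by
    classical
    rw [Nat.card_eq_fintype_card, Fintype.card_perm, Fintype.card_coe]
  have h5 : (permOn (G := G) S).range = ⊤ := Subgroup.eq_top_of_card_eq _ (by rw [h3, h4])
  exact MonoidHom.range_eq_top.1 h5

end

/-- elements of a group given by a list inside a conjugate-invariant description -/
theorem fix_conj_card {S S0 : Finset (Finset GolayPt)} (h : ∃ σ ∈ M24, σ • S0 = S) :
    {σ | σ ∈ M24 ∧ ∀ t ∈ S, σ • t = t}.ncard = {σ | σ ∈ M24 ∧ ∀ t ∈ S0, σ • t = t}.ncard := by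
  obtain ⟨g, hg, rfl⟩ := h
  have e : {σ | σ ∈ M24 ∧ ∀ t ∈ g • S0, σ • t = t} = (fun σ => g * σ * g⁻¹) '' {σ | σ ∈ M24 ∧ ∀ t ∈ S0, σ • t = t} := by
    ext σ
    constructor
    · rintro ⟨h1, h2⟩
      refine ⟨g⁻¹ * σ * g, ⟨M24.mul_mem (M24.mul_mem (M24.inv_mem hg) h1) hg, fun t ht => ?_⟩, by group⟩
      rw [mul_smul, mul_smul, h2 _ (Finset.smul_mem_smul_finset ht), inv_smul_smul]
    · rintro ⟨τ, ⟨h1, h2⟩, rfl⟩
      refine ⟨M24.mul_mem (M24.mul_mem hg h1) (M24.inv_mem hg), fun t ht => ?_⟩
      obtain ⟨s, hs, rfl⟩ := Finset.mem_smul_finset.1 ht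
      show (g * τ * g⁻¹) • (g • s) = g • s
      rw [mul_smul, inv_smul_smul, mul_smul, h2 s hs]
  rw [e, Set.ncard_image_of_injective]
  intro a b hab
  exact mul_left_cancel (mul_right_cancel hab)

theorem card_ker_permOn (S : Finset (Finset GolayPt)) :
    Nat.card (permOn (G := ↥M24) S).ker = {σ | σ ∈ M24 ∧ ∀ t ∈ S, σ • t = t}.ncard := by
  rw [← Nat.card_coe_set_eq]
  refine Nat.card_congr ⟨fun g => ⟨((g : MulAction.stabilizer ↥M24 S) : ↥M24), ((g : MulAction.stabilizer ↥M24 S) : ↥M24).2, mem_ker_permOn.1 g.2⟩,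
    fun s => ⟨⟨⟨s.1, s.2.1⟩, ?_⟩, ?_⟩, fun _ => rfl, fun _ => rfl⟩
  · rw [MulAction.mem_stabilizer_iff]
    apply Finset.eq_of_subset_of_card_le
    · intro t ht
      obtain ⟨u, hu, rfl⟩ := Finset.mem_smul_finset.1 ht
      show (s.1 : Equiv.Perm GolayPt) • u ∈ S
      rw [s.2.2 u hu]; exact hu
    · rw [Finset.card_smul_finset]
  · exact mem_ker_permOn.2 s.2.2

end Cfsg.Agent.H29
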