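import Cfsg.Agent.H18.PSU3a
import Cfsg.Agent.H29.IdxFifty

/-!
# `SU₃(5)`: the stabilizer of an isotropic vector, and the index of proper subgroups of `PSU₃(5)` (helper29)
-/

set_option autoImplicit false
set_option linter.style.haveILetI false
set_option linter.unusedSectionVars false
set_option linter.unusedSimpArgs false

namespace Cfsg.Agent.H29.PsuFive

open Matrix Cfsg Cfsg.Agent.H5 Cfsg.Agent.H5.FormData Cfsg.Agent.H18

variable {F : Type*} [Field F] {σ : F →+* F}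

local notation "h⟪" x ", " y "⟫" => hB (Fin 3) σ x y

/-- the action on vectors -/
@[reducible] def act : MulAction (SU 3 F 5) (Fin 3 → F) where
  smul g x := sv g x
  one_smul x := sv_one x
  mul_smul a b x := sv_mul a b x

/-- the stabilizer of a vector -/
def Pv (v : Fin 3 → F) : Subgroup (SU 3 F 5) where
  carrier := {g | sv g v = v}
  one_mem' := sv_one v
  mul_mem' := by
    intro a b ha hb
    change sv (a * b) v = v
    rw [sv_mul, hb, ha]
  inv_mem' := by
    intro a ha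
    change sv a⁻¹ v = v
    have : sv a v = v := ha
    conv_lhs => rw [← this]
    exact sv_inv a v

theorem mem_Pv {v : Fin 3 → F} {g : SU 3 F 5} : g ∈ Pv v ↔ sv g v = v := Iff.rfl

variable [Fintype F]

theorem card_SU5 (hF : Fintype.card F = 25) : Nat.card (SU 3 F 5) = 378000 := by
  have h1 := card_SU_mul (F := F) (q := 5) (n := 3) (by rw [hF]; norm_num) (by norm_num)
  have h2 : ordU 5 3 = 2268000 := by
    unfold ordU
    decide
  rw [h2] at h1
  omega

theorem card_PSU5 (hF : Fintype.card F = 25) : Nat.card (PSU 3 F 5) = 126000 := by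
  have h1 := card_PSU_mul (F := F) (q := 5) (n := 3) (by rw [hF]; norm_num) (by norm_num)
  have h2 : ordU 5 3 = 2268000 := by
    unfold ordU
    decide
  rw [h2] at h1
  norm_num at h1
  omega

theorem card_iso (hF : Fintype.card F = 25) (hσ : ∀ x, σ x = x ^ 5) (hσ2 : ∀ x, σ (σ x) = x) :
    ({x : Fin 3 → F | x ≠ 0 ∧ h⟪x, x⟫ = 0}).ncard = 3024 := by
  have h1 := nvec_isotropic (F := F) (q := 5) (by rw [hF]; norm_num) hσ hσ2 2
  norm_num at h1
  have h2 : nvec σ 3 0 = ({x : Fin 3 → F | h⟪x, x⟫ = 0}).ncard := by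
    rw [← Nat.card_coe_set_eq]
    unfold nvec
    rfl
  have h3 : {x : Fin 3 → F | x ≠ 0 ∧ h⟪x, x⟫ = 0} = {x : Fin 3 → F | h⟪x, x⟫ = 0} \ {0} := by
    ext x
    simp only [Set.mem_sdiff, Set.mem_singleton_iff, Set.mem_ofPred_eq]
    tauto
  rw [h3, Set.ncard_sdiff_singleton_of_mem (by simp), ← h2, h1]

theorem card_Pv (hF : Fintype.card F = 25) (hσ : ∀ x, σ x = x ^ 5) (hσ1 : σ ≠ RingHom.id F)
    (hσ2 : ∀ x, σ (σ x) = x) {v : Fin 3 → F} (hv0 : v ≠ 0) (hv : h⟪v, v⟫ = 0) :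
    Nat.card (Pv v) = 125 := by
  have h1 : Set.range (fun g : SU 3 F 5 => sv g v) = {x : Fin 3 → F | x ≠ 0 ∧ h⟪x, x⟫ = 0} := by
    ext x
    rw [Set.mem_ofPred_eq]
    constructor
    · rintro ⟨g, rfl⟩
      change sv g v ≠ 0 ∧ h⟪sv g v, sv g v⟫ = 0
      refine ⟨fun h => hv0 ?_, by rw [sv_isom hσ, hv]⟩
      have h2 := sv_inv g v
      rw [h] at h2
      rw [← h2]
      have h3 := sv_smul g⁻¹ (0 : F) (0 : Fin 3 → F)
      rw [zero_smul, zero_smul] at h3
      exact h3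
    · rintro ⟨hx0, hx⟩
      obtain ⟨A, hA⟩ := su3_trans hσ hσ1 hσ2 hv0 hv hx0 hx
      exact ⟨A, hA⟩
  have h2 : (Pv v).index = (Set.range (fun g : SU 3 F 5 => sv g v)).ncard :=
    @MulAction.index_stabilizer (SU 3 F 5) _ _ act v
  rw [h1, card_iso hF hσ hσ2] at h2
  have h3 := Subgroup.card_mul_index (Pv v)
  rw [h2, card_SU5 hF] at h3
  omega

/-- the diagonal torus element for `s² = 2` -/
theorem exists_t (hσ : ∀ x, σ x = x ^ 5) (hσ2 : ∀ a, σ (σ a) = a) {v w u : Fin 3 → F}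
    (h : Fr σ v w u) {s : F} (hs : s * s = 2) (h5 : (5 : F) = 0) : ∃ D : SU 3 F 5, sv D v = s • v ∧
      sv D w = (2 * s) • w ∧ sv D u = -u := by
  have hS := hB_symm (ι := Fin 3) hσ2
  have hσs : σ s = -s := by
    rw [hσ]
    linear_combination (s ^ 3 + 2 * s) * hs + s * h5
  obtain ⟨D, hD⟩ := exists_SU_rank3 (n := 3) (q := 5) hσ ((s - 1) • v) ((2 * s - 1) • w)
    ((-2 : F) • u) (hB (Fin 3) σ w) (hB (Fin 3) σ v)
    (hB (Fin 3) σ u) (by
      intro y z
      simp only [bl_add, br_add, bl_smul, br_smul, h.vv, h.ww, h.vw, h.wv, h.vu, h.wu, h.uv, h.uw, h.uu,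
        map_sub, map_one, map_mul, map_neg, map_ofNat, hσs]
      rw [← hS v y, ← hS w y, ← hS u y]
      linear_combination (-2 * (σ (h⟪w, y⟫) * h⟪v, z⟫) - 2 * (σ (h⟪v, y⟫) * h⟪w, z⟫)) * hs -
        (σ (h⟪w, y⟫) * h⟪v, z⟫ + σ (h⟪v, y⟫) * h⟪w, z⟫) * h5) (by rw [br_smul, h.ww, mul_zero])
      (by rw [br_smul, h.wu, mul_zero])
      (by rw [br_smul, h.vv, mul_zero]) (by rw [br_smul, h.vu, mul_zero])
      (by rw [br_smul, h.uv, mul_zero]) (by rw [br_smul, h.uw, mul_zero]) (by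
      simp only [br_smul, h.wv, h.vw, h.uu]
      linear_combination (-2) * hs - h5)
  refine ⟨D, ?_, ?_, ?_⟩
  · rw [hD, h.wv, h.vv, h.uv]; module
  · rw [hD, h.ww, h.vw, h.uw]; module
  · rw [hD, h.wu, h.vu, h.uu]; module

/-- a regular unipotent element -/
theorem exists_a (hσ : ∀ x, σ x = x ^ 5) (hσ2 : ∀ a, σ (σ a) = a) {v w u : Fin 3 → F}
    (h : Fr σ v w u) (h5 : (5 : F) = 0) : ∃ A : SU 3 F 5, sv A v = v ∧
      sv A w = (2 : F) • v + w - u ∧ sv A u = v + u := by
  have hS := hB_symm (ι := Fin 3) hσ2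
  obtain ⟨A, hA⟩ := exists_SU_rank2 (n := 3) (q := 5) hσ ((2 : F) • v - u) v
    (hB (Fin 3) σ v) (hB (Fin 3) σ u) (by
      intro y z
      simp only [bl_add, br_add, bl_smul, br_smul, bl_sub, br_sub, h.vv, h.ww, h.vw, h.wv, h.vu, h.wu, h.uv, h.uw,
        h.uu, map_ofNat]
      rw [← hS v y, ← hS u y]
      linear_combination (σ (h⟪v, y⟫) * h⟪v, z⟫) * h5) (by
      simp only [br_smul, br_sub, h.wv, h.vw, h.uu, h.vv, h.uv, h.vu]
      ring)
  replace hA : ∀ x, sv A x = x + h⟪v, x⟫ • ((2 : F) • v - u) + h⟪u, x⟫ • v := hA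
  refine ⟨A, ?_, ?_, ?_⟩
  · rw [hA, h.vv, h.uv]; module
  · rw [hA, h.vw, h.uw]; module
  · rw [hA, h.vu, h.uu]; module

/-- an element is determined by its values on a frame -/
theorem fr_ext (hσ2 : ∀ a, σ (σ a) = a) {v w u : Fin 3 → F} (h : Fr σ v w u) {A B : SU 3 F 5}
    (hv : sv A v = sv B v) (hw : sv A w = sv B w) (hu : sv A u = sv B u) : A = B := by
  apply sv_ext
  intro x
  rw [h.exp hσ2 x, sv_add, sv_add, sv_smul, sv_smul, sv_smul, hv, hw, hu, sv_add, sv_add, sv_smul,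
    sv_smul, sv_smul]

theorem sv_inv_scalar {A : SU 3 F 5} {x : Fin 3 → F} {a b : F} (h : sv A x = a • x)
    (hab : b * a = 1) : sv A⁻¹ x = b • x := by
  have h1 := sv_inv A x
  rw [h, sv_smul] at h1
  have h2 := congrArg (fun y => b • y) h1
  simp only [smul_smul] at h2
  rw [hab, one_smul] at h2
  exact h2

theorem norm_scalar {A : SU 3 F 5} {v : Fin 3 → F} {a : F} (ha : a ≠ 0) (h : sv A v = a • v) :
    A ∈ Subgroup.normalizer ((Pv v : Subgroup (SU 3 F 5)) : Set (SU 3 F 5)) := by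
  have h1 : sv A⁻¹ v = a⁻¹ • v := sv_inv_scalar h (inv_mul_cancel₀ ha)
  rw [Subgroup.mem_normalizer_iff]
  intro g
  rw [mem_Pv, mem_Pv, sv_mul, sv_mul, h1, sv_smul, sv_smul]
  constructor
  · intro hg
    rw [hg, h, smul_smul, inv_mul_cancel₀ ha, one_smul]
  · intro hg
    have h2 := congrArg (fun y => sv A⁻¹ y) hg
    simp only [sv_smul, sv_inv, h1] at h2
    have h3 := congrArg (fun y => a • y) h2
    simp only [smul_smul, mul_inv_cancel₀ ha, one_smul] at h3
    exact h3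

theorem facts (hF : Fintype.card F = 25) : (5 : F) = 0 ∧ (2 : F) ≠ 0 ∧ ∃ s : F, s * s = 2 := by
  have h1 : ((Fintype.card F : ℕ) : F) = 0 := Nat.cast_card_eq_zero F
  rw [hF] at h1
  have h5 : (5 : F) = 0 := by
    have h2 : (5 : F) * 5 = 0 := by
      rw [← h1]; push_cast; norm_num
    rcases mul_eq_zero.1 h2 with h | h <;> exact h
  have h2 : (2 : F) ≠ 0 := by
    intro h
    apply one_ne_zero (α := F)
    linear_combination h5 - 2 * h
  refine ⟨h5, h2, ?_⟩
  have hr : ringChar F ≠ 2 := by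
    intro h
    apply h2
    have := CharP.cast_eq_zero F (ringChar F)
    rw [h] at this
    exact_mod_cast this
  have h3 : IsSquare (2 : F) := by
    rw [FiniteField.isSquare_iff hr h2, hF]
    norm_num
    linear_combination (819 : F) * h5
  obtain ⟨s, hs⟩ := h3
  exact ⟨s, hs.symm⟩

/-- every proper subgroup of `PSU₃(5)` has index at least 50 -/
theorem fifty (hF : Fintype.card F = 25) (H : Subgroup (PSU 3 F 5)) (hH : H ≠ ⊤) : 50 ≤ H.index := by
  have hF' : Fintype.card F = 5 ^ 2 := by rw [hF]; norm_num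
  obtain ⟨σ, hσ, hσ2, hσ1⟩ := exists_frob (q := 5) hF'
  obtain ⟨h5, h2, s, hs⟩ := facts hF
  obtain ⟨v, hv0, hv⟩ : ∃ v : Fin 3 → F, v ≠ 0 ∧ hB (Fin 3) σ v v = 0 := by
    have h1 := card_iso hF hσ hσ2
    have h2 : ({x : Fin 3 → F | x ≠ 0 ∧ hB (Fin 3) σ x x = 0}).Nonempty := by
      apply Set.nonempty_of_ncard_ne_zero
      rw [h1]; norm_num
    exact h2
  obtain ⟨w, u, h⟩ := exists_fr hσ1 hσ2 hv0 hv
  obtain ⟨t, htv, htw, htu⟩ := exists_t hσ hσ2 h hs h5
  obtain ⟨A, hAv, hAw, hAu⟩ := exists_a hσ hσ2 h h5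
  have hs0 : s ≠ 0 := by
    rintro rfl
    apply h2; rw [← hs, mul_zero]
  have hneg : ∀ (B : SU 3 F 5) (x : Fin 3 → F), sv B (-x) = - sv B x := by
    intro B x
    rw [← neg_one_smul F, sv_smul, neg_one_smul]
  have hsub : ∀ (B : SU 3 F 5) (x y : Fin 3 → F), sv B (x - y) = sv B x - sv B y := by
    intro B x y
    rw [sub_eq_add_neg, sv_add, hneg, sub_eq_add_neg]
  have ht2v : sv (t ^ 2) v = (2 : F) • v := by
    rw [pow_two, sv_mul, htv, sv_smul, htv, smul_smul, hs]
  have ht2w : sv (t ^ 2) w = (3 : F) • w := by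
    rw [pow_two, sv_mul, htw, sv_smul, htw, smul_smul]
    congr 1
    linear_combination 4 * hs + h5
  have ht2u : sv (t ^ 2) u = u := by
    rw [pow_two, sv_mul, htu, hneg, htu, neg_neg]
  have ht4v : sv (t ^ 4) v = -v := by
    rw [show (4 : ℕ) = 2 + 2 by norm_num, pow_add, sv_mul, ht2v, sv_smul, ht2v, smul_smul,
      ← neg_one_smul F]
    congr 1
    linear_combination h5
  have ht4w : sv (t ^ 4) w = -w := by
    rw [show (4 : ℕ) = 2 + 2 by norm_num, pow_add, sv_mul, ht2w, sv_smul, ht2w, smul_smul,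
      ← neg_one_smul F]
    congr 1
    linear_combination 2 * h5
  have ht4u : sv (t ^ 4) u = u := by
    rw [show (4 : ℕ) = 2 + 2 by norm_num, pow_add, sv_mul, ht2u, ht2u]
  have ht8 : t ^ 8 = 1 := by
    apply fr_ext hσ2 h
    · rw [show (8 : ℕ) = 4 + 4 by norm_num, pow_add, sv_mul, ht4v, hneg, ht4v, neg_neg, sv_one]
    · rw [show (8 : ℕ) = 4 + 4 by norm_num, pow_add, sv_mul, ht4w, hneg, ht4w, neg_neg, sv_one]
    · rw [show (8 : ℕ) = 4 + 4 by norm_num, pow_add, sv_mul, ht4u, ht4u, sv_one]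
  have htn := norm_scalar hs0 htv
  have hiv : sv t⁻¹ v = (3 * s) • v := sv_inv_scalar htv (by linear_combination 3 * hs + h5)
  have hiw : sv t⁻¹ w = (-s) • w := sv_inv_scalar htw (by linear_combination (-2) * hs - h5)
  have hiu : sv t⁻¹ u = -u := by
    have := sv_inv_scalar (A := t) (x := u) (a := -1) (b := -1) (by rw [htu, neg_one_smul]) (by ring)
    rw [this, neg_one_smul]
  have hcomm : A * (t * A * t⁻¹) ≠ (t * A * t⁻¹) * A := by
    intro he
    have e1 := congrArg (fun B => hB (Fin 3) σ w (sv B w)) he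
    simp only [sv_mul, hiw, hiv, hiu, sv_smul, hAw, hAv, hAu, hsub, sv_add, htv, htw, htu, hneg,
      br_add, br_smul, br_sub, map_neg, h.wv, h.ww, h.wu] at e1
    apply hs0
    linear_combination (2 : F) * e1 + (s + 4 * s * s) * h5
  have hs4 : t ^ 4 * A ≠ A * t ^ 4 := by
    intro he
    have e1 := congrArg (fun B => sv B u) he
    simp only [sv_mul, ht4u, hAu, sv_add, ht4v] at e1
    have e2 : (2 : F) • v = 0 := by
      have e3 : -v = v := add_right_cancel e1
      rw [two_smul]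
      nth_rewrite 1 [← e3]
      exact neg_add_cancel v
    rcases smul_eq_zero.1 e2 with e | e
    · exact h2 e
    · exact hv0 e
  letI act2 : MulAction (SU 3 F 5) (PSU 3 F 5 ⧸ H) :=
    MulAction.compHom _ (QuotientGroup.mk' (Subgroup.center (SU 3 F 5)))
  haveI : IsSimpleGroup (PSU 3 F 5) := PSU_isSimple hF' (by norm_num) (by norm_num)
  haveI : Finite (PSU 3 F 5 ⧸ H) := inferInstance
  have key := IdxFifty.main (Ω := PSU 3 F 5 ⧸ H) (Pv v) (card_Pv hF hσ hσ1 hσ2 hv0 hv)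
    ⟨⟨A, hAv⟩, ⟨t * A * t⁻¹, (Subgroup.mem_normalizer_iff.1 htn A).1 hAv⟩, fun he =>
      hcomm (congrArg Subtype.val he)⟩ (by
      intro g hg hfix
      have h1 : (QuotientGroup.mk' (Subgroup.center (SU 3 F 5)) g) ∈ H.normalCore := by
        intro b
        have h3 := hfix (QuotientGroup.mk (b⁻¹))
        have h4 : ((QuotientGroup.mk' (Subgroup.center (SU 3 F 5)) g * b⁻¹ : PSU 3 F 5) : PSU 3 F 5 ⧸ H) =
          QuotientGroup.mk (b⁻¹) := h3
        have h5 := QuotientGroup.eq.1 h4.symm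
        rw [inv_inv, ← mul_assoc] at h5
        exact h5
      have h3 : H.normalCore = ⊥ := by
        rcases (inferInstance : H.normalCore.Normal).eq_bot_or_eq_top with h | h
        · exact h
        · exact absurd (top_le_iff.1 (h ▸ H.normalCore_le)) hH
      rw [h3, Subgroup.mem_bot] at h1
      have h4 : g ∈ Subgroup.center (SU 3 F 5) := (QuotientGroup.eq_one_iff g).1 h1
      obtain ⟨c, hc⟩ := SU_center_scalar hF' hσ (by norm_num) h4
      have h6 : ∀ x, sv g x = c • x := by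
        intro x
        change ((g : Matrix.SpecialLinearGroup (Fin 3) F) : Matrix (Fin 3) (Fin 3) F).mulVec x = _
        rw [hc, Matrix.smul_mulVec, Matrix.one_mulVec]
      have h7 : c = 1 := by
        have h8 := h6 v
        rw [mem_Pv.1 hg] at h8
        have h9 : (1 - c) • v = 0 := by
          rw [sub_smul, one_smul, ← h8, sub_self]
        rcases smul_eq_zero.1 h9 with e | e
        · exact (sub_eq_zero.1 e).symm
        · exact absurd e hv0
      apply sv_ext
      intro x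
      rw [h6, h7, one_smul, sv_one]) t htn ht8 ⟨A, hAv, hs4⟩
  exact key

end Cfsg.Agent.H29.PsuFive
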