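import Cfsg.Prelude.Def_SporadicCombinatorics
import Cfsg.Agent.H29.Trans4

/-!
Quartets of a dodecad: standard position and uniqueness.
-/
set_option autoImplicit false
open scoped Pointwise
open Cfsg

namespace Cfsg.Agent.H29
open Cfsg.Agent.H7

/-- the base quartet -/
def qt0 : ℕ := 8388611
def qu0 : ℕ := 65556
def qv0 : ℕ := 917504
def qw0 : ℕ := 2101256

def Q0 : Finset (Finset GolayPt) := {toSet qt0, toSet qu0, toSet qv0, toSet qw0}

/-- mask test for hexads on the base dodecad -/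
def hexd (m : ℕ) : Bool := Nat.beq (popc m) 6 && ((List.range 759).any fun k => Nat.beq (octE k &&& dod0) m)

theorem hexd_iff {m : ℕ} (hm : m < 16777216) : toSet m ∈ hexadsOn (toSet dod0) ↔ hexd m = true := by
  unfold hexd
  rw [Bool.and_eq_true, List.any_eq_true, Nat.beq_eq]
  constructor
  · rintro ⟨h1, o, ho, h2⟩
    refine ⟨by rw [← card_toSet]; exact h1, ?_⟩
    obtain ⟨n, hn, rfl⟩ := enm_oct.all o ho
    obtain ⟨k, hk, rfl⟩ := List.mem_map.1 hn
    refine ⟨k, hk, ?_⟩
    rw [← toSet_and] at h2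
    rw [Nat.beq_eq]
    refine toSet_inj (lt_of_le_of_lt Nat.and_le_left (enm_oct.lt _ hn)) hm h2
  · rintro ⟨h1, k, hk, h2⟩
    rw [Nat.beq_eq] at h2
    refine ⟨by rw [card_toSet]; exact h1, toSet (octE k), enm_oct.mem _ (List.mem_map.2 ⟨k, hk, rfl⟩), ?_⟩
    rw [← toSet_and, h2]

theorem smul_hexadsOn {σ : Equiv.Perm GolayPt} (hσ : σ ∈ M24) {d h : Finset GolayPt} :
    σ • h ∈ hexadsOn (σ • d) ↔ h ∈ hexadsOn d := by
  constructor
  · rintro ⟨h1, o, ho, h2⟩
    refine ⟨by rw [← h1, Finset.card_smul_finset], σ⁻¹ • o, ?_, ?_⟩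
    · rw [← smul_octads_iff hσ, smul_inv_smul]; exact ho
    · apply smul_left_cancel σ
      rw [Finset.smul_finset_inter, smul_inv_smul, h2]
  · rintro ⟨h1, o, ho, h2⟩
    refine ⟨by rw [Finset.card_smul_finset, h1], σ • o, (smul_octads_iff hσ).2 ho, ?_⟩
    rw [← Finset.smul_finset_inter, h2]

theorem smul_quartets' {σ : Equiv.Perm GolayPt} (hσ : σ ∈ M24) {d : Finset GolayPt} {Q : Finset (Finset GolayPt)}
    (hQ : Q ∈ quartets d) : σ • Q ∈ quartets (σ • d) := by
  obtain ⟨h1, h2, h3⟩ := hQ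
  refine ⟨by rw [Finset.card_smul_finset, h1], ?_, ?_⟩
  · intro t0 ht0
    obtain ⟨t, ht, rfl⟩ := Finset.mem_smul_finset.1 ht0
    exact ⟨by rw [Finset.card_smul_finset, (h2 t ht).1], Finset.smul_finset_subset_smul_finset (h2 t ht).2⟩
  · intro t0 ht0 u0 hu0 htu
    obtain ⟨t, ht, rfl⟩ := Finset.mem_smul_finset.1 ht0
    obtain ⟨u, hu, rfl⟩ := Finset.mem_smul_finset.1 hu0
    rw [← Finset.smul_finset_union, smul_hexadsOn hσ]
    exact h3 t ht u hu fun h => htu (by rw [h])

theorem smul_quartets {σ : Equiv.Perm GolayPt} (hσ : σ ∈ M24) {d : Finset GolayPt} {Q : Finset (Finset GolayPt)} :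
    σ • Q ∈ quartets (σ • d) ↔ Q ∈ quartets d := by
  refine ⟨fun h => ?_, smul_quartets' hσ⟩
  have := smul_quartets' (M24.inv_mem hσ) h
  rwa [inv_smul_smul, inv_smul_smul] at this

theorem quartet_disj {d : Finset GolayPt} {Q : Finset (Finset GolayPt)} (hQ : Q ∈ quartets d) {t u : Finset GolayPt}
    (ht : t ∈ Q) (hu : u ∈ Q) (h : t ≠ u) : Disjoint t u := by
  have h1 := (hQ.2.2 t ht u hu h).1
  have h2 := (hQ.2.1 t ht).1
  have h3 := (hQ.2.1 u hu).1
  rw [Finset.disjoint_iff_inter_eq_empty, ← Finset.card_eq_zero]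
  have := Finset.card_union_add_card_inter t u
  omega

/-- two hexads on a dodecad sharing five points are equal -/
theorem hexad_eq {d h h' : Finset GolayPt} (hh : h ∈ hexadsOn d) (hh' : h' ∈ hexadsOn d) (h5 : 5 ≤ (h ∩ h').card) : h = h' := by
  obtain ⟨-, o, ho, rfl⟩ := hh
  obtain ⟨-, o', ho', rfl⟩ := hh'
  have : o = o' := by
    apply octad_eq_of_five ho ho'
    refine h5.trans (Finset.card_le_card ?_)
    intro x hx
    rw [Finset.mem_inter, Finset.mem_inter, Finset.mem_inter] at hx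
    exact Finset.mem_inter.2 ⟨hx.1.1, hx.2.1⟩
  rw [this]

set_option maxRecDepth 100000 in
theorem hex00 : hexd (qt0 ||| qu0) = true := by decide +kernel

/-- standard position of a pair of triples -/
theorem std_q {d t u : Finset GolayPt} (hd : d ∈ dodecads) (ht : t.card = 3) (hu : u.card = 3) (htu : Disjoint t u)
    (hh : t ∪ u ∈ hexadsOn d) : ∃ σ ∈ M24, σ • (toSet dod0, toSet qt0, toSet qu0) = (d, t, u) := by
  classical
  have hsub : t ∪ u ⊆ d := by
    obtain ⟨-, o, -, h⟩ := hh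
    rw [← h]; exact Finset.inter_subset_right
  obtain ⟨a, b, c, hab, hac, hbc, rfl⟩ := Finset.card_eq_three.1 ht
  obtain ⟨x, y, z, hxy, hxz, hyz, rfl⟩ := Finset.card_eq_three.1 hu
  have hd1 : ∀ p ∈ ({a, b, c} : Finset GolayPt), p ∈ d := fun p hp => hsub (Finset.mem_union_left _ hp)
  have hd2 : ∀ p ∈ ({x, y, z} : Finset GolayPt), p ∈ d := fun p hp => hsub (Finset.mem_union_right _ hp)
  have hne : ∀ p ∈ ({a, b, c} : Finset GolayPt), ∀ q ∈ ({x, y, z} : Finset GolayPt), p ≠ q := by
    rintro p hp q hq rfl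
    exact Finset.disjoint_left.1 htu hp hq
  have n1 := hne a (by simp) x (by simp)
  have n2 := hne a (by simp) y (by simp)
  have n3 := hne b (by simp) x (by simp)
  have n4 := hne b (by simp) y (by simp)
  have n5 := hne c (by simp) x (by simp)
  have n6 := hne c (by simp) y (by simp)
  obtain ⟨σ, hσ, h1, h2⟩ := dodecad_mapn (n := 5) (by norm_num) ![gpt 23, gpt 0, gpt 1, gpt 2, gpt 4] ![a, b, c, x, y]
    (by decide) (by
      intro i j hij
      fin_cases i <;> fin_cases j <;> first | rfl | (exfalso; revert hij; simp [hab, hac, hbc, hxy, n1, n2, n3, n4, n5, n6,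
        hab.symm, hac.symm, hbc.symm, hxy.symm, n1.symm, n2.symm, n3.symm, n4.symm, n5.symm, n6.symm]))
    dod0_dodecad hd (by decide +kernel)
    (by intro i; fin_cases i; exacts [hd1 a (by simp), hd1 b (by simp), hd1 c (by simp), hd2 x (by simp), hd2 y (by simp)])
  have e0 : σ (gpt 23) = a := h1 0
  have e1 : σ (gpt 0) = b := h1 1
  have e2 : σ (gpt 1) = c := h1 2
  have e3 : σ (gpt 2) = x := h1 3
  have e4 : σ (gpt 4) = y := h1 4
  have ht0 : toSet qt0 = {gpt 23, gpt 0, gpt 1} := by decide +kernel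
  have hu0 : toSet qu0 = {gpt 2, gpt 4, gpt 16} := by decide +kernel
  have ht1 : σ • toSet qt0 = {a, b, c} := by
    rw [ht0, Finset.smul_finset_insert, Finset.smul_finset_insert, Finset.smul_finset_singleton]
    show ({σ (gpt 23), σ (gpt 0), σ (gpt 1)} : Finset GolayPt) = _
    rw [e0, e1, e2]
  have hhex : σ • (toSet qt0 ∪ toSet qu0) ∈ hexadsOn d := by
    rw [← h2, smul_hexadsOn hσ, ← toSet_or, hexd_iff (by decide +kernel)]
    exact hex00
  have hu1 : σ • toSet qu0 = {x, y, z} := by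
    have hu2 : σ • toSet qu0 = {x, y, σ (gpt 16)} := by
      rw [hu0, Finset.smul_finset_insert, Finset.smul_finset_insert, Finset.smul_finset_singleton]
      show ({σ (gpt 2), σ (gpt 4), σ (gpt 16)} : Finset GolayPt) = _
      rw [e3, e4]
    have h3 : σ • (toSet qt0 ∪ toSet qu0) = {a, b, c} ∪ {x, y, z} := by
      apply hexad_eq hhex hh
      have h5 : ({a, b, c, x, y} : Finset GolayPt).card = 5 := by
        rw [Finset.card_insert_of_notMem, Finset.card_insert_of_notMem, Finset.card_insert_of_notMem, Finset.card_pair hxy]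
        · simp [n5, n6]
        · simp [hbc, n3, n4]
        · simp [hab, hac, n1, n2]
      rw [← h5]
      apply Finset.card_le_card
      intro p hp
      rw [Finset.mem_inter, Finset.smul_finset_union, ht1, hu2]
      simp only [Finset.mem_insert, Finset.mem_singleton, Finset.mem_union] at hp ⊢
      tauto
    rw [Finset.smul_finset_union, ht1] at h3
    have h4 : Disjoint ({a, b, c} : Finset GolayPt) (σ • toSet qu0) := by
      rw [← ht1, Finset.disjoint_iff_inter_eq_empty, ← Finset.smul_finset_inter]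
      have : toSet qt0 ∩ toSet qu0 = ∅ := by decide +kernel
      rw [this]; rfl
    calc σ • toSet qu0 = ({a, b, c} ∪ σ • toSet qu0) \ {a, b, c} := (Finset.union_sdiff_cancel_left h4).symm
      _ = _ := by rw [h3, Finset.union_sdiff_cancel_left htu]
  exact ⟨σ, hσ, Prod.ext h2 (Prod.ext ht1 hu1)⟩

end Cfsg.Agent.H29
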