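import Cfsg.Agent.H29.Quart

/-!
Quartets of a dodecad: uniqueness, transitivity.
-/
set_option autoImplicit false
open scoped Pointwise
open Cfsg

namespace Cfsg.Agent.H29
open Cfsg.Agent.H7

theorem hex_m {m : ℕ} (hm : m < 16777216) (h : hexd m = true) : toSet m ∈ hexadsOn (toSet dod0) := (hexd_iff hm).2 h

set_option maxRecDepth 100000 in
theorem hexs : ([qt0 ||| qu0, qt0 ||| qv0, qt0 ||| qw0, qu0 ||| qv0, qu0 ||| qw0, qv0 ||| qw0].all fun m => hexd m && Nat.blt m 16777216) = true := by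
  decide +kernel

theorem hexs' {m : ℕ} (h : m ∈ [qt0 ||| qu0, qt0 ||| qv0, qt0 ||| qw0, qu0 ||| qv0, qu0 ||| qw0, qv0 ||| qw0]) :
    toSet m ∈ hexadsOn (toSet dod0) := by
  have h1 := List.all_eq_true.1 hexs m h
  rw [Bool.and_eq_true] at h1
  exact hex_m (by simpa using h1.2) h1.1

theorem mem_Q0 {s : Finset GolayPt} : s ∈ Q0 ↔ s = toSet qt0 ∨ s = toSet qu0 ∨ s = toSet qv0 ∨ s = toSet qw0 := by
  unfold Q0; simp

theorem Q0_card : Q0.card = 4 := by decide +kernel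

theorem Q0_mem : Q0 ∈ quartets (toSet dod0) := by
  refine ⟨Q0_card, ?_, ?_⟩
  · intro t ht
    rw [mem_Q0] at ht
    rcases ht with rfl | rfl | rfl | rfl
    · exact ⟨by rw [card_toSet]; decide +kernel, by decide +kernel⟩
    · exact ⟨by rw [card_toSet]; decide +kernel, by decide +kernel⟩
    · exact ⟨by rw [card_toSet]; decide +kernel, by decide +kernel⟩
    · exact ⟨by rw [card_toSet]; decide +kernel, by decide +kernel⟩
  intro t ht u hu htu
  have h1 : toSet qt0 ∪ toSet qu0 ∈ hexadsOn (toSet dod0) := by rw [← toSet_or]; exact hexs' (by simp)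
  have h2 : toSet qt0 ∪ toSet qv0 ∈ hexadsOn (toSet dod0) := by rw [← toSet_or]; exact hexs' (by simp)
  have h3 : toSet qt0 ∪ toSet qw0 ∈ hexadsOn (toSet dod0) := by rw [← toSet_or]; exact hexs' (by simp)
  have h4 : toSet qu0 ∪ toSet qv0 ∈ hexadsOn (toSet dod0) := by rw [← toSet_or]; exact hexs' (by simp)
  have h5 : toSet qu0 ∪ toSet qw0 ∈ hexadsOn (toSet dod0) := by rw [← toSet_or]; exact hexs' (by simp)
  have h6 : toSet qv0 ∪ toSet qw0 ∈ hexadsOn (toSet dod0) := by rw [← toSet_or]; exact hexs' (by simp)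
  rw [mem_Q0] at ht hu
  rcases ht with rfl | rfl | rfl | rfl <;> rcases hu with rfl | rfl | rfl | rfl <;>
    first
    | exact absurd rfl htu
    | assumption
    | (rw [Finset.union_comm]; assumption)

set_option maxRecDepth 100000 in
theorem uniq_chk : ((subs 3 24).all fun n => !(Nat.beq (n &&& dod0) n) || (!(Nat.beq (n &&& (qt0 ||| qu0)) 0) ||
    (!(hexd (qt0 ||| n)) || (!(hexd (qu0 ||| n)) || (Nat.beq n qv0 || Nat.beq n qw0))))) = true := by decide +kernel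

theorem uniq0 {Q : Finset (Finset GolayPt)} (hQ : Q ∈ quartets (toSet dod0)) (ht : toSet qt0 ∈ Q) (hu : toSet qu0 ∈ Q) :
    Q = Q0 := by
  apply Finset.eq_of_subset_of_card_le
  · intro s hs
    rw [mem_Q0]
    by_cases h1 : s = toSet qt0
    · exact Or.inl h1
    by_cases h2 : s = toSet qu0
    · exact Or.inr (Or.inl h2)
    right; right
    obtain ⟨h3, h4⟩ := hQ.2.1 s hs
    obtain ⟨n, hn, rfl⟩ := (enm_subs 3).all s h3
    have hlt := (enm_subs 3).lt n hn
    have h5 := List.all_eq_true.1 uniq_chk n hn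
    have e1 : n &&& dod0 = n := by
      refine toSet_inj (lt_of_le_of_lt Nat.and_le_left hlt) hlt ?_
      rw [toSet_and]; exact Finset.inter_eq_left.2 h4
    have d1 := quartet_disj hQ hs ht h1
    have d2 := quartet_disj hQ hs hu h2
    have e2 : n &&& (qt0 ||| qu0) = 0 := by
      refine toSet_inj (lt_of_le_of_lt Nat.and_le_left hlt) (by norm_num) ?_
      rw [toSet_and, toSet_or, Finset.inter_union_distrib_left, Finset.disjoint_iff_inter_eq_empty.1 d1,
        Finset.disjoint_iff_inter_eq_empty.1 d2]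
      decide +kernel
    have e3 : hexd (qt0 ||| n) = true := by
      rw [← hexd_iff (Nat.or_lt_two_pow (n := 24) (by decide) hlt), toSet_or]
      exact hQ.2.2 _ ht _ hs (Ne.symm h1)
    have e4 : hexd (qu0 ||| n) = true := by
      rw [← hexd_iff (Nat.or_lt_two_pow (n := 24) (by decide) hlt), toSet_or]
      exact hQ.2.2 _ hu _ hs (Ne.symm h2)
    rw [e1, e2, e3, e4] at h5
    simp only [Nat.beq_refl, Bool.not_true, Bool.false_or, Bool.or_eq_true, Nat.beq_eq] at h5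
    rcases h5 with h5 | h5
    · left; rw [h5]
    · right; rw [h5]
  · rw [Q0_card, hQ.1]

theorem exuniq {d t u : Finset GolayPt} (hd : d ∈ dodecads) (ht : t.card = 3) (hu : u.card = 3) (htu : Disjoint t u)
    (hh : t ∪ u ∈ hexadsOn d) : ∃! Q : Finset (Finset GolayPt), Q ∈ quartets d ∧ t ∈ Q ∧ u ∈ Q := by
  refine all_all (fun a : Finset GolayPt × Finset GolayPt × Finset GolayPt =>
    ∃! Q : Finset (Finset GolayPt), Q ∈ quartets a.1 ∧ a.2.1 ∈ Q ∧ a.2.2 ∈ Q) ?_ ?_ (std_q hd ht hu htu hh)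
  · rintro σ hσ ⟨d, t, u⟩ ⟨Q, ⟨h1, h2, h3⟩, h4⟩
    refine ⟨σ • Q, ⟨smul_quartets' hσ h1, Finset.smul_mem_smul_finset h2, Finset.smul_mem_smul_finset h3⟩, ?_⟩
    rintro Q' ⟨g1, g2, g3⟩
    have g1' : Q' ∈ quartets (σ • d) := g1
    have g2' : σ • t ∈ Q' := g2
    have g3' : σ • u ∈ Q' := g3
    have := h4 (σ⁻¹ • Q') ⟨?_, ?_, ?_⟩
    · rw [← this, smul_inv_smul]
    · rw [← smul_quartets hσ, smul_inv_smul]; exact g1'
    · rw [Finset.mem_inv_smul_finset_iff]; exact g2'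
    · rw [Finset.mem_inv_smul_finset_iff]; exact g3'
  · refine ⟨Q0, ⟨Q0_mem, ?_, ?_⟩, fun Q hQ => uniq0 hQ.1 hQ.2.1 hQ.2.2⟩
    · exact mem_Q0.2 (Or.inl rfl)
    · exact mem_Q0.2 (Or.inr (Or.inl rfl))

/-- two triples of a quartet -/
theorem quartet_two {d : Finset GolayPt} {Q : Finset (Finset GolayPt)} (hQ : Q ∈ quartets d) :
    ∃ t ∈ Q, ∃ u ∈ Q, t ≠ u := by
  have := Finset.one_lt_card.1 (show 1 < Q.card by rw [hQ.1]; norm_num)
  exact this

/-- standard position of a quartet with two of its triples -/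
theorem std_qq {d : Finset GolayPt} (hd : d ∈ dodecads) {Q : Finset (Finset GolayPt)} (hQ : Q ∈ quartets d) {t u : Finset GolayPt}
    (ht : t ∈ Q) (hu : u ∈ Q) (htu : t ≠ u) : ∃ σ ∈ M24, σ • (toSet dod0, Q0, toSet qt0, toSet qu0) = (d, Q, t, u) := by
  have h1 := hQ.2.2 t ht u hu htu
  have h2 := quartet_disj hQ ht hu htu
  obtain ⟨σ, hσ, h3⟩ := std_q hd (hQ.2.1 t ht).1 (hQ.2.1 u hu).1 h2 h1
  have e1 : σ • toSet dod0 = d := congrArg Prod.fst h3
  have e2 : σ • toSet qt0 = t := congrArg (fun x : Finset GolayPt × Finset GolayPt × Finset GolayPt => x.2.1) h3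
  have e3 : σ • toSet qu0 = u := congrArg (fun x : Finset GolayPt × Finset GolayPt × Finset GolayPt => x.2.2) h3
  obtain ⟨Q', -, h4⟩ := exuniq hd (hQ.2.1 t ht).1 (hQ.2.1 u hu).1 h2 h1
  have h5 : σ • Q0 = Q := by
    rw [h4 Q ⟨hQ, ht, hu⟩]
    refine h4 _ ⟨?_, ?_, ?_⟩
    · rw [← e1]; exact smul_quartets' hσ Q0_mem
    · rw [← e2]; exact Finset.smul_mem_smul_finset (mem_Q0.2 (Or.inl rfl))
    · rw [← e3]; exact Finset.smul_mem_smul_finset (mem_Q0.2 (Or.inr (Or.inl rfl)))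
  exact ⟨σ, hσ, Prod.ext e1 (Prod.ext h5 (Prod.ext e2 e3))⟩

theorem std_Q {d : Finset GolayPt} (hd : d ∈ dodecads) {Q : Finset (Finset GolayPt)} (hQ : Q ∈ quartets d) :
    ∃ σ ∈ M24, σ • (toSet dod0, Q0) = (d, Q) := by
  obtain ⟨t, ht, u, hu, htu⟩ := quartet_two hQ
  obtain ⟨σ, hσ, h⟩ := std_qq hd hQ ht hu htu
  have e1 : σ • toSet dod0 = d := congrArg Prod.fst h
  exact ⟨σ, hσ, Prod.ext e1 (congrArg (fun x : Finset GolayPt × Finset (Finset GolayPt) × Finset GolayPt × Finset GolayPt => x.2.1) h)⟩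

end Cfsg.Agent.H29
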