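import Cfsg.Agent.H29.Quart2
import Cfsg.Agent.H7.GolayM12

/-!
Quartets of a dodecad: orders.
-/
set_option autoImplicit false
open scoped Pointwise
open Cfsg

namespace Cfsg.Agent.H29
open Cfsg.Agent.H7

/-- the mask list of the base dodecad and the first two triples -/
def qms : List (ℕ × List ℕ) := [(dod0, [0,1,2,3,4,12,16,17,18,19,21,23]), (qt0, [0, 1, 23]), (qu0, [2, 4, 16])]

theorem ord36 : {σ | σ ∈ M24 ∧ StabMs qms σ}.ncard = 36 := card_stabMs (by decide +kernel) (by decide +kernel)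

theorem qms_iff {σ : Equiv.Perm GolayPt} : StabMs qms σ ↔
    σ • toSet dod0 = toSet dod0 ∧ σ • toSet qt0 = toSet qt0 ∧ σ • toSet qu0 = toSet qu0 := by
  unfold StabMs qms
  simp only [List.forall_mem_cons, List.not_mem_nil, false_implies, implies_true, and_true]

theorem qt0_ne_qu0 : toSet qt0 ≠ toSet qu0 := fun h => absurd (toSet_inj (by decide) (by decide) h) (by decide)

theorem fixQ {σ : Equiv.Perm GolayPt} (hσ : σ ∈ M24) (h1 : σ • toSet dod0 = toSet dod0) (h2 : toSet qt0 ∈ σ • Q0)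
    (h3 : toSet qu0 ∈ σ • Q0) : σ • Q0 = Q0 := by
  apply uniq0 _ h2 h3
  rw [← h1]; exact smul_quartets' hσ Q0_mem

/-- the base quartet group -/
abbrev KQ : Subgroup ↥M24 := MulAction.stabilizer ↥M24 (toSet dod0, Q0)

theorem mem_KQ {g : ↥M24} : g ∈ KQ ↔ (g : Equiv.Perm GolayPt) • toSet dod0 = toSet dod0 ∧ (g : Equiv.Perm GolayPt) • Q0 = Q0 := by
  constructor
  · intro h
    have h' : ((g : Equiv.Perm GolayPt) • toSet dod0, (g : Equiv.Perm GolayPt) • Q0) = (toSet dod0, Q0) := h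
    exact Prod.ext_iff.1 h'
  · rintro ⟨h1, h2⟩
    exact Prod.ext h1 h2

theorem card_KQ : Nat.card KQ = 432 := by
  classical
  rw [card_eq_orbit_mul' KQ (toSet qt0, toSet qu0)]
  have e1 : MulAction.orbit KQ (toSet qt0, toSet qu0) = ((Q0.offDiag : Finset _) : Set (Finset GolayPt × Finset GolayPt)) := by
    ext ⟨t, u⟩
    rw [Finset.mem_coe, Finset.mem_offDiag]
    constructor
    · rintro ⟨⟨g, hg⟩, h⟩
      have h' : ((g : Equiv.Perm GolayPt) • toSet qt0, (g : Equiv.Perm GolayPt) • toSet qu0) = (t, u) := h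
      rw [Prod.mk.injEq] at h'
      obtain ⟨rfl, rfl⟩ := h'
      have hQ := (mem_KQ.1 hg).2
      refine ⟨?_, ?_, ?_⟩
      · show (g : Equiv.Perm GolayPt) • toSet qt0 ∈ Q0
        rw [← hQ]; exact Finset.smul_mem_smul_finset (mem_Q0.2 (Or.inl rfl))
      · show (g : Equiv.Perm GolayPt) • toSet qu0 ∈ Q0
        rw [← hQ]; exact Finset.smul_mem_smul_finset (mem_Q0.2 (Or.inr (Or.inl rfl)))
      · intro h
        exact qt0_ne_qu0 (smul_left_cancel (g : Equiv.Perm GolayPt) h)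
    · rintro ⟨ht, hu, htu⟩
      obtain ⟨σ, hσ, h⟩ := std_qq dod0_dodecad Q0_mem ht hu htu
      have h1 : σ • toSet dod0 = toSet dod0 := congrArg Prod.fst h
      have h2 : σ • Q0 = Q0 := congrArg (fun x : Finset GolayPt × Finset (Finset GolayPt) × Finset GolayPt × Finset GolayPt => x.2.1) h
      have h3 := congrArg (fun x : Finset GolayPt × Finset (Finset GolayPt) × Finset GolayPt × Finset GolayPt => x.2.2) h
      exact ⟨⟨⟨σ, hσ⟩, mem_KQ.2 ⟨h1, h2⟩⟩, h3⟩
  have e2 : Nat.card (KQ ⊓ MulAction.stabilizer ↥M24 (toSet qt0, toSet qu0) : Subgroup ↥M24) = 36 := by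
    have e3 : (KQ ⊓ MulAction.stabilizer ↥M24 (toSet qt0, toSet qu0) : Subgroup ↥M24)
        = MulAction.stabilizer ↥M24 (toSet dod0, toSet qt0, toSet qu0) := by
      ext g
      rw [Subgroup.mem_inf, mem_KQ, MulAction.mem_stabilizer_iff, MulAction.mem_stabilizer_iff]
      have g1 : g • (toSet qt0, toSet qu0) = ((g : Equiv.Perm GolayPt) • toSet qt0, (g : Equiv.Perm GolayPt) • toSet qu0) := rfl
      have g2 : g • (toSet dod0, toSet qt0, toSet qu0) = ((g : Equiv.Perm GolayPt) • toSet dod0, (g : Equiv.Perm GolayPt) • toSet qt0, (g : Equiv.Perm GolayPt) • toSet qu0) := rfl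
      rw [g1, g2, Prod.mk.injEq, Prod.mk.injEq, Prod.mk.injEq]
      constructor
      · rintro ⟨⟨h1, -⟩, h3, h4⟩; exact ⟨h1, h3, h4⟩
      · rintro ⟨h1, h3, h4⟩
        refine ⟨⟨h1, fixQ g.2 h1 ?_ ?_⟩, h3, h4⟩
        · nth_rw 1 [← h3]; exact Finset.smul_mem_smul_finset (mem_Q0.2 (Or.inl rfl))
        · nth_rw 1 [← h4]; exact Finset.smul_mem_smul_finset (mem_Q0.2 (Or.inr (Or.inl rfl)))
    rw [e3, card_stab, ← ord36]
    congr 1
    ext σ
    refine and_congr_right fun _ => ?_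
    rw [qms_iff]
    have g2 : σ • (toSet dod0, toSet qt0, toSet qu0) = (σ • toSet dod0, σ • toSet qt0, σ • toSet qu0) := rfl
    rw [g2, Prod.mk.injEq, Prod.mk.injEq]
  rw [e1, e2, Set.ncard_coe_finset, Finset.offDiag_card, Q0_card]

theorem stab_pair_eq (d : Finset GolayPt) (Q : Finset (Finset GolayPt)) :
    MulAction.stabilizer ↥M24 d ⊓ MulAction.stabilizer ↥M24 Q = MulAction.stabilizer ↥M24 (d, Q) := by
  ext g
  constructor
  · rintro ⟨h1, h2⟩
    exact Prod.ext h1 h2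
  · intro h
    have h' : (g • d, g • Q) = (d, Q) := h
    rw [Prod.mk.injEq] at h'
    exact h'

theorem quartets_ncard0 : (quartets (toSet dod0)).ncard = 220 := by
  have h := card_eq_orbit_mul' (MulAction.stabilizer ↥M24 (toSet dod0)) Q0
  have e1 : MulAction.orbit (MulAction.stabilizer ↥M24 (toSet dod0)) Q0 = quartets (toSet dod0) := by
    ext Q
    constructor
    · rintro ⟨⟨g, hg⟩, rfl⟩
      have hg' : (g : Equiv.Perm GolayPt) • toSet dod0 = toSet dod0 := hg
      show (g : Equiv.Perm GolayPt) • Q0 ∈ quartets (toSet dod0)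
      rw [← hg']; exact smul_quartets' g.2 Q0_mem
    · intro hQ
      obtain ⟨σ, hσ, h⟩ := std_Q dod0_dodecad hQ
      exact ⟨⟨⟨σ, hσ⟩, congrArg Prod.fst h⟩, congrArg Prod.snd h⟩
  rw [stab_pair_eq] at h
  have h2 := card_KQ
  have h3 : Nat.card (MulAction.stabilizer ↥M24 (toSet dod0)) = 95040 := stab_dodecad dod0_dodecad
  rw [h3, e1, h2] at h
  omega

end Cfsg.Agent.H29
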