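import Mathlib
import Cfsg.Prelude.Def_FischerSpaces
set_option autoImplicit false

namespace Cfsg.Agent.H29

theorem polarVec_dot {ι : Type} [Fintype ι] [DecidableEq ι] {F : Type*} [Field F]
    (Q : QuadraticForm F (ι → F)) (v x : ι → F) :
    dotProduct (Cfsg.polarVec (⇑Q) v) x = QuadraticMap.polar (⇑Q) v x := by
  have h1 := LinearMap.pi_apply_eq_sum_univ (QuadraticMap.polarBilin Q v) x
  rw [QuadraticMap.polarBilin_apply_apply] at h1
  rw [h1]
  unfold dotProduct Cfsg.polarVec
  apply Finset.sum_congr rfl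
  intro i _
  rw [smul_eq_mul, mul_comm]
  congr 1
  rw [QuadraticMap.polarBilin_apply_apply]
  congr 1
  ext j
  rw [Pi.single_apply]
  by_cases h2 : i = j
  · rw [if_pos h2.symm, if_pos h2]
  · rw [if_neg (fun h => h2 h.symm), if_neg h2]

theorem reflectionMatrix_mulVec {ι : Type} [Fintype ι] [DecidableEq ι] {F : Type*} [Field F]
    (Q : QuadraticForm F (ι → F)) (v x : ι → F) :
    (Cfsg.reflectionMatrix (⇑Q) v).mulVec x =
      x - ((Q v)⁻¹ * QuadraticMap.polar (⇑Q) v x) • v := by
  unfold Cfsg.reflectionMatrix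
  rw [Matrix.sub_mulVec, Matrix.one_mulVec, Matrix.smul_mulVec, Matrix.vecMulVec_mulVec,
    polarVec_dot]
  ext i
  simp
  ring

end Cfsg.Agent.H29
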