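import Mathlib

/-!
# Roots of the characteristic polynomial of an element of `SU₃(q)` (helper29)
-/

set_option autoImplicit false
set_option linter.style.haveILetI false
set_option linter.unusedSectionVars false
set_option linter.unusedSimpArgs false

namespace Cfsg.Agent.H29.SpecU3

variable {K : Type*} [Field K]

/-- the data: three elements permuted by `x ↦ x^{-q}`, with product one -/
structure Tri (q : ℕ) (a b c : K) : Prop where
  prod : a * b * c = 1
  e1 : a ^ q * b ^ q + b ^ q * c ^ q + c ^ q * a ^ q = a + b + c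
  e2 : a ^ q + b ^ q + c ^ q = a * b + b * c + c * a

theorem Tri.swap {q : ℕ} {a b c : K} (h : Tri q a b c) : Tri q b a c :=
  ⟨by rw [← h.prod]; ring, by rw [show b + a + c = a + b + c by ring, ← h.e1]; ring,
    by rw [show b * a + a * c + c * b = a * b + b * c + c * a by ring, ← h.e2]; ring⟩

theorem Tri.rot {q : ℕ} {a b c : K} (h : Tri q a b c) : Tri q b c a :=
  ⟨by rw [← h.prod]; ring, by rw [show b + c + a = a + b + c by ring, ← h.e1]; ring,
    by rw [show b * c + c * a + a * b = a * b + b * c + c * a by ring, ← h.e2]; ring⟩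

theorem Tri.ne {q : ℕ} {a b c : K} (h : Tri q a b c) : a ≠ 0 := by
  rintro rfl
  have := h.prod
  rw [zero_mul, zero_mul] at this
  exact zero_ne_one this

/-- key identity: `(z - a')(z - b')(z - c') = (z - a)(z - b)(z - c)` for the inverses `a'` of `a^q` -/
theorem Tri.key {q : ℕ} {a b c : K} (h : Tri q a b c) (z : K) :
    (a ^ q * z - 1) * (b ^ q * z - 1) * (c ^ q * z - 1) = (z - a) * (z - b) * (z - c) := by
  have h1 : a ^ q * b ^ q * c ^ q = 1 := by rw [← mul_pow, ← mul_pow, h.prod, one_pow]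
  linear_combination z ^ 3 * h1 - z ^ 2 * h.e1 + z * h.e2 + h.prod

/-- the image of `a` -/
theorem Tri.img {q : ℕ} {a b c : K} (h : Tri q a b c) : a ^ q * a = 1 ∨ a ^ q * b = 1 ∨ a ^ q * c = 1 := by
  have ha : a ^ q ≠ 0 := pow_ne_zero _ h.ne
  have h1 := h.key ((a ^ q)⁻¹)
  rw [mul_inv_cancel₀ ha, sub_self, zero_mul, zero_mul] at h1
  have h2 := h1.symm
  have fin : ∀ x : K, (a ^ q)⁻¹ - x = 0 → a ^ q * x = 1 := by
    intro x hx
    rw [← sub_eq_zero.1 hx, mul_inv_cancel₀ ha]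
  rcases mul_eq_zero.1 h2 with h2 | h2
  · rcases mul_eq_zero.1 h2 with h2 | h2
    · exact Or.inl (fin _ h2)
    · exact Or.inr (Or.inl (fin _ h2))
  · exact Or.inr (Or.inr (fin _ h2))

/-- the four types -/
def Ty (q : ℕ) (a b c : K) : Prop :=
  (a ^ q * a = 1 ∧ b ^ q * b = 1 ∧ c ^ q * c = 1) ∨
  (a ^ q * a = 1 ∧ b ^ q * c = 1 ∧ c ^ q * b = 1) ∨
  (b ^ q * b = 1 ∧ c ^ q * a = 1 ∧ a ^ q * c = 1) ∨
  (c ^ q * c = 1 ∧ a ^ q * b = 1 ∧ b ^ q * a = 1) ∨
  (a ^ q * b = 1 ∧ b ^ q * c = 1 ∧ c ^ q * a = 1) ∨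
  (a ^ q * c = 1 ∧ c ^ q * b = 1 ∧ b ^ q * a = 1)

theorem Tri.ty {q : ℕ} {a b c : K} (h : Tri q a b c) (hinj : ∀ x y : K, x ^ q = y ^ q → x = y)
    (hab : a ≠ b) (hbc : b ≠ c) (hca : c ≠ a) : Ty q a b c := by
  have inj : ∀ (x y z : K), z ≠ 0 → x ^ q * z = 1 → y ^ q * z = 1 → x = y := by
    intro x y z hz h1 h2
    exact hinj x y (mul_right_cancel₀ hz (h1.trans h2.symm))
  have ha := h.ne
  have hb := h.rot.ne
  have hc := h.rot.rot.ne
  rcases h.img with h1 | h1 | h1
  · rcases h.rot.img with h2 | h2 | h2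
    · rcases h.rot.rot.img with h3 | h3 | h3
      · exact Or.inl ⟨h1, h2, h3⟩
      · exact absurd (inj c a a ha h3 h1) hca
      · exact absurd (inj b c b hb h2 h3) hbc
    · rcases h.rot.rot.img with h3 | h3 | h3
      · exact absurd (inj b c c hc h2 h3) hbc
      · exact absurd (inj c a a ha h3 h1) hca
      · exact Or.inr (Or.inl ⟨h1, h2, h3⟩)
    · exact absurd (inj a b a ha h1 h2) hab
  · rcases h.rot.img with h2 | h2 | h2
    · exact absurd (inj a b b hb h1 h2) hab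
    · rcases h.rot.rot.img with h3 | h3 | h3
      · exact absurd (inj b c c hc h2 h3) hbc
      · exact Or.inr (Or.inr (Or.inr (Or.inr (Or.inl ⟨h1, h2, h3⟩))))
      · exact absurd (inj c a b hb h3 h1) hca
    · rcases h.rot.rot.img with h3 | h3 | h3
      · exact Or.inr (Or.inr (Or.inr (Or.inl ⟨h3, h1, h2⟩)))
      · exact absurd (inj b c a ha h2 h3) hbc
      · exact absurd (inj c a b hb h3 h1) hca
  · rcases h.rot.img with h2 | h2 | h2
    · rcases h.rot.rot.img with h3 | h3 | h3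
      · exact absurd (inj c a c hc h3 h1) hca
      · exact Or.inr (Or.inr (Or.inl ⟨h2, h3, h1⟩))
      · exact absurd (inj b c b hb h2 h3) hbc
    · exact absurd (inj a b c hc h1 h2) hab
    · rcases h.rot.rot.img with h3 | h3 | h3
      · exact absurd (inj c a c hc h3 h1) hca
      · exact absurd (inj b c a ha h2 h3) hbc
      · exact Or.inr (Or.inr (Or.inr (Or.inr (Or.inr ⟨h1, h3, h2⟩))))

/-- repeated root -/
theorem Tri.rep {q : ℕ} {a c : K} (h : Tri q a a c) (hinj : ∀ x y : K, x ^ q = y ^ q → x = y) :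
    a ^ q * a = 1 := by
  have ha := h.ne
  have hc := h.rot.rot.ne
  rcases h.img with h1 | h1 | h1
  · exact h1
  · exact h1
  · -- image of `a` is `c`
    rcases h.rot.rot.img with h2 | h2 | h2
    · have h3 : a = c := hinj a c (mul_right_cancel₀ hc (h1.trans h2.symm))
      rw [← h3] at h1; exact h1
    · have h3 := h.prod
      -- e1: a' + a' + c' = 2c + a; so 2c + a = 2a + c
      have h4 := h.e1
      have h5 : a ^ q * a ^ q * c ^ q = 1 := by rw [← mul_pow, ← mul_pow, h3, one_pow]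
      have e1 : a ^ q * a ^ q = a := by
        have : a ^ q * a ^ q * c ^ q * a = a := by rw [h5, one_mul]
        calc a ^ q * a ^ q = a ^ q * a ^ q * (c ^ q * a) := by rw [h2, mul_one]
          _ = a := by rw [← mul_assoc]; exact this
      have e2 : a ^ q * c ^ q = c := by
        calc a ^ q * c ^ q = a ^ q * c ^ q * (a ^ q * c) := by rw [h1, mul_one]
          _ = (a ^ q * a ^ q * c ^ q) * c := by ring
          _ = c := by rw [h5, one_mul]
      have h6 : a = c := by linear_combination e1 + 2 * e2 - h4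
      rw [← h6] at h1; exact h1
    · have h3 := h.prod
      have h4 := h.e1
      have h5 : a ^ q * a ^ q * c ^ q = 1 := by rw [← mul_pow, ← mul_pow, h3, one_pow]
      have e1 : a ^ q * a ^ q = a := by
        have : a ^ q * a ^ q * c ^ q * a = a := by rw [h5, one_mul]
        calc a ^ q * a ^ q = a ^ q * a ^ q * (c ^ q * a) := by rw [h2, mul_one]
          _ = a := by rw [← mul_assoc]; exact this
      have e2 : a ^ q * c ^ q = c := by
        calc a ^ q * c ^ q = a ^ q * c ^ q * (a ^ q * c) := by rw [h1, mul_one]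
          _ = (a ^ q * a ^ q * c ^ q) * c := by ring
          _ = c := by rw [h5, one_mul]
      have h6 : a = c := by linear_combination e1 + 2 * e2 - h4
      rw [← h6] at h1; exact h1

section arith

variable {q d e f : ℕ} (hq : 2 ≤ q) (he : q + 1 = d * e) (hf : 3 = d * f)
include hq he hf

/-- the transposition type -/
theorem ty_swap {a b c : K} (hb0 : b ≠ 0) (hc0 : c ≠ 0) (hp : a * b * c = 1)
    (h1 : b ^ q * c = 1) (h2 : c ^ q * b = 1) :
    a ^ ((q - 1) * e) = b ^ ((q - 1) * e) ∧ c ^ ((q - 1) * e) = b ^ ((q - 1) * e) ∧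
      b ^ (q ^ 2) = b := by
  have hbq : b ^ (q ^ 2) = b := by
    have h3 : (b ^ q * c) ^ q = 1 := by rw [h1, one_pow]
    rw [mul_pow, ← pow_mul, ← pow_two] at h3
    have h4 : b ^ (q ^ 2) * c ^ q = b * c ^ q := by rw [h3, mul_comm, h2]
    exact mul_right_cancel₀ (pow_ne_zero _ hc0) h4
  have hb1 : b ^ ((q - 1) * (q + 1)) = 1 := by
    have h3 : (q - 1) * (q + 1) + 1 = q ^ 2 := by
      obtain ⟨r, rfl⟩ : ∃ r, q = r + 1 := ⟨q - 1, by omega⟩
      simp only [Nat.add_sub_cancel]; ring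
    have h4 : b ^ ((q - 1) * (q + 1)) * b = 1 * b := by rw [← pow_succ, h3, hbq, one_mul]
    exact mul_right_cancel₀ hb0 h4
  set k := (q - 1) * e with hk
  have hbk1 : b ^ (q * k) * b ^ k = 1 := by
    rw [← pow_add]
    have : q * k + k = (q - 1) * (q + 1) * e := by rw [hk]; ring
    rw [this, pow_mul, hb1, one_pow]
  have hbk3 : b ^ (3 * k) = 1 := by
    have : 3 * k = (q - 1) * (q + 1) * f := by
      rw [hk, he]; nth_rewrite 1 [hf]; ring
    rw [this, pow_mul, hb1, one_pow]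
  have hck : c ^ k = b ^ k := by
    have h3 : (b ^ q * c) ^ k = 1 := by rw [h1, one_pow]
    rw [mul_pow, ← pow_mul] at h3
    exact mul_left_cancel₀ (pow_ne_zero _ hb0) (h3.trans hbk1.symm)
  refine ⟨?_, hck, hbq⟩
  have h3 : (a * b * c) ^ k = 1 := by rw [hp, one_pow]
  rw [mul_pow, mul_pow, hck, mul_assoc, ← pow_add] at h3
  have h4 : b ^ k * b ^ (k + k) = 1 := by
    rw [← pow_add, show k + (k + k) = 3 * k by ring, hbk3]
  exact mul_right_cancel₀ (pow_ne_zero _ hb0) (h3.trans h4.symm)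

/-- the 3-cycle type -/
theorem ty_cyc {n : ℕ} (hn : q ^ 2 - q + 1 = d * n) {a b c : K} (ha0 : a ≠ 0) (hb0 : b ≠ 0)
    (hp : a * b * c = 1)
    (h1 : a ^ q * b = 1) (h2 : b ^ q * c = 1) :
    b ^ n = a ^ n ∧ c ^ n = a ^ n ∧ (a ^ n) ^ (q ^ 2) = a ^ n ∧ a ^ (q ^ 2 - q + 1) = 1 ∧ c = a ^ (q ^ 2) := by
  have hc : c = a ^ (q ^ 2) := by
    have h3 : (a ^ q * b) ^ q = 1 := by rw [h1, one_pow]
    rw [mul_pow, ← pow_mul, ← pow_two] at h3
    have h4 : b ^ q * c = b ^ q * a ^ (q ^ 2) := by rw [h2, mul_comm, h3]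
    exact mul_left_cancel₀ (pow_ne_zero _ hb0) h4
  have hqq : q ≤ q ^ 2 := by nlinarith
  have hN : a ^ (q ^ 2 - q + 1) = 1 := by
    have h3 : a ^ (q ^ 2 - q + 1) * a ^ q = 1 * a ^ q := by
      rw [← pow_add, show q ^ 2 - q + 1 + q = q ^ 2 + 1 by omega, one_mul]
      calc a ^ (q ^ 2 + 1) = a ^ (q ^ 2) * a * (a ^ q * b) := by rw [h1, mul_one, pow_succ]
        _ = (a * b * c) * a ^ q := by rw [hc]; ring
        _ = a ^ q := by rw [hp, one_mul]
    exact mul_right_cancel₀ (pow_ne_zero _ ha0) h3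
  have h5 : a ^ (q * n) * a ^ n = 1 := by
    rw [← pow_add, show q * n + n = (q + 1) * n by ring, he, show d * e * n = d * n * e by ring, ← hn,
      pow_mul, hN, one_pow]
  have hbn : b ^ n = a ^ n := by
    have h3 : (a ^ q * b) ^ n = 1 := by rw [h1, one_pow]
    rw [mul_pow, ← pow_mul] at h3
    exact mul_left_cancel₀ (pow_ne_zero _ ha0) (h3.trans h5.symm)
  have h6 : a ^ (q ^ 2 * n) = a ^ n := by
    obtain ⟨r, rfl⟩ : ∃ r, q = r + 1 := ⟨q - 1, by omega⟩
    have h7 : (r + 1) ^ 2 * n = (r + 1 + 1) * n * r + n := by ring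
    rw [h7, pow_add, he, show d * e * n * r = d * n * (e * r) by ring, ← hn, pow_mul, hN, one_pow, one_mul]
  refine ⟨hbn, ?_, ?_, hN, hc⟩
  · rw [hc, ← pow_mul, h6]
  · rw [← pow_mul, mul_comm, h6]

/-- the repeated root type -/
theorem ty_rep {a c : K} (ha0 : a ≠ 0) (hp : a * a * c = 1) (h1 : a ^ q * a = 1) :
    c ^ e = a ^ e ∧ a ^ (q ^ 2) = a := by
  have h2 : a ^ (q + 1) = 1 := by rw [pow_succ, h1]
  refine ⟨?_, ?_⟩
  · have h3 : (a * a * c) ^ e = 1 := by rw [hp, one_pow]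
    rw [mul_pow] at h3
    have h4 : (a * a) ^ e * a ^ e = 1 := by
      rw [← mul_pow, show a * a * a = a ^ 3 by ring, ← pow_mul]
      have : 3 * e = (q + 1) * f := by rw [he]; nth_rewrite 1 [hf]; ring
      rw [this, pow_mul, h2, one_pow]
    exact mul_left_cancel₀ (pow_ne_zero _ (mul_ne_zero ha0 ha0)) (h3.trans h4.symm)
  · obtain ⟨r, rfl⟩ : ∃ r, q = r + 1 := ⟨q - 1, by omega⟩
    have h7 : (r + 1) ^ 2 = (r + 1 + 1) * r + 1 := by ring
    rw [h7, pow_succ, pow_mul, h2, one_pow, one_mul]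

end arith

end Cfsg.Agent.H29.SpecU3
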