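import Cfsg.Agent.H18.PSU3a
import Cfsg.Agent.H29.SpecU3

/-!
# Powers of elements of `SU₃(q)` which are scalar (helper29)
-/

set_option autoImplicit false
set_option linter.style.haveILetI false
set_option linter.unusedSectionVars false
set_option linter.unusedSimpArgs false

namespace Cfsg.Agent.H29.SpecU3

open Polynomial Cfsg Cfsg.Agent.H5 Cfsg.Agent.H18

section poly

variable {K : Type*} [Field K]

theorem root_dvd {f : K[X]} {a : K} (h : f.eval a = 0) : (X - C a) ∣ f := dvd_iff_isRoot.2 h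

theorem cop {a b : K} (h : a ≠ b) : IsCoprime (X - C a) (X - C b) :=
  isCoprime_X_sub_C_of_isUnit_sub (sub_ne_zero.2 h).isUnit

theorem three_dvd {a b c s : K} {k : ℕ} (hab : a ≠ b) (hbc : b ≠ c) (hca : c ≠ a) (ha : a ^ k = s)
    (hb : b ^ k = s) (hc : c ^ k = s) : (X - C a) * (X - C b) * (X - C c) ∣ X ^ k - C s := by
  have e : ∀ x : K, x ^ k = s → (X ^ k - C s : K[X]).eval x = 0 := by
    intro x hx; simp [hx]
  refine IsCoprime.mul_dvd (IsCoprime.mul_left (cop hca.symm) (cop hbc)) ?_ (root_dvd (e c hc))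
  exact IsCoprime.mul_dvd (cop hab) (root_dvd (e a ha)) (root_dvd (e b hb))

theorem rep_dvd {p : ℕ} [Fact p.Prime] [CharP K p] (hp : p ≠ 2) {a c t : K} {k : ℕ}
    (ha : a ^ k = t) (hc : c ^ k = t) :
    (X - C a) * (X - C a) * (X - C c) ∣ X ^ (p * k) - C (t ^ p) := by
  have hpp : p.Prime := Fact.out
  have h3 : 3 ≤ p := by
    have := hpp.two_le; omega
  have e : ∀ x : K, x ^ k = t → (X ^ k - C t : K[X]).eval x = 0 := by
    intro x hx; simp [hx]
  have h1 : (X ^ (p * k) - C (t ^ p) : K[X]) = (X ^ k - C t) ^ p := by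
    rw [sub_pow_char, ← pow_mul, mul_comm k p, C_pow]
  rw [h1]
  by_cases hac : a = c
  · subst hac
    have h2 : (X - C a) * (X - C a) * (X - C a) = (X - C a) ^ 3 := by ring
    rw [h2]
    exact (pow_dvd_pow_of_dvd (root_dvd (e a ha)) 3).trans (pow_dvd_pow _ h3)
  · have h2 : (X - C a) * (X - C c) ∣ X ^ k - C t :=
      IsCoprime.mul_dvd (cop hac) (root_dvd (e a ha)) (root_dvd (e c hc))
    have h4 : (X - C a) * (X - C a) * (X - C c) ∣ ((X - C a) * (X - C c)) ^ 2 :=
      ⟨X - C c, by ring⟩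
    exact (h4.trans (pow_dvd_pow_of_dvd h2 2)).trans (pow_dvd_pow _ hpp.two_le)

end poly

variable {F : Type*} [Field F] [Fintype F]

theorem mem_of_pow {K : Type*} [Field K] [Algebra F K] {q : ℕ} (hF : Fintype.card F = q ^ 2) {x : K}
    (hx : x ^ (q ^ 2) = x) : ∃ y : F, algebraMap F K y = x := by
  classical
  have hlt : 1 < q ^ 2 := by rw [← hF]; exact Fintype.one_lt_card
  have hne : (X ^ (q ^ 2) - X : K[X]) ≠ 0 := FiniteField.X_pow_card_sub_X_ne_zero K hlt
  have hdeg : (X ^ (q ^ 2) - X : K[X]).natDegree = q ^ 2 :=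
    FiniteField.X_pow_card_sub_X_natDegree_eq K hlt
  set S : Finset K := (X ^ (q ^ 2) - X : K[X]).roots.toFinset with hS
  set T : Finset K := Finset.univ.image (algebraMap F K) with hT
  have hTS : T ⊆ S := by
    intro z hz
    obtain ⟨y, _, rfl⟩ := Finset.mem_image.1 hz
    rw [hS, Multiset.mem_toFinset, mem_roots hne]
    have hy : y ^ (q ^ 2) = y := by rw [← hF]; exact FiniteField.pow_card y
    simp only [IsRoot.def, eval_sub, eval_pow, eval_X]
    rw [← map_pow, hy, sub_self]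
  have hcT : T.card = q ^ 2 := by
    rw [hT, Finset.card_image_of_injective _ (algebraMap F K).injective, Finset.card_univ, hF]
  have hcS : S.card ≤ q ^ 2 := by
    calc S.card ≤ (X ^ (q ^ 2) - X : K[X]).roots.card := Multiset.toFinset_card_le _
      _ ≤ (X ^ (q ^ 2) - X : K[X]).natDegree := card_roots' _
      _ = q ^ 2 := hdeg
  have hTS' : T = S := Finset.eq_of_subset_of_card_le hTS (by rw [hcT]; exact hcS)
  have hxS : x ∈ S := by
    rw [hS, Multiset.mem_toFinset, mem_roots hne]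
    simp only [IsRoot.def, eval_sub, eval_pow, eval_X]
    rw [hx, sub_self]
  rw [← hTS'] at hxS
  obtain ⟨y, _, hy⟩ := Finset.mem_image.1 hxS
  exact ⟨y, hy⟩

theorem exists_abc (K : Type*) [Field K] [IsAlgClosed K] [Algebra F K] {f : F[X]} (hf : f.Monic)
    (h3 : f.natDegree = 3) : ∃ a b c : K, f.map (algebraMap F K) = (X - C a) * (X - C b) * (X - C c) := by
  have hs : (f.map (algebraMap F K)).Splits := IsAlgClosed.splits _
  have hm : (f.map (algebraMap F K)).Monic := hf.map _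
  have h1 := hs.eq_prod_roots_of_monic hm
  have h2 : (f.map (algebraMap F K)).roots.card = 3 := by
    rw [← hs.natDegree_eq_card_roots, hf.natDegree_map, h3]
  obtain ⟨a, b, c, h⟩ := Multiset.card_eq_three.1 h2
  refine ⟨a, b, c, ?_⟩
  rw [h1, h]
  simp [mul_assoc]

variable {p : ℕ} [Fact p.Prime] [CharP F p] {q : ℕ} {σ : F →+* F}

theorem q_pow (hF : Fintype.card F = q ^ 2) : ∃ n, q = p ^ n := by
  have hpp : p.Prime := Fact.out
  obtain ⟨n, hn⟩ := FiniteField.card F p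
  have h1 : q ∣ p ^ (n : ℕ) := by
    rw [← hn.2, hF]; exact Dvd.intro q (by ring)
  obtain ⟨k, _, hk⟩ := (Nat.dvd_prime_pow hpp).1 h1
  exact ⟨k, hk⟩

theorem two_ne (hp : p ≠ 2) : (2 : F) ≠ 0 := by
  have hpp : p.Prime := Fact.out
  intro h
  have h1 : ((2 : ℕ) : F) = 0 := by exact_mod_cast h
  rw [CharP.cast_eq_zero_iff F p] at h1
  exact hp ((Nat.prime_dvd_prime_iff_eq hpp Nat.prime_two).1 h1)

/-- the roots form a triple -/
theorem exists_tri (hp : p ≠ 2) (hF : Fintype.card F = q ^ 2) (hσ : ∀ x, σ x = x ^ q)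
    (hσ2 : ∀ x, σ (σ x) = x) (A : SU 3 F q) :
    ∃ a b c : AlgebraicClosure F,
      (mt A).charpoly.map (algebraMap F (AlgebraicClosure F)) = (X - C a) * (X - C b) * (X - C c) ∧
      Tri q a b c := by
  obtain ⟨n, hn⟩ := q_pow (p := p) hF
  obtain ⟨a, b, c, h⟩ := exists_abc (AlgebraicClosure F) (mt A).charpoly_monic
    (by rw [Matrix.charpoly_natDegree_eq_dim, Fintype.card_fin])
  refine ⟨a, b, c, h, ?_⟩
  have h1 := h
  rw [charpoly_SU3 hσ] at h1
  set τ := (mt A).trace with hτ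
  haveI : CharP (AlgebraicClosure F) p := charP_of_injective_algebraMap (algebraMap F _).injective p
  set T := algebraMap F (AlgebraicClosure F) τ with hT
  set T' := algebraMap F (AlgebraicClosure F) (σ τ) with hT'
  have hev : ∀ z : AlgebraicClosure F, z ^ 3 - T * z ^ 2 + T' * z - 1 = (z - a) * (z - b) * (z - c) := by
    intro z
    have h2 := congrArg (eval z) h1
    simpa using h2
  have e3 : a * b * c = 1 := by
    have := hev 0
    linear_combination this
  have h2 : (2 : AlgebraicClosure F) ≠ 0 := by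
    intro h
    apply two_ne (F := F) hp
    apply (algebraMap F (AlgebraicClosure F)).injective
    rw [map_ofNat, map_zero]; exact h
  have hp1 := hev 1
  have hm1 := hev (-1)
  have e2 : a * b + b * c + c * a = T' := by
    have : 2 * (a * b + b * c + c * a) = 2 * T' := by
      linear_combination -hp1 + hm1
    exact mul_left_cancel₀ h2 this
  have e1 : a + b + c = T := by
    have : 2 * (a + b + c) = 2 * T := by
      linear_combination hp1 + hm1 - 2 * e3
    exact mul_left_cancel₀ h2 this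
  have hTq : T' = T ^ q := by rw [hT, hT', ← map_pow, hσ]
  have hTq' : T'^ q = T := by rw [hT, hT', ← map_pow, ← hσ, hσ2]
  have hadd : ∀ x y : AlgebraicClosure F, (x + y) ^ q = x ^ q + y ^ q := by
    intro x y
    rw [hn]; exact add_pow_char_pow x y p n
  refine ⟨e3, ?_, ?_⟩
  · rw [e1, ← mul_pow, ← mul_pow, ← mul_pow, ← hadd, ← hadd, e2, hTq']
  · rw [e2, ← hadd, ← hadd, e1, hTq]

theorem pow_scalar {A : SU 3 F q} {k : ℕ} {s : F} (h : (mt A).charpoly ∣ X ^ k - C s) :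
    mt A ^ k = s • (1 : Matrix (Fin 3) (Fin 3) F) := by
  obtain ⟨g, hg⟩ := h
  have h1 := congrArg (aeval (mt A)) hg
  rw [map_mul, Matrix.aeval_self_charpoly, zero_mul, map_sub, map_pow, aeval_X, aeval_C, sub_eq_zero] at h1
  rw [h1, Algebra.algebraMap_eq_smul_one]

theorem descend (hF : Fintype.card F = q ^ 2) {A : SU 3 F q} {a b c s' : AlgebraicClosure F} {k : ℕ}
    (hχ : (mt A).charpoly.map (algebraMap F (AlgebraicClosure F)) = (X - C a) * (X - C b) * (X - C c))
    (hs : s' ^ (q ^ 2) = s') (h : (X - C a) * (X - C b) * (X - C c) ∣ X ^ k - C s') :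
    ∃ s : F, mt A ^ k = s • (1 : Matrix (Fin 3) (Fin 3) F) := by
  obtain ⟨s, rfl⟩ := mem_of_pow hF hs
  refine ⟨s, pow_scalar ?_⟩
  rw [← map_dvd_map' (algebraMap F (AlgebraicClosure F)), hχ]
  simpa using h

/-- **every element of `SU₃(q)` has a scalar power with one of the four exponents** -/
theorem four_cases (hp : p ≠ 2) (hF : Fintype.card F = q ^ 2) (hσ : ∀ x, σ x = x ^ q)
    (hσ2 : ∀ x, σ (σ x) = x) {d e f n : ℕ} (he : q + 1 = d * e) (hf : 3 = d * f)
    (hn : q ^ 2 - q + 1 = d * n) (A : SU 3 F q) :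
    ∃ k, (k = q + 1 ∨ k = p * e ∨ k = (q - 1) * e ∨ k = n) ∧
      ∃ s : F, mt A ^ k = s • (1 : Matrix (Fin 3) (Fin 3) F) := by
  have hq : 2 ≤ q := q_pos hF
  haveI : CharP (AlgebraicClosure F) p := charP_of_injective_algebraMap (algebraMap F _).injective p
  obtain ⟨m, hm⟩ := q_pow (p := p) hF
  have hinj : ∀ x y : AlgebraicClosure F, x ^ q = y ^ q → x = y := by
    intro x y h
    have h1 : (x - y) ^ q = 0 := by
      rw [hm, sub_pow_char_pow, ← hm, h, sub_self]
    exact sub_eq_zero.1 (pow_eq_zero_iff (by omega) |>.1 h1)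
  obtain ⟨a, b, c, hχ, h⟩ := exists_tri hp hF hσ hσ2 A
  have hrep : ∀ {a c : AlgebraicClosure F}, Tri q a a c →
      (mt A).charpoly.map (algebraMap F (AlgebraicClosure F)) = (X - C a) * (X - C a) * (X - C c) →
      ∃ k, (k = q + 1 ∨ k = p * e ∨ k = (q - 1) * e ∨ k = n) ∧
      ∃ s : F, mt A ^ k = s • (1 : Matrix (Fin 3) (Fin 3) F) := by
    intro a c h hχ
    obtain ⟨h1, h2⟩ := ty_rep hq he hf h.ne h.prod (h.rep hinj)
    refine ⟨p * e, Or.inr (Or.inl rfl), descend hF hχ ?_ (rep_dvd hp rfl h1)⟩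
    rw [← pow_mul, ← pow_mul, ← pow_mul]
    rw [show e * (p * q ^ 2) = q ^ 2 * (e * p) by ring, pow_mul, h2]
  have hswap : ∀ {a b c : AlgebraicClosure F}, Tri q a b c → a ≠ b → b ≠ c → c ≠ a →
      b ^ q * c = 1 → c ^ q * b = 1 →
      (mt A).charpoly.map (algebraMap F (AlgebraicClosure F)) = (X - C a) * (X - C b) * (X - C c) →
      ∃ k, (k = q + 1 ∨ k = p * e ∨ k = (q - 1) * e ∨ k = n) ∧
      ∃ s : F, mt A ^ k = s • (1 : Matrix (Fin 3) (Fin 3) F) := by
    intro a b c h hab hbc hca h1 h2 hχ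
    obtain ⟨e1, e2, e3⟩ := ty_swap hq he hf h.rot.ne h.rot.rot.ne h.prod h1 h2
    refine ⟨(q - 1) * e, Or.inr (Or.inr (Or.inl rfl)), descend hF hχ ?_ (three_dvd hab hbc hca e1 rfl e2)⟩
    rw [← pow_mul, mul_comm, pow_mul, e3]
  have hcyc : ∀ {a b c : AlgebraicClosure F}, Tri q a b c → a ≠ b → b ≠ c → c ≠ a →
      a ^ q * b = 1 → b ^ q * c = 1 →
      (mt A).charpoly.map (algebraMap F (AlgebraicClosure F)) = (X - C a) * (X - C b) * (X - C c) →
      ∃ k, (k = q + 1 ∨ k = p * e ∨ k = (q - 1) * e ∨ k = n) ∧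
      ∃ s : F, mt A ^ k = s • (1 : Matrix (Fin 3) (Fin 3) F) := by
    intro a b c h hab hbc hca h1 h2 hχ
    obtain ⟨e1, e2, e3, _, _⟩ := ty_cyc hq he hf hn h.ne h.rot.ne h.prod h1 h2
    exact ⟨n, Or.inr (Or.inr (Or.inr rfl)), descend hF hχ e3 (three_dvd hab hbc hca rfl e1 e2)⟩
  by_cases hab : a = b
  · subst hab
    exact hrep h hχ
  by_cases hbc : b = c
  · subst hbc
    exact hrep h.rot (by rw [hχ]; ring)
  by_cases hca : c = a
  · subst hca
    exact hrep h.rot.rot (by rw [hχ]; ring)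
  rcases h.ty hinj hab hbc hca with h1 | h1 | h1 | h1 | h1 | h1
  · obtain ⟨h1, h2, h3⟩ := h1
    refine ⟨q + 1, Or.inl rfl, descend hF hχ (one_pow _) (three_dvd hab hbc hca ?_ ?_ ?_)⟩
    · rw [pow_succ, h1]
    · rw [pow_succ, h2]
    · rw [pow_succ, h3]
  · exact hswap h hab hbc hca h1.2.1 h1.2.2 hχ
  · exact hswap h.rot hbc hca hab h1.2.1 h1.2.2 (by rw [hχ]; ring)
  · exact hswap h.rot.rot hca hab hbc h1.2.1 h1.2.2 (by rw [hχ]; ring)
  · exact hcyc h hab hbc hca h1.1 h1.2.1 hχ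
  · exact hcyc h.swap.rot (Ne.symm hca) (Ne.symm hbc) (Ne.symm hab) h1.1 h1.2.1 (by rw [hχ]; ring)

/-- a scalar matrix is central -/
theorem central_of_scalar {A : SU 3 F q} {s : F} (h : mt A = s • (1 : Matrix (Fin 3) (Fin 3) F)) :
    A ∈ Subgroup.center (SU 3 F q) := by
  rw [Subgroup.mem_center_iff]
  intro g
  apply mt_inj
  rw [mt_mul, mt_mul, h, Matrix.mul_smul, Matrix.smul_mul, mul_one, one_mul]

/-- **upper half**: the orders of elements of `PSU₃(q)` -/
theorem order_dvd (hp : p ≠ 2) (hF : Fintype.card F = q ^ 2) {d e f n : ℕ} (he : q + 1 = d * e)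
    (hf : 3 = d * f) (hn : q ^ 2 - q + 1 = d * n) (x : PSU 3 F q) :
    orderOf x ∣ q + 1 ∨ orderOf x ∣ p * e ∨ orderOf x ∣ (q - 1) * e ∨ orderOf x ∣ n := by
  obtain ⟨σ, hσ, hσ2, hσ1⟩ := exists_frob (q := q) hF
  obtain ⟨A, rfl⟩ := QuotientGroup.mk'_surjective (Subgroup.center (SU 3 F q)) x
  obtain ⟨k, hk, s, hs⟩ := four_cases hp hF hσ hσ2 he hf hn A
  have h1 : orderOf (QuotientGroup.mk' (Subgroup.center (SU 3 F q)) A) ∣ k := by
    rw [orderOf_dvd_iff_pow_eq_one, ← map_pow]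
    rw [← mt_pow] at hs
    exact (QuotientGroup.eq_one_iff _).2 (central_of_scalar hs)
  rcases hk with rfl | rfl | rfl | rfl
  · exact Or.inl h1
  · exact Or.inr (Or.inl h1)
  · exact Or.inr (Or.inr (Or.inl h1))
  · exact Or.inr (Or.inr (Or.inr h1))

end Cfsg.Agent.H29.SpecU3
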