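import Cfsg.Agent.H18.PSU3d
import Cfsg.Agent.H29.SpecU3b

/-!
# Elements of `PSU₃(q)` of the four maximal orders (helper29)
-/

set_option autoImplicit false
set_option linter.style.haveILetI false
set_option linter.unusedSectionVars false
set_option linter.unusedSimpArgs false
set_option linter.unusedVariables false

namespace Cfsg.Agent.H29.SpecU3

open Polynomial Cfsg Cfsg.Agent.H5 Cfsg.Agent.H5.FormData Cfsg.Agent.H18

variable {F : Type*} [Field F] [Fintype F] {q : ℕ} {σ : F →+* F}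

local notation "h⟪" x ", " y "⟫" => hB (Fin 3) σ x y

/-- the class in `PSU₃(q)` -/
def cls (A : SU 3 F q) : PSU 3 F q := QuotientGroup.mk' (Subgroup.center (SU 3 F q)) A

theorem cls_pow_one {A : SU 3 F q} {k : ℕ} : cls A ^ k = 1 ↔ A ^ k ∈ Subgroup.center (SU 3 F q) := by
  unfold cls
  rw [← map_pow]
  exact QuotientGroup.eq_one_iff _

theorem scal_of (hF : Fintype.card F = q ^ 2) (hσ : ∀ x, σ x = x ^ q) {A : SU 3 F q} {k : ℕ}
    (h : cls A ^ k = 1) : ∃ c : F, ∀ y, sv (A ^ k) y = c • y := by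
  obtain ⟨c, hc⟩ := SU_center_scalar hF hσ (by norm_num) (cls_pow_one.1 h)
  refine ⟨c, fun y => ?_⟩
  change ((A ^ k : SU 3 F q) : Matrix.SpecialLinearGroup (Fin 3) F).1.mulVec y = _
  rw [hc, Matrix.smul_mulVec, Matrix.one_mulVec]

theorem one_of_scal {A : SU 3 F q} {k : ℕ} {c : F} (h : ∀ y, sv (A ^ k) y = c • y) : cls A ^ k = 1 := by
  rw [cls_pow_one, Subgroup.mem_center_iff]
  intro g
  apply sv_ext
  intro y
  rw [sv_mul, sv_mul, h, h, sv_smul]

theorem eig_pow {A : SU 3 F q} {v : Fin 3 → F} {a : F} (h : sv A v = a • v) (k : ℕ) :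
    sv (A ^ k) v = a ^ k • v := by
  induction k with
  | zero => rw [pow_zero, pow_zero, sv_one, one_smul]
  | succ k ih => rw [pow_succ, sv_mul, h, sv_smul, ih, smul_smul]; congr 1; ring

theorem eig_eq {A : SU 3 F q} {v w : Fin 3 → F} {a b c : F} {k : ℕ} (hv0 : v ≠ 0) (hw0 : w ≠ 0)
    (hv : sv A v = a • v) (hw : sv A w = b • w) (h : ∀ y, sv (A ^ k) y = c • y) : a ^ k = b ^ k := by
  have h1 := h v
  rw [eig_pow hv] at h1
  have h2 := h w
  rw [eig_pow hw] at h2
  have e : ∀ {x : F} {y : Fin 3 → F}, y ≠ 0 → x • y = c • y → x = c := by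
    intro x y hy hxy
    have : (x - c) • y = 0 := by rw [sub_smul, hxy, sub_self]
    rcases smul_eq_zero.1 this with h | h
    · exact sub_eq_zero.1 h
    · exact absurd h hy
  rw [e hv0 h1, e hw0 h2]

theorem Fr_ne {v w u : Fin 3 → F} (h : Fr σ v w u) : v ≠ 0 ∧ w ≠ 0 ∧ u ≠ 0 := by
  refine ⟨?_, ?_, ?_⟩
  · rintro rfl
    have := h.wv
    rw [map_zero] at this
    exact zero_ne_one this
  · rintro rfl
    have := h.vw
    rw [map_zero] at this
    exact zero_ne_one this
  · rintro rfl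
    have := h.uu
    rw [map_zero] at this
    exact zero_ne_one this

/-- the torus element with all its eigenvalues -/
theorem exists_diag (hσ : ∀ x, σ x = x ^ q) (hσ2 : ∀ a, σ (σ a) = a) {v w u : Fin 3 → F}
    (h : Fr σ v w u) {a : F} (ha0 : a ≠ 0) : ∃ D : SU 3 F q, sv D v = a • v ∧
      sv D w = (σ a)⁻¹ • w ∧ sv D u = (σ a / a) • u := by
  have hS := hB_symm (ι := Fin 3) hσ2
  have hσa0 : σ a ≠ 0 := fun h => ha0 ((map_eq_zero σ).mp h)
  obtain ⟨D, hD⟩ := exists_SU_rank3 (n := 3) (q := q) hσ ((a - 1) • v) (((σ a)⁻¹ - 1) • w)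
    ((σ a / a - 1) • u) (hB (Fin 3) σ w) (hB (Fin 3) σ v)
    (hB (Fin 3) σ u) (by
      intro y z
      simp only [bl_add, br_add, bl_smul, br_smul, h.vv, h.ww, h.vw, h.wv, h.vu, h.wu, h.uv, h.uw, h.uu,
        map_sub, map_one, map_inv₀, map_div₀, hσ2]
      rw [← hS v y, ← hS w y, ← hS u y]
      field_simp
      ring) (by rw [br_smul, h.ww, mul_zero]) (by rw [br_smul, h.wu, mul_zero])
      (by rw [br_smul, h.vv, mul_zero]) (by rw [br_smul, h.vu, mul_zero])
      (by rw [br_smul, h.uv, mul_zero]) (by rw [br_smul, h.uw, mul_zero]) (by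
      simp only [br_smul, h.wv, h.vw, h.uu]
      field_simp
      ring)
  refine ⟨D, ?_, ?_, ?_⟩
  · rw [hD, h.wv, h.vv, h.uv]; module
  · rw [hD, h.ww, h.vw, h.uw]; module
  · rw [hD, h.wu, h.vu, h.uu]; module

/-- scalar on a frame -/
theorem scal_fr (hσ2 : ∀ a, σ (σ a) = a) {v w u : Fin 3 → F}
    (h : Fr σ v w u) {A : SU 3 F q} {c : F} (hv : sv A v = c • v) (hw : sv A w = c • w)
    (hu : sv A u = c • u) (y : Fin 3 → F) : sv A y = c • y := by
  conv_lhs => rw [h.exp hσ2 y]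
  conv_rhs => rw [h.exp hσ2 y]
  rw [sv_add, sv_add, sv_smul, sv_smul, sv_smul, hv, hw, hu]
  module

section arith

variable {d e f n : ℕ} (he : q + 1 = d * e) (hf : 3 = d * f) (hd : d = Nat.gcd 3 (q + 1))
include he hf hd

theorem cop_ef : Nat.Coprime e f := by
  have hd0 : 0 < d := by
    rcases Nat.eq_zero_or_pos d with h | h
    · rw [h] at hf; omega
    · exact h
  have h1 : Nat.gcd (d * f) (d * e) = d := by rw [← hf, ← he, hd]
  rw [Nat.gcd_mul_left] at h1
  have h2 : Nat.gcd f e = 1 := by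
    have : d * Nat.gcd f e = d * 1 := by rw [h1, mul_one]
    exact Nat.eq_of_mul_eq_mul_left hd0 this
  exact Nat.Coprime.symm h2

end arith

/-- a primitive element -/
theorem exists_prim (hF : Fintype.card F = q ^ 2) : ∃ a : F, a ≠ 0 ∧ orderOf a = (q - 1) * (q + 1) := by
  have hq := q_pos hF
  obtain ⟨g, hg⟩ := IsCyclic.exists_generator (α := Fˣ)
  have h1 := orderOf_eq_card_of_forall_mem_zpowers hg
  rw [Nat.card_units, Nat.card_eq_fintype_card, hF] at h1
  refine ⟨g, g.ne_zero, ?_⟩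
  rw [orderOf_units, h1]
  obtain ⟨r, rfl⟩ : ∃ r, q = r + 1 := ⟨q - 1, by omega⟩
  simp only [Nat.add_sub_cancel]
  have : (r + 1) ^ 2 = r * (r + 1 + 1) + 1 := by ring
  omega

theorem exists_prim' (hF : Fintype.card F = q ^ 2) : ∃ a : F, a ≠ 0 ∧ orderOf a = q + 1 := by
  have hq := q_pos hF
  obtain ⟨a, ha0, ha⟩ := exists_prim hF
  refine ⟨a ^ (q - 1), pow_ne_zero _ ha0, ?_⟩
  rw [orderOf_pow_of_dvd (by omega) (by rw [ha]; exact Dvd.intro _ rfl), ha]
  exact Nat.mul_div_cancel_left _ (by omega)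

/-- order `q + 1` -/
theorem o1 (hF : Fintype.card F = q ^ 2) : ∃ x : PSU 3 F q, orderOf x = q + 1 := by
  obtain ⟨σ, hσ, hσ2, hσ1⟩ := exists_frob (q := q) hF
  obtain ⟨z, hz0, hz⟩ := exists_prim' hF
  have hz1 : z ^ (q + 1) = 1 := by rw [← hz]; exact pow_orderOf_eq_one z
  have hσz : σ z * z = 1 := by rw [hσ, ← pow_succ, hz1]
  have hd : ∀ i, σ (![z, 1, z⁻¹] i) * ![z, 1, z⁻¹] i = 1 := by
    intro i
    fin_cases i
    · exact hσz
    · simp
    · simp only [Fin.reduceFinMk, Matrix.cons_val]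
      rw [map_inv₀, ← mul_inv, hσz, inv_one]
  let A : SU 3 F q := mkSU hσ (Matrix.diagonal ![z, 1, z⁻¹]) (diagonal_cols hd) (by
    rw [Matrix.det_diagonal, Fin.prod_univ_three]
    simp [hz0])
  have hA : ∀ i, sv A (Pi.single i 1) = (![z, 1, z⁻¹] i) • (Pi.single i 1 : Fin 3 → F) := by
    intro i
    change (Matrix.diagonal ![z, 1, z⁻¹]).mulVec (Pi.single i 1) = _
    rw [Matrix.diagonal_mulVec_single, ← Pi.single_smul, smul_eq_mul]
  refine ⟨cls A, Nat.dvd_antisymm ?_ ?_⟩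
  · rw [orderOf_dvd_iff_pow_eq_one, cls_pow_one]
    have h1 : A ^ (q + 1) = 1 := by
      apply mt_inj
      rw [mt_pow, mt_one]
      change (Matrix.diagonal ![z, 1, z⁻¹]) ^ (q + 1) = 1
      rw [Matrix.diagonal_pow, ← Matrix.diagonal_one]
      congr 1
      ext i
      fin_cases i
      · simpa using hz1
      · simp
      · simp [hz1]
    rw [h1]
    exact one_mem _
  · obtain ⟨c, hc⟩ := scal_of hF hσ (pow_orderOf_eq_one (cls A))
    have h1 := eig_eq (v := Pi.single 0 1) (w := Pi.single 1 1) (by simp) (by simp) (hA 0) (hA 1) hc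
    simp only [Matrix.cons_val_zero, Matrix.cons_val_one, one_pow] at h1
    rw [← hz]
    exact orderOf_dvd_of_pow_eq_one h1

/-- isotropic vectors exist -/
theorem exists_iso (hF : Fintype.card F = q ^ 2) {σ : F →+* F} (hσ1 : σ ≠ RingHom.id F)
    (hσ2 : ∀ x, σ (σ x) = x) : ∃ v : Fin 3 → F, v ≠ 0 ∧ hB (Fin 3) σ v v = 0 := by
  obtain ⟨x, hx0, hx⟩ := norm_surj hσ1 hσ2 (c := -1) (by rw [map_neg, map_one]) (by simp)
  refine ⟨![1, x, 0], ?_, ?_⟩
  · intro h
    have := congrFun h 0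
    simp at this
  · rw [hB_apply, Fin.sum_univ_three]
    simp only [Matrix.cons_val_zero, Matrix.cons_val_one, Matrix.cons_val, map_one, map_zero]
    linear_combination hx

theorem exists_frame (hF : Fintype.card F = q ^ 2) {σ : F →+* F} (hσ1 : σ ≠ RingHom.id F)
    (hσ2 : ∀ x, σ (σ x) = x) : ∃ v w u : Fin 3 → F, Fr σ v w u := by
  obtain ⟨v, hv0, hv⟩ := exists_iso hF hσ1 hσ2
  obtain ⟨w, u, h⟩ := exists_fr hσ1 hσ2 hv0 hv
  exact ⟨v, w, u, h⟩

/-- order `(q - 1) e` -/
theorem o3 (hF : Fintype.card F = q ^ 2) {d e f : ℕ} (he : q + 1 = d * e) (hf : 3 = d * f)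
    (hd : d = Nat.gcd 3 (q + 1)) : ∃ x : PSU 3 F q, orderOf x = (q - 1) * e := by
  have hq := q_pos hF
  obtain ⟨σ, hσ, hσ2, hσ1⟩ := exists_frob (q := q) hF
  obtain ⟨a, ha0, ha⟩ := exists_prim hF
  obtain ⟨v, w, u, h⟩ := exists_frame hF hσ1 hσ2
  obtain ⟨hv0, hw0, hu0⟩ := Fr_ne h
  obtain ⟨D, hDv, hDw, hDu⟩ := exists_diag hσ hσ2 h ha0
  have hqq : a ^ (q ^ 2) = a := by rw [← hF]; exact FiniteField.pow_card a
  have hq0 : a ^ q ≠ 0 := pow_ne_zero _ ha0
  refine ⟨cls D, Nat.dvd_antisymm ?_ ?_⟩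
  · obtain ⟨e1, e2, _⟩ := ty_swap (K := F) hq he hf (a := σ a / a) (b := a) (c := (σ a)⁻¹) ha0
      (inv_ne_zero (by rw [hσ]; exact hq0)) (by rw [hσ]; field_simp) (by rw [hσ, mul_inv_cancel₀ hq0])
      (by rw [hσ, inv_pow, ← pow_mul, ← pow_two, hqq, inv_mul_cancel₀ ha0])
    rw [orderOf_dvd_iff_pow_eq_one]
    refine one_of_scal (c := a ^ ((q - 1) * e)) (scal_fr hσ2 h (eig_pow hDv _) ?_ ?_)
    · rw [eig_pow hDw, e2]
    · rw [eig_pow hDu, e1]
  · obtain ⟨c, hc⟩ := scal_of hF hσ (pow_orderOf_eq_one (cls D))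
    set k := orderOf (cls D) with hk
    have e1 := eig_eq hv0 hw0 hDv hDw hc
    have e2 := eig_eq hv0 hu0 hDv hDu hc
    rw [hσ] at e1 e2
    have h1 : a ^ ((q + 1) * k) = 1 := by
      rw [add_mul, one_mul, pow_add, pow_mul, e1, ← mul_pow, mul_inv_cancel₀ hq0, one_pow]
    have h3 : a ^ (3 * k) = 1 := by
      have h4 : a ^ k * a ^ k = (a ^ q) ^ k := by
        rw [div_pow] at e2
        nth_rewrite 1 [e2]
        rw [div_mul_cancel₀ _ (pow_ne_zero _ ha0)]
      calc a ^ (3 * k) = a ^ k * a ^ k * a ^ k := by rw [← pow_add, ← pow_add]; congr 1; ring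
        _ = (a ^ q) ^ k * a ^ k := by rw [h4]
        _ = a ^ ((q + 1) * k) := by rw [← pow_mul, ← pow_add]; congr 1; ring
        _ = 1 := h1
    have d1 := orderOf_dvd_of_pow_eq_one h1
    have d3 := orderOf_dvd_of_pow_eq_one h3
    rw [ha] at d1 d3
    have d2 : (q - 1) ∣ k := by
      rw [mul_comm (q - 1)] at d1
      exact Nat.dvd_of_mul_dvd_mul_left (by omega) d1
    obtain ⟨j, hj⟩ := d2
    rw [hj]
    apply Nat.mul_dvd_mul_left
    rw [hj, show 3 * ((q - 1) * j) = (q - 1) * (3 * j) by ring] at d3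
    have d4 := Nat.dvd_of_mul_dvd_mul_left (by omega : 0 < q - 1) d3
    have d5 : d * e ∣ d * (f * j) := by
      have : d * (f * j) = 3 * j := by rw [← mul_assoc, ← hf]
      rw [this, ← he]; exact d4
    have hd0 : 0 < d := by
      rcases Nat.eq_zero_or_pos d with h | h
      · rw [h] at hf; omega
      · exact h
    exact (cop_ef he hf hd).dvd_of_dvd_mul_left (Nat.dvd_of_mul_dvd_mul_left hd0 d5)

/-- order `p e` -/
theorem o2 {p : ℕ} [Fact p.Prime] [CharP F p] (hp : p ≠ 2) (hF : Fintype.card F = q ^ 2) {d e f : ℕ}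
    (he : q + 1 = d * e) (hf : 3 = d * f)
    (hd : d = Nat.gcd 3 (q + 1)) : ∃ x : PSU 3 F q, orderOf x = p * e := by
  have hq := q_pos hF
  have hpp : p.Prime := Fact.out
  obtain ⟨σ, hσ, hσ2, hσ1⟩ := exists_frob (q := q) hF
  obtain ⟨z, hz0, hz⟩ := exists_prim' hF
  have hz1 : z ^ (q + 1) = 1 := by rw [← hz]; exact pow_orderOf_eq_one z
  have hσz : σ z * z = 1 := by rw [hσ, ← pow_succ, hz1]
  have hσz' : (σ z)⁻¹ = z := by
    rw [inv_eq_iff_eq_inv]; exact eq_inv_of_mul_eq_one_left hσz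
  obtain ⟨v, w, u, h⟩ := exists_frame hF hσ1 hσ2
  obtain ⟨hv0, hw0, hu0⟩ := Fr_ne h
  obtain ⟨D, hDv, hDw, hDu⟩ := exists_diag hσ hσ2 h hz0
  rw [hσz'] at hDw
  obtain ⟨c, hc0, hc⟩ : ∃ c : F, c ≠ 0 ∧ c + σ c = 0 := by
    by_contra hcon
    push Not at hcon
    apply hσ1
    ext y
    rw [RingHom.id_apply]
    by_contra hy
    exact hcon (σ y - y) (sub_ne_zero.2 hy) (by rw [map_sub, hσ2]; ring)
  obtain ⟨U, _, hU⟩ := exists_suT (n := 3) (q := q) hσ hσ2 h.vv hc
  have hUv : sv U v = v := by rw [hU, h.vv]; module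
  have hUu : sv U u = u := by rw [hU, h.vu]; module
  have hUw : sv U w = w + c • v := by rw [hU, h.vw]; module
  set A := D * U with hAdef
  have hAv : sv A v = z • v := by rw [hAdef, sv_mul, hUv, hDv]
  have hAu : sv A u = (σ z / z) • u := by rw [hAdef, sv_mul, hUu, hDu]
  have hAw : ∀ k : ℕ, sv (A ^ k) w = z ^ k • w + ((k : F) * c * z ^ k) • v := by
    intro k
    induction k with
    | zero => rw [pow_zero, pow_zero, sv_one]; simp
    | succ k ih =>
      rw [pow_succ', sv_mul, ih, sv_add, sv_smul, sv_smul, hAv]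
      have : sv A w = z • w + (c * z) • v := by
        rw [hAdef, sv_mul, hUw, sv_add, sv_smul, hDw, hDv, smul_smul]
      rw [this]
      push_cast
      module
  have hpe : Nat.Coprime p e := by
    rw [Nat.Prime.coprime_iff_not_dvd hpp]
    intro hdvd
    obtain ⟨m, hm⟩ := q_pow (p := p) hF
    have h1 : p ∣ q := by
      rw [hm]
      apply dvd_pow_self
      rintro rfl
      rw [pow_zero] at hm
      omega
    have h2 : p ∣ q + 1 := by rw [he]; exact Dvd.dvd.mul_left hdvd d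
    have h3 := (Nat.dvd_add_right h1).1 h2
    exact hpp.one_lt.ne' (Nat.dvd_one.1 h3)
  refine ⟨cls A, Nat.dvd_antisymm ?_ ?_⟩
  · rw [orderOf_dvd_iff_pow_eq_one]
    refine one_of_scal (c := z ^ (p * e)) (scal_fr hσ2 h (eig_pow hAv _) ?_ ?_)
    · rw [hAw]
      have : ((p * e : ℕ) : F) = 0 := by
        push_cast
        rw [CharP.cast_eq_zero, zero_mul]
      rw [this]; simp
    · rw [eig_pow hAu]
      congr 1
      have h3 : (z * z * z) ^ (p * e) = 1 := by
        rw [show z * z * z = z ^ 3 by ring, ← pow_mul]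
        have : 3 * (p * e) = (q + 1) * (f * p) := by rw [he]; nth_rewrite 1 [hf]; ring
        rw [this, pow_mul, hz1, one_pow]
      have h4 : σ z / z = z * (z * z * z)⁻¹ := by
        have : σ z = z⁻¹ := eq_inv_of_mul_eq_one_left hσz
        rw [this]
        field_simp
      rw [h4, mul_pow, inv_pow, h3, inv_one, mul_one]
  · obtain ⟨s, hs⟩ := scal_of hF hσ (pow_orderOf_eq_one (cls A))
    set k := orderOf (cls A) with hk
    apply Nat.Coprime.mul_dvd_of_dvd_of_dvd hpe
    · have h1 := hs w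
      rw [hAw] at h1
      have h3 := congrArg (fun y => hB (Fin 3) σ w y) h1
      simp only [br_add, br_smul, h.ww, h.wv, mul_zero, zero_add, mul_one] at h3
      have h4 : (k : F) = 0 := by
        rcases mul_eq_zero.1 h3 with h5 | h5
        · rcases mul_eq_zero.1 h5 with h6 | h6
          · exact h6
          · exact absurd h6 hc0
        · exact absurd h5 (pow_ne_zero _ hz0)
      exact (CharP.cast_eq_zero_iff F p k).1 h4
    · have e2 := eig_eq hv0 hu0 hAv hAu hs
      have h4 : σ z / z = z * (z * z * z)⁻¹ := by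
        have : σ z = z⁻¹ := eq_inv_of_mul_eq_one_left hσz
        rw [this]
        field_simp
      rw [h4, mul_pow, inv_pow] at e2
      have h5 : (z * z * z) ^ k = 1 := by
        have h6 : z ^ k ≠ 0 := pow_ne_zero _ hz0
        have h7 : ((z * z * z) ^ k)⁻¹ = 1 := by
          have : z ^ k * ((z * z * z) ^ k)⁻¹ = z ^ k * 1 := by rw [← e2, mul_one]
          exact mul_left_cancel₀ h6 this
        exact inv_eq_one.1 h7
      have h8 : z ^ (3 * k) = 1 := by
        rw [pow_mul, show z ^ 3 = z * z * z by ring, h5]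
      have d3 := orderOf_dvd_of_pow_eq_one h8
      rw [hz] at d3
      have d5 : d * e ∣ d * (f * k) := by
        have : d * (f * k) = 3 * k := by rw [← mul_assoc, ← hf]
        rw [this, ← he]; exact d3
      have hd0 : 0 < d := by
        rcases Nat.eq_zero_or_pos d with h | h
        · rw [h] at hf; omega
        · exact h
      exact (cop_ef he hf hd).dvd_of_dvd_mul_left (Nat.dvd_of_mul_dvd_mul_left hd0 d5)

/-- order `n = (q² - q + 1)/d` -/
theorem o4 {p : ℕ} [Fact p.Prime] [CharP F p] (hp : p ≠ 2) (hF : Fintype.card F = q ^ 2) {d e f n : ℕ}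
    (he : q + 1 = d * e) (hf : 3 = d * f)
    (hd : d = Nat.gcd 3 (q + 1)) (hn : q ^ 2 - q + 1 = d * n) : ∃ x : PSU 3 F q, orderOf x = n := by
  have hq := q_pos hF
  have hpp : p.Prime := Fact.out
  obtain ⟨m, hm⟩ := q_pow (p := p) hF
  obtain ⟨σ, hσ, hσ2, hσ1⟩ := exists_frob (q := q) hF
  have hqq : q ≤ q ^ 2 := by nlinarith
  set N := q ^ 2 - q + 1 with hN
  have hN1 : N + q = q ^ 2 + 1 := by omega
  have hpN : ¬ p ∣ N := by
    intro hdvd
    have h1 : p ∣ q := by
      rw [hm]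
      apply dvd_pow_self
      rintro rfl
      rw [pow_zero] at hm
      omega
    have h2 : p ∣ q ^ 2 + 1 := by rw [← hN1]; exact dvd_add hdvd h1
    have h3 := (Nat.dvd_add_right (h1.trans (dvd_pow_self q (by norm_num)))).1 h2
    exact hpp.one_lt.ne' (Nat.dvd_one.1 h3)
  haveI : CharP (AlgebraicClosure F) p := charP_of_injective_algebraMap (algebraMap F _).injective p
  haveI : NeZero ((N : ℕ) : AlgebraicClosure F) := ⟨by
    rw [Ne, CharP.cast_eq_zero_iff (AlgebraicClosure F) p]; exact hpN⟩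
  have hN0 : 0 < N := by omega
  obtain ⟨l, hl⟩ : ∃ l : AlgebraicClosure F, IsPrimitiveRoot l N := by
    have h1 : (cyclotomic N (AlgebraicClosure F)).degree ≠ 0 := by
      rw [degree_cyclotomic]
      exact_mod_cast (Nat.totient_pos.2 hN0).ne'
    obtain ⟨l, hl⟩ := IsAlgClosed.exists_root _ h1
    exact ⟨l, isRoot_cyclotomic_iff.1 hl⟩
  have hl1 : l ^ N = 1 := hl.pow_eq_one
  have hl0 : l ≠ 0 := hl.ne_zero hN0.ne'
  have hlq : l ^ q ≠ 0 := pow_ne_zero _ hl0
  set μ := (l ^ q)⁻¹ with hμ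
  set ν := l ^ (q ^ 2) with hν
  have hprod : l * μ * ν = 1 := by
    have : l * ν = l ^ q := by
      rw [hν, ← pow_succ', ← hN1, pow_add, hl1, one_mul]
    calc l * μ * ν = l * ν * μ := by ring
      _ = 1 := by rw [this, hμ, mul_inv_cancel₀ hlq]
  have hq3 : l ^ (q ^ 3) = l⁻¹ := by
    have h1 : q ^ 3 + 1 = N * (q + 1) := by
      obtain ⟨r, hr⟩ : ∃ r, q = r + 1 := ⟨q - 1, by omega⟩
      have h2 : N = r ^ 2 + r + 1 := by
        have : (r + 1) ^ 2 = r ^ 2 + 2 * r + 1 := by ring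
        rw [hN, hr]; omega
      rw [h2, hr]; ring
    have h2 : l ^ (q ^ 3) * l = 1 := by rw [← pow_succ, h1, pow_mul, hl1, one_pow]
    exact eq_inv_of_mul_eq_one_left h2
  have hμq : μ ^ q = ν⁻¹ := by rw [hμ, inv_pow, ← pow_mul, ← pow_two, hν]
  have hνq : ν ^ q = l⁻¹ := by rw [hν, ← pow_mul, ← pow_succ, hq3]
  have hadd : ∀ x y : AlgebraicClosure F, (x + y) ^ q = x ^ q + y ^ q := by
    intro x y
    rw [hm]; exact add_pow_char_pow x y p m
  have hinj : ∀ x y : AlgebraicClosure F, x ^ q = y ^ q → x = y := by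
    intro x y h
    have h1 : (x - y) ^ q = 0 := by
      rw [hm, sub_pow_char_pow, ← hm, h, sub_self]
    exact sub_eq_zero.1 (pow_eq_zero_iff (by omega) |>.1 h1)
  have hμ0 : μ ≠ 0 := inv_ne_zero hlq
  have hν0 : ν ≠ 0 := pow_ne_zero _ hl0
  set T := l + μ + ν with hT
  have hTq : T ^ q = l * μ + μ * ν + ν * l := by
    rw [hT, hadd, hadd, hμq, hνq]
    have e1 : l ^ q = ν * l := by
      rw [hν, ← pow_succ, ← hN1, pow_add, hl1, one_mul]
    have e2 : ν⁻¹ = l * μ := by
      rw [inv_eq_iff_eq_inv]; exact eq_inv_of_mul_eq_one_right hprod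
    have e3 : l⁻¹ = μ * ν := by
      rw [inv_eq_iff_eq_inv]; exact eq_inv_of_mul_eq_one_left (by rw [← mul_assoc]; exact hprod)
    rw [e1, e2, e3]; ring
  have hTqq : T ^ (q ^ 2) = T := by
    have e1 : ∀ x : AlgebraicClosure F, x ^ (q ^ 2) = (x ^ q) ^ q := fun x => by rw [← pow_mul, pow_two]
    rw [hT, e1, hadd, hadd, hadd, hadd, hμq, hνq, inv_pow, hνq, inv_inv, inv_pow, ← e1]
    rw [← hμ, ← hν]; ring
  obtain ⟨τ, hτ⟩ := mem_of_pow (K := AlgebraicClosure F) hF hTqq
  have hστ : algebraMap F (AlgebraicClosure F) (σ τ) = T ^ q := by rw [hσ, map_pow, hτ]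
  have hfac : ∀ z : AlgebraicClosure F, z ^ 3 - T * z ^ 2 + T ^ q * z - 1 = (z - l) * (z - μ) * (z - ν) := by
    intro z
    rw [hTq, hT]
    linear_combination hprod
  have hne : σ τ ≠ τ := by
    intro he'
    have h1 : T ^ q = T := by rw [← hστ, he', hτ]
    have h2 := hfac 1
    rw [h1] at h2
    have h3 : (1 - l) * (1 - μ) * (1 - ν) = 0 := by rw [← h2]; ring
    have hl' : l ≠ 1 := by
      intro h
      have := hl.pow_eq_one_iff_dvd 1
      rw [pow_one] at this
      have h5 := Nat.dvd_one.1 (this.1 h)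
      nlinarith
    rcases mul_eq_zero.1 h3 with h4 | h4
    · rcases mul_eq_zero.1 h4 with h5 | h5
      · exact hl' (sub_eq_zero.1 h5).symm
      · have h6 : l ^ q = 1 := by
          have : (1 : AlgebraicClosure F) = (l ^ q)⁻¹ := sub_eq_zero.1 h5
          exact inv_eq_one.1 this.symm
        exact hl' (hinj l 1 (by rw [h6, one_pow]))
    · have h6 : l ^ (q ^ 2) = 1 := (sub_eq_zero.1 h4).symm
      have h7 : (l ^ q) ^ q = 1 := by rw [← pow_mul, ← pow_two, h6]
      have h8 : l ^ q = 1 := hinj _ _ (by rw [h7, one_pow])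
      exact hl' (hinj l 1 (by rw [h8, one_pow]))
  -- the element
  obtain ⟨v, hv0, hv⟩ := exists_iso hF hσ1 hσ2
  obtain ⟨c, hc0, hc⟩ : ∃ c : F, c ≠ 0 ∧ c + σ c = 0 := by
    by_contra hcon
    push Not at hcon
    apply hσ1
    ext y
    rw [RingHom.id_apply]
    by_contra hy
    exact hcon (σ y - y) (sub_ne_zero.2 hy) (by rw [map_sub, hσ2]; ring)
  obtain ⟨U, _, hU⟩ := exists_suT (n := 3) (q := q) hσ hσ2 hv hc
  obtain ⟨k1, l1, htr⟩ := su3_three hσ hσ1 hσ2 hne hc0 hc hv0 hv (A₁ := U) hU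
  set A := U * (k1 * U * k1⁻¹) * (l1 * U * l1⁻¹) with hA
  have hχ : (mt A).charpoly.map (algebraMap F (AlgebraicClosure F)) =
      X ^ 3 - C T * X ^ 2 + C (T ^ q) * X - 1 := by
    rw [charpoly_SU3 hσ, htr]
    simp [hτ, hστ]
  -- powers
  have hroot : ∀ z : AlgebraicClosure F, (z - l) * (z - μ) * (z - ν) = 0 → ∀ (k : ℕ) (s : F),
      mt A ^ k = s • (1 : Matrix (Fin 3) (Fin 3) F) → z ^ k = algebraMap F (AlgebraicClosure F) s := by
    intro z hz k s hs
    have h1 : ((mt A).charpoly.map (algebraMap F (AlgebraicClosure F))).eval z = 0 := by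
      rw [hχ]
      simp only [eval_sub, eval_add, eval_mul, eval_pow, eval_X, eval_C, eval_one]
      rw [hfac, hz]
    rw [← Matrix.charpoly_map, Matrix.eval_charpoly] at h1
    obtain ⟨y, hy0, hy⟩ := Matrix.exists_mulVec_eq_zero_iff.2 h1
    have h2 : ((mt A).map (algebraMap F (AlgebraicClosure F))).mulVec y = z • y := by
      rw [Matrix.sub_mulVec, sub_eq_zero] at hy
      rw [← hy]
      simp [Matrix.scalar_apply]
    have h3 : ∀ j : ℕ, (((mt A).map (algebraMap F (AlgebraicClosure F))) ^ j).mulVec y = z ^ j • y := by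
      intro j
      induction j with
      | zero => rw [pow_zero, pow_zero, Matrix.one_mulVec, one_smul]
      | succ j ih =>
        rw [pow_succ, ← Matrix.mulVec_mulVec, h2, Matrix.mulVec_smul, ih, smul_smul]
        congr 1; ring
    have h4 : ((mt A).map (algebraMap F (AlgebraicClosure F))) ^ k =
        (algebraMap F (AlgebraicClosure F) s) • (1 : Matrix (Fin 3) (Fin 3) (AlgebraicClosure F)) := by
      have h5 := congrArg (algebraMap F (AlgebraicClosure F)).mapMatrix hs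
      rw [map_pow] at h5
      rw [RingHom.mapMatrix_apply] at h5
      rw [h5]
      ext i j
      by_cases hij : i = j
      · simp [Matrix.one_apply, hij]
      · simp [Matrix.one_apply, hij]
    have h6 := h3 k
    rw [h4, Matrix.smul_mulVec, Matrix.one_mulVec] at h6
    have h7 : (algebraMap F (AlgebraicClosure F) s - z ^ k) • y = 0 := by rw [sub_smul, h6, sub_self]
    rcases smul_eq_zero.1 h7 with h8 | h8
    · exact (sub_eq_zero.1 h8).symm
    · exact absurd h8 hy0
  have hq3' : 3 ≤ q := by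
    rcases Nat.lt_or_ge q 3 with h | h
    · exfalso
      have h2 : q = 2 := by omega
      have h3 : p ∣ 2 := by
        rw [← h2, hm]
        apply dvd_pow_self
        rintro rfl
        rw [pow_zero] at hm
        omega
      exact hp ((Nat.prime_dvd_prime_iff_eq hpp Nat.prime_two).1 h3)
    · exact h
  have hlN : ∀ j, l ^ j = 1 → N ∣ j := fun j hj => (hl.pow_eq_one_iff_dvd j).1 hj
  have hsmall : l ^ (q + 1) ≠ 1 := by
    intro h
    have h1 := Nat.le_of_dvd (by omega) (hlN _ h)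
    nlinarith
  have hlμ : l ≠ μ := by
    intro h
    apply hsmall
    rw [pow_succ]
    nth_rewrite 2 [h]
    exact mul_inv_cancel₀ hlq
  have hμν : μ ≠ ν := by
    intro h
    apply hsmall
    apply hinj
    rw [one_pow, ← pow_mul]
    have : (q + 1) * q = q ^ 2 + q := by ring
    rw [this, pow_add, ← hν, ← h, hμ, inv_mul_cancel₀ hlq]
  have hνl : ν ≠ l := by
    intro h
    have h1 : l ^ (q ^ 2 - 1) = 1 := by
      have h2 : l ^ (q ^ 2 - 1) * l = 1 * l := by
        rw [← pow_succ, Nat.sub_add_cancel (by nlinarith), ← hν, h, one_mul]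
      exact mul_right_cancel₀ hl0 h2
    have h2 := hlN _ h1
    have h3 : q ^ 2 - 1 = N + (q - 2) := by omega
    rw [h3] at h2
    have h4 := (Nat.dvd_add_right (dvd_refl N)).1 h2
    have h5 := Nat.le_of_dvd (by omega) h4
    nlinarith [Nat.sub_le q 2]
  have hd0 : 0 < d := by
    rcases Nat.eq_zero_or_pos d with h | h
    · rw [h] at hf; omega
    · exact h
  obtain ⟨c1, c2, c3, _, _⟩ := ty_cyc (K := AlgebraicClosure F) hq he hf hn hl0 hμ0 hprod
    (mul_inv_cancel₀ hlq) (by rw [hμq, inv_mul_cancel₀ hν0])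
  have hχ' : (mt A).charpoly.map (algebraMap F (AlgebraicClosure F)) =
      (X - C l) * (X - C μ) * (X - C ν) := by
    rw [hχ, hTq, hT]
    have h1 : (C l * C μ * C ν : (AlgebraicClosure F)[X]) = 1 := by rw [← C_mul, ← C_mul, hprod, C_1]
    simp only [C_add, C_mul]
    linear_combination h1
  refine ⟨cls A, Nat.dvd_antisymm ?_ ?_⟩
  · rw [orderOf_dvd_iff_pow_eq_one, cls_pow_one]
    obtain ⟨s, hs⟩ := descend hF hχ' c3 (three_dvd hlμ hμν hνl rfl c1 c2)
    rw [← mt_pow] at hs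
    exact central_of_scalar hs
  · set k := orderOf (cls A) with hk
    obtain ⟨s, hs⟩ := SU_center_scalar hF hσ (by norm_num) (cls_pow_one.1 (pow_orderOf_eq_one (cls A)))
    have hs' : mt A ^ k = s • (1 : Matrix (Fin 3) (Fin 3) F) := by rw [← mt_pow]; exact hs
    have e1 := hroot l (by ring) k s hs'
    have e2 := hroot μ (by ring) k s hs'
    have e3 : l ^ (k * (q + 1)) = 1 := by
      have h1 : μ ^ k = l ^ k := by rw [e1, e2]
      have h2 : (l ^ q * μ) ^ k = 1 := by rw [mul_inv_cancel₀ hlq, one_pow]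
      rw [mul_pow, h1, ← pow_mul, ← pow_add] at h2
      rw [← h2]; congr 1; ring
    have e4 := hlN _ e3
    have e5 : d * n ∣ d * (k * e) := by
      rw [← hn, show d * (k * e) = k * (d * e) by ring, ← he]; exact e4
    have e6 := Nat.dvd_of_mul_dvd_mul_left hd0 e5
    have hcop : Nat.Coprime n e := by
      have h1 : d * Nat.gcd n e ∣ d * 1 := by
        rw [← Nat.gcd_mul_left, ← hn, ← he, mul_one]
        have h2 : Nat.gcd N (q + 1) ∣ 3 := by
          have h3 : N + 0 = (q + 1) * (q - 2) + 3 := by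
            obtain ⟨r, hr⟩ : ∃ r, q = r + 2 := ⟨q - 2, by omega⟩
            have h4 : q ^ 2 = r ^ 2 + 4 * r + 4 := by rw [hr]; ring
            have h5 : (q + 1) * (q - 2) = r ^ 2 + 3 * r := by
              rw [hr, Nat.add_sub_cancel]; ring
            omega
          have h4 : Nat.gcd N (q + 1) ∣ (q + 1) * (q - 2) + 3 := by
            rw [← h3]; exact Nat.gcd_dvd_left _ _
          exact (Nat.dvd_add_right ((Nat.gcd_dvd_right N (q + 1)).mul_right _)).1 h4
        have h3 : Nat.gcd N (q + 1) ∣ Nat.gcd 3 (q + 1) := Nat.dvd_gcd h2 (Nat.gcd_dvd_right _ _)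
        rwa [← hd] at h3
      exact Nat.dvd_one.1 (Nat.dvd_of_mul_dvd_mul_left hd0 h1)
    exact hcop.dvd_of_dvd_mul_right e6

end Cfsg.Agent.H29.SpecU3
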