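import Cfsg.Agent.H3.Core2
import Cfsg.Agent.H27.CentralChar

/-!
Values of a character on the powers of an element of prime order.
-/
set_option autoImplicit false
set_option linter.style.haveILetI false
set_option linter.unusedSectionVars false

namespace Cfsg.Agent.H29
open Cfsg
open scoped ComplexConjugate

variable {G : Type*} [Group G] [Finite G]

theorem char_eig {χ : G → ℂ} (hχ : IsCharacter G χ) (g : G) :
    ∃ (ι : Type) (_ : Fintype ι) (ω : ι → ℂ), (∀ i, ω i ^ (orderOf g) = 1) ∧ (∀ m : ℤ, χ (g ^ m) = ∑ i, ω i ^ m) := by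
  obtain ⟨n, ρ, rfl⟩ := hχ
  obtain ⟨ι, hι, ω, -, h2, h3⟩ := Cfsg.Agent.H3.exists_eigenvalues ρ g
  exact ⟨ι, hι, ω, h2, h3⟩

theorem geom_root {p : ℕ} [NeZero p] {z : ℂ} (hz : z ^ p = 1) : ∑ k : ZMod p, z ^ k.val = if z = 1 then (p : ℂ) else 0 := by
  have e : ∑ k : ZMod p, z ^ k.val = ∑ k ∈ Finset.range p, z ^ k := by
    rw [Finset.sum_range]
    obtain ⟨q, rfl⟩ : ∃ q, p = q + 1 := ⟨p - 1, (Nat.succ_pred (NeZero.ne p)).symm⟩
    rfl
  rw [e]
  split_ifs with h
  · simp [h]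
  · rw [geom_sum_eq h, hz, sub_self, zero_div]

/-- multiplicities of the eigenvalues of an element of prime order -/
theorem sq_formula {χ : G → ℂ} (hχ : IsCharacter G χ) {p : ℕ} [hp : Fact p.Prime] {g : G} (hg : orderOf g = p) :
    ∃ m : ZMod p → ℕ, χ 1 = ((∑ j, m j : ℕ) : ℂ) ∧
      (∑ k : ZMod p, Complex.normSq (χ (g ^ k.val)) = p * ((∑ j, m j ^ 2 : ℕ) : ℝ)) ∧
      (∑ k : ZMod p, χ (g ^ k.val) = p * (m 0 : ℂ)) ∧
      ∀ r : ZMod p, r ≠ 0 → (∀ k : ZMod p, χ (g ^ (r * k).val) = χ (g ^ k.val)) → ∀ j, m (r * j) = m j := by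
  classical
  obtain ⟨ι, hι, ω, h1, h2⟩ := char_eig hχ g
  rw [hg] at h1
  have hp0 : p ≠ 0 := hp.out.ne_zero
  have hpos : 0 < p := hp.out.pos
  set ζ := Complex.exp (2 * Real.pi * Complex.I / p) with hζ
  have hprim : IsPrimitiveRoot ζ p := Complex.isPrimitiveRoot_exp p hp0
  have hζp : ζ ^ p = 1 := hprim.pow_eq_one
  have hv : ∀ k : ℕ, χ (g ^ k) = ∑ i, ω i ^ k := by
    intro k
    have := h2 k
    simpa using this
  -- the class of each eigenvalue
  have hex : ∀ i, ∃ j : ZMod p, ω i = ζ ^ j.val := by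
    intro i
    obtain ⟨k, hk, hk2⟩ := hprim.eq_pow_of_pow_eq_one (h1 i)
    refine ⟨(k : ZMod p), ?_⟩
    rw [ZMod.val_natCast, Nat.mod_eq_of_lt hk, hk2]
  choose J hJ using hex
  have hinj : ∀ a b : ZMod p, ζ ^ a.val = ζ ^ b.val → a = b := by
    intro a b hab
    apply ZMod.val_injective p
    exact hprim.pow_inj (ZMod.val_lt a) (ZMod.val_lt b) hab
  have hne : ζ ≠ 0 := hprim.ne_zero hp0
  have hωne : ∀ i, ω i ≠ 0 := fun i => by rw [hJ]; exact pow_ne_zero _ hne
  have hconj : ∀ i, conj (ω i) = (ω i)⁻¹ := fun i => (Cfsg.Agent.H3.inv_eq_conj_of_pow_eq_one hpos (h1 i)).symm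
  let m : ZMod p → ℕ := fun j => (Finset.univ.filter fun i => J i = j).card
  have hsum : ∑ j, m j = Fintype.card ι := by
    have := Finset.card_eq_sum_card_fiberwise (f := J) (s := Finset.univ) (t := Finset.univ) (fun _ _ => Finset.mem_univ _)
    rw [Finset.card_univ] at this
    exact this.symm
  have hm : ∀ j : ZMod p, (p : ℂ) * m j = ∑ k : ZMod p, χ (g ^ k.val) * (ζ ^ j.val)⁻¹ ^ k.val := by
    intro j
    have e1 : ∑ k : ZMod p, χ (g ^ k.val) * (ζ ^ j.val)⁻¹ ^ k.val = ∑ i, ∑ k : ZMod p, (ω i * (ζ ^ j.val)⁻¹) ^ k.val := by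
      rw [Finset.sum_comm]
      apply Finset.sum_congr rfl
      intro k _
      rw [hv, Finset.sum_mul]
      apply Finset.sum_congr rfl
      intro i _
      rw [mul_pow]
    have e2 : ∀ i, ∑ k : ZMod p, (ω i * (ζ ^ j.val)⁻¹) ^ k.val = if J i = j then (p : ℂ) else 0 := by
      intro i
      rw [geom_root (by rw [mul_pow, h1, one_mul, inv_pow, ← pow_mul, mul_comm, pow_mul, hζp, one_pow, inv_one])]
      congr 1
      rw [eq_iff_iff, mul_inv_eq_one₀ (pow_ne_zero _ hne), hJ]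
      exact ⟨hinj _ _, fun h => by rw [h]⟩
    rw [e1, Finset.sum_congr rfl fun i _ => e2 i, ← Finset.sum_filter, Finset.sum_const, nsmul_eq_mul, mul_comm]
  refine ⟨m, ?_, ?_, ?_, ?_⟩
  · have := hv 0
    rw [pow_zero] at this
    rw [this, hsum]
    simp
  · have e1 : ((∑ k : ZMod p, Complex.normSq (χ (g ^ k.val)) : ℝ) : ℂ) = (p : ℂ) * ((∑ j, m j ^ 2 : ℕ) : ℂ) := by
      push_cast
      have e2 : ∀ k : ZMod p, ((Complex.normSq (χ (g ^ k.val)) : ℝ) : ℂ) = ∑ i, ∑ i', (ω i * (ω i')⁻¹) ^ k.val := by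
        intro k
        rw [Complex.normSq_eq_conj_mul_self, mul_comm, hv, map_sum, Finset.sum_mul_sum]
        apply Finset.sum_congr rfl
        intro i _
        apply Finset.sum_congr rfl
        intro i' _
        rw [map_pow, hconj, mul_pow]
      rw [Finset.sum_congr rfl fun k _ => e2 k, Finset.sum_comm]
      have e3 : ∀ i, ∑ k : ZMod p, ∑ i', (ω i * (ω i')⁻¹) ^ k.val = (p : ℂ) * m (J i) := by
        intro i
        rw [Finset.sum_comm]
        have e4 : ∀ i', ∑ k : ZMod p, (ω i * (ω i')⁻¹) ^ k.val = if J i' = J i then (p : ℂ) else 0 := by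
          intro i'
          rw [geom_root (by rw [mul_pow, h1, inv_pow, h1]; simp)]
          congr 1
          rw [eq_iff_iff, mul_inv_eq_one₀ (hωne i'), hJ i, hJ i']
          exact ⟨fun h => (hinj _ _ h).symm, fun h => by rw [h]⟩
        rw [Finset.sum_congr rfl fun i' _ => e4 i', ← Finset.sum_filter, Finset.sum_const, nsmul_eq_mul, mul_comm]
      rw [Finset.sum_congr rfl fun i _ => e3 i, ← Finset.mul_sum]
      congr 1
      have e5 : ∑ i, (m (J i) : ℂ) = ∑ j, ∑ i ∈ Finset.univ.filter (fun i => J i = j), (m (J i) : ℂ) :=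
        (Finset.sum_fiberwise Finset.univ J _).symm
      rw [e5]
      apply Finset.sum_congr rfl
      intro j _
      rw [Finset.sum_congr rfl (g := fun _ => (m j : ℂ)) (fun i hi => by rw [(Finset.mem_filter.1 hi).2]), Finset.sum_const,
        nsmul_eq_mul, sq]
    exact_mod_cast e1
  · rw [hm 0]
    apply Finset.sum_congr rfl
    intro k _
    simp
  · intro r hr hinv j
    have h3 : (p : ℂ) * m (r * j) = (p : ℂ) * m j := by
      rw [hm, hm]
      have hb : Function.Bijective (fun k : ZMod p => r * k) := mulLeft_bijective₀ r hr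
      rw [← hb.sum_comp (fun k : ZMod p => χ (g ^ k.val) * (ζ ^ j.val)⁻¹ ^ k.val)]
      apply Finset.sum_congr rfl
      intro k _
      rw [hinv k]
      congr 1
      rw [inv_pow, inv_pow, ← pow_mul, ← pow_mul]
      congr 1
      have hmod : (r * j).val * k.val ≡ j.val * (r * k).val [MOD p] := by
        rw [← ZMod.natCast_eq_natCast_iff]
        push_cast
        simp only [ZMod.natCast_val, ZMod.cast_id', id_eq]
        ring
      have hred : ∀ n : ℕ, ζ ^ n = ζ ^ (n % p) := by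
        intro n
        conv_lhs => rw [← Nat.div_add_mod n p, pow_add, pow_mul, hζp, one_pow, one_mul]
      rw [hred, hmod, ← hred]
    have h4 : (p : ℂ) ≠ 0 := by exact_mod_cast hp0
    have h5 := mul_left_cancel₀ h4 h3
    exact_mod_cast h5

end Cfsg.Agent.H29
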