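import Cfsg.Agent.H29.SqChar

/-!
Values at elements of prime order whose powers form one or two conjugacy classes.
-/
set_option autoImplicit false
set_option linter.style.haveILetI false
set_option linter.unusedSectionVars false

namespace Cfsg.Agent.H29
open Cfsg
open scoped ComplexConjugate

variable {G : Type*} [Group G] [Finite G]

theorem char_inv' {χ : G → ℂ} (hχ : IsCharacter G χ) (g : G) : χ g⁻¹ = conj (χ g) :=
  Cfsg.Agent.H3.char_inv hχ g

theorem zmod_pow_val {p : ℕ} [NeZero p] {g : G} (hg : orderOf g = p) (a b : ZMod p) (n : ℕ) (h : a = (n : ZMod p) * b) :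
    g ^ a.val = (g ^ b.val) ^ n := by
  rw [← pow_mul, pow_eq_pow_iff_modEq, hg, ← ZMod.natCast_eq_natCast_iff]
  push_cast
  simp only [ZMod.natCast_val, ZMod.cast_id', id_eq]
  rw [h, mul_comm]

theorem char_pow_r {χ : G → ℂ} (hχ : IsCharacter G χ) {p : ℕ} [NeZero p] {g : G} (hg : orderOf g = p) {r : ℕ}
    (hr : IsConj g (g ^ r)) (k : ZMod p) : χ (g ^ ((r : ZMod p) * k).val) = χ (g ^ k.val) := by
  rw [zmod_pow_val hg ((r : ZMod p) * k) k r rfl]
  apply (Cfsg.Agent.H27.isCharacter_isConj hχ _).symm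
  rw [← pow_mul, mul_comm, pow_mul]
  obtain ⟨c, hc⟩ := isConj_iff.1 hr
  rw [isConj_iff]
  exact ⟨c, by rw [← hc, conj_pow]⟩

theorem char_pow_r' {χ : G → ℂ} (hχ : IsCharacter G χ) {p : ℕ} [NeZero p] {g : G} (hg : orderOf g = p) {r : ℕ}
    (hr : IsConj g (g ^ r)) (i : ℕ) (k : ZMod p) : χ (g ^ ((r : ZMod p) ^ i * k).val) = χ (g ^ k.val) := by
  induction i with
  | zero => rw [pow_zero, one_mul]
  | succ i ih => rw [pow_succ', mul_assoc, char_pow_r hχ hg hr, ih]

/-- all nontrivial powers conjugate -/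
theorem full_value {χ : G → ℂ} (hχ : IsCharacter G χ) {p : ℕ} [hp : Fact p.Prime] {g : G} (hg : orderOf g = p) {r : ℕ}
    (hcov : ∀ j : ZMod p, j = 0 ∨ ∃ i < p, j = (r : ZMod p) ^ i) (hr : IsConj g (g ^ r)) {d : ℕ} (hd : χ 1 = d) :
    ∃ x : ℤ, χ g = x ∧ (p : ℤ) ∣ d - x := by
  obtain ⟨m, h1, -, h3, h4⟩ := sq_formula hχ hg
  have hr0 : (r : ZMod p) ≠ 0 := by
    intro h0
    rcases hcov (-1) with h | ⟨i, -, hi⟩
    · exact one_ne_zero (neg_eq_zero.1 h)
    · rw [h0] at hi
      rcases Nat.eq_zero_or_pos i with rfl | hi0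
      · rw [pow_zero] at hi
        rcases hcov 2 with h2 | ⟨i2, -, hi2⟩
        · -- `p = 2`: then the order is two and `g = g ^ 0 = 1`
          have hp2 : p = 2 := by
            have : p ∣ 2 := by
              have h5 : ((2 : ℕ) : ZMod p) = 0 := by exact_mod_cast h2
              rwa [ZMod.natCast_eq_zero_iff] at h5
            exact (Nat.prime_dvd_prime_iff_eq hp.out Nat.prime_two).1 this
          have h6 : g ^ r = 1 := by
            rw [← orderOf_dvd_iff_pow_eq_one, hg]
            rwa [ZMod.natCast_eq_zero_iff] at h0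
          rw [h6, isConj_one_left] at hr
          rw [← hg, hr, orderOf_one] at hp2
          omega
        · rw [h0] at hi2
          have h7 : (2 : ZMod p) = 0 := by
            have : (2 : ZMod p) = 1 - (-1) := by ring
            rw [this, hi, sub_self]
          have hp2 : p = 2 := by
            have : p ∣ 2 := by
              have h5 : ((2 : ℕ) : ZMod p) = 0 := by exact_mod_cast h7
              rwa [ZMod.natCast_eq_zero_iff] at h5
            exact (Nat.prime_dvd_prime_iff_eq hp.out Nat.prime_two).1 this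
          have h6 : g ^ r = 1 := by
            rw [← orderOf_dvd_iff_pow_eq_one, hg]
            rwa [ZMod.natCast_eq_zero_iff] at h0
          rw [h6, isConj_one_left] at hr
          rw [← hg, hr, orderOf_one] at hp2
          omega
      · rw [zero_pow hi0.ne'] at hi
        exact one_ne_zero (neg_eq_zero.1 hi)
  have hm1 : ∀ i : ℕ, m ((r : ZMod p) ^ i) = m 1 := by
    intro i
    induction i with
    | zero => rw [pow_zero]
    | succ i ih => rw [pow_succ', h4 _ hr0 (char_pow_r hχ hg hr), ih]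
  have hm : ∀ j : ZMod p, j ≠ 0 → m j = m 1 := by
    intro j hj
    rcases hcov j with h | ⟨i, -, rfl⟩
    · exact absurd h hj
    · exact hm1 i
  have hx : ∀ j : ZMod p, j ≠ 0 → χ (g ^ j.val) = χ g := by
    intro j hj
    rcases hcov j with h | ⟨i, -, rfl⟩
    · exact absurd h hj
    · have := char_pow_r' hχ hg hr i 1
      rw [mul_one] at this
      rw [this]
      have hp1 : Fact (1 < p) := ⟨hp.out.one_lt⟩
      rw [ZMod.val_one, pow_one]
  have hcard : (Finset.univ.erase (0 : ZMod p)).card = p - 1 := by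
    rw [Finset.card_erase_of_mem (Finset.mem_univ _), Finset.card_univ, ZMod.card]
  have hs1 : ∑ j, m j = m 0 + (p - 1) * m 1 := by
    rw [← Finset.add_sum_erase _ _ (Finset.mem_univ (0 : ZMod p)),
      Finset.sum_congr rfl (g := fun _ => m 1) (fun j hj => hm j (Finset.ne_of_mem_erase hj)), Finset.sum_const, hcard, smul_eq_mul]
  have hs2 : ∑ k : ZMod p, χ (g ^ k.val) = χ 1 + (p - 1 : ℕ) * χ g := by
    rw [← Finset.add_sum_erase _ _ (Finset.mem_univ (0 : ZMod p)),
      Finset.sum_congr rfl (g := fun _ => χ g) (fun j hj => hx j (Finset.ne_of_mem_erase hj)), Finset.sum_const, hcard, nsmul_eq_mul,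
      ZMod.val_zero, pow_zero]
  have hp1 : 1 < p := hp.out.one_lt
  have hd' : (d : ℤ) = m 0 + (p - 1) * m 1 := by
    rw [h1] at hd
    have h8 : ∑ j, m j = d := by exact_mod_cast hd
    rw [← h8, hs1]
    push_cast [Nat.cast_sub hp1.le]
    ring
  refine ⟨m 0 - m 1, ?_, ⟨m 1, by rw [hd']; ring⟩⟩
  rw [hs2, hd] at h3
  have hdc : (d : ℂ) = m 0 + (p - 1) * m 1 := by exact_mod_cast hd'
  rw [hdc, Nat.cast_sub hp1.le] at h3
  have h9 : ((p : ℂ) - 1) ≠ 0 := by
    rw [sub_ne_zero]
    exact_mod_cast hp1.ne'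
  apply mul_left_cancel₀ h9
  push_cast at h3 ⊢
  linear_combination h3

/-- the powers form two classes, interchanged by inversion -/
theorem half_value {χ : G → ℂ} (hχ : IsCharacter G χ) {p : ℕ} [hp : Fact p.Prime] {g : G} (hg : orderOf g = p) {r : ℕ}
    (S T : Finset (ZMod p)) (hr0 : (r : ZMod p) ≠ 0) (hS : ∀ j ∈ S, ∃ i < p, j = (r : ZMod p) ^ i) (hT : ∀ j ∈ T, ∃ i < p, j = - (r : ZMod p) ^ i)
    (hun : insert 0 (S ∪ T) = Finset.univ) (h0 : (0 : ZMod p) ∉ S ∪ T) (hdis : Disjoint S T) (hc : S.card = T.card)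
    (hr : IsConj g (g ^ r)) {d : ℕ} (hd : χ 1 = d) :
    ∃ s t u : ℤ, 4 * Complex.normSq (χ g) = ((s ^ 2 + p * t ^ 2 : ℤ) : ℝ) ∧ 2 * (d : ℤ) = s + p * u ∧ (2 : ℤ) ∣ s - t ∧
      (t = 0 → 2 * χ g = s) := by
  obtain ⟨m, h1, h2, h3, h4⟩ := sq_formula hχ hg
  have hm1 : ∀ (i : ℕ) (j : ZMod p), m ((r : ZMod p) ^ i * j) = m j := by
    intro i j
    induction i with
    | zero => rw [pow_zero, one_mul]
    | succ i ih => rw [pow_succ', mul_assoc, h4 _ hr0 (char_pow_r hχ hg hr), ih]
  have hp1' : Fact (1 < p) := ⟨hp.out.one_lt⟩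
  have hmS : ∀ j ∈ S, m j = m 1 := by
    intro j hj
    obtain ⟨i, -, rfl⟩ := hS j hj
    have := hm1 i 1
    rwa [mul_one] at this
  have hmT : ∀ j ∈ T, m j = m (-1) := by
    intro j hj
    obtain ⟨i, -, rfl⟩ := hT j hj
    have := hm1 i (-1)
    rwa [mul_neg_one] at this
  have hxS : ∀ j ∈ S, χ (g ^ j.val) = χ g := by
    intro j hj
    obtain ⟨i, -, rfl⟩ := hS j hj
    have := char_pow_r' hχ hg hr i 1
    rw [mul_one] at this
    rw [this, ZMod.val_one, pow_one]
  have hxT : ∀ j ∈ T, χ (g ^ j.val) = conj (χ g) := by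
    intro j hj
    obtain ⟨i, -, rfl⟩ := hT j hj
    have h5 := char_pow_r' hχ hg hr i (-1)
    rw [mul_neg_one] at h5
    rw [h5]
    have h6 : g ^ (-1 : ZMod p).val = g⁻¹ := by
      rw [eq_inv_iff_mul_eq_one, ← pow_succ, ← orderOf_dvd_iff_pow_eq_one, hg, ← ZMod.natCast_eq_zero_iff]
      push_cast
      simp only [ZMod.natCast_val, ZMod.cast_id', id_eq]
      ring
    rw [h6, char_inv' hχ]
  have hsum : ∀ {A : Type} [AddCommMonoid A] (f : ZMod p → A), ∑ j, f j = f 0 + (∑ j ∈ S, f j + ∑ j ∈ T, f j) := by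
    intro A _ f
    rw [← hun, Finset.sum_insert h0, Finset.sum_union hdis]
  have hcard : 2 * S.card + 1 = p := by
    have h5 : (Finset.univ : Finset (ZMod p)).card = p := by rw [Finset.card_univ, ZMod.card]
    rw [← hun, Finset.card_insert_of_notMem h0, Finset.card_union_of_disjoint hdis, ← hc] at h5
    omega
  set e := S.card with he
  set a := m 0
  set b := m 1
  set c := m (-1)
  have s1 : ∑ j, m j = a + (e * b + e * c) := by
    rw [hsum, Finset.sum_congr rfl hmS, Finset.sum_congr rfl hmT, Finset.sum_const, Finset.sum_const, ← hc, smul_eq_mul, smul_eq_mul]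
  have s2 : ∑ j, m j ^ 2 = a ^ 2 + (e * b ^ 2 + e * c ^ 2) := by
    rw [hsum, Finset.sum_congr rfl (fun j hj => by rw [hmS j hj]), Finset.sum_congr (s₁ := T) rfl (fun j hj => by rw [hmT j hj]),
      Finset.sum_const, Finset.sum_const, ← hc, smul_eq_mul, smul_eq_mul]
  have s3 : ∑ k : ZMod p, Complex.normSq (χ (g ^ k.val)) = (d : ℝ) ^ 2 + 2 * e * Complex.normSq (χ g) := by
    rw [hsum, Finset.sum_congr rfl (fun j hj => by rw [hxS j hj]), Finset.sum_congr (s₁ := T) rfl (fun j hj => by rw [hxT j hj]),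
      Finset.sum_const, Finset.sum_const, ← hc, ZMod.val_zero, pow_zero, hd, Complex.normSq_conj, Complex.normSq_natCast,
      nsmul_eq_mul]
    ring
  have s4 : ∑ k : ZMod p, χ (g ^ k.val) = (d : ℂ) + e * (χ g + conj (χ g)) := by
    rw [hsum, Finset.sum_congr rfl hxS, Finset.sum_congr rfl hxT, Finset.sum_const, Finset.sum_const, ← hc, ZMod.val_zero, pow_zero,
      hd, nsmul_eq_mul, nsmul_eq_mul]
    ring
  have hd' : d = a + (e * b + e * c) := by
    rw [h1, s1] at hd
    exact_mod_cast hd.symm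
  rw [s2, s3] at h2
  rw [s4] at h3
  have hpR : (p : ℝ) = 2 * e + 1 := by exact_mod_cast hcard.symm
  have hpC : (p : ℂ) = 2 * e + 1 := by exact_mod_cast hcard.symm
  have hpZ : (p : ℤ) = 2 * e + 1 := by exact_mod_cast hcard.symm
  have hdR : (d : ℝ) = a + (e * b + e * c) := by exact_mod_cast hd'
  have hdC : (d : ℂ) = a + (e * b + e * c) := by exact_mod_cast hd'
  have he0 : e ≠ 0 := by
    intro h0
    rw [h0] at hcard
    exact hp.out.one_lt.ne' hcard.symm
  have heR : (e : ℝ) ≠ 0 := by exact_mod_cast he0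
  have heC : (e : ℂ) ≠ 0 := by exact_mod_cast he0
  refine ⟨2 * a - b - c, b - c, b + c, ?_, ?_, ⟨a - b, by ring⟩, ?_⟩
  · push_cast at h2 ⊢
    rw [hpR, hdR] at h2
    rw [hpR]
    have h5 : (e : ℝ) * (4 * Complex.normSq (χ g)) = e * ((2 * a - b - c) ^ 2 + (2 * e + 1) * (b - c) ^ 2) := by
      linear_combination 2 * h2
    exact mul_left_cancel₀ heR h5
  · rw [hpZ, hd']
    push_cast
    ring
  · intro ht
    have hbc : (b : ℤ) = c := by linarith
    have hbcC : (b : ℂ) = c := by exact_mod_cast hbc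
    have hbcR : (b : ℝ) = c := by exact_mod_cast hbc
    have h6 : (e : ℂ) * (χ g + conj (χ g)) = e * (2 * a - b - c) := by
      rw [hpC, hdC] at h3
      linear_combination h3
    have h7 := mul_left_cancel₀ heC h6
    have hre : 2 * (χ g).re = 2 * a - b - c := by
      have := congrArg Complex.re h7
      simp at this
      linarith
    have h8 : 4 * Complex.normSq (χ g) = (2 * a - b - c) ^ 2 := by
      rw [hpR, hdR] at h2
      push_cast at h2
      have h5 : (e : ℝ) * (4 * Complex.normSq (χ g)) = e * ((2 * a - b - c) ^ 2) := by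
        rw [hbcR] at h2 ⊢
        linear_combination 2 * h2
      exact mul_left_cancel₀ heR h5
    have him : (χ g).im = 0 := by
      rw [Complex.normSq_apply, ← hre] at h8
      have : (χ g).im * (χ g).im = 0 := by nlinarith
      exact mul_self_eq_zero.1 this
    apply Complex.ext
    · simp
      linarith
    · simp [him]

/-- bound by class sums -/
theorem class_bound {χ : G → ℂ} (hχ : IsIrrCharacter G χ) (L : Finset G) (hL : ∀ x ∈ L, ∀ y ∈ L, x ≠ y → ¬ IsConj x y) :
    ∑ x ∈ L, Complex.normSq (χ x) / Nat.card (Subgroup.centralizer ({x} : Set G)) ≤ 1 := by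
  classical
  have hc := Cfsg.Agent.H27.isIrr_isCharacter hχ
  have := Fintype.ofFinite G
  have hG : (0 : ℝ) < Nat.card G := by exact_mod_cast Nat.card_pos
  have h1 : ∑ g : G, Complex.normSq (χ g) = (Nat.card G : ℝ) := by
    have h2 := Cfsg.Agent.H27.irr_sum_mul_inv hχ
    have h3 : ((∑ g : G, Complex.normSq (χ g) : ℝ) : ℂ) = (Nat.card G : ℂ) := by
      rw [← h2]
      push_cast
      apply Finset.sum_congr rfl
      intro g _
      rw [char_inv' hc, Complex.mul_conj]
    exact_mod_cast h3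
  have h4 : ∀ x ∈ L, (Nat.card G : ℝ) * (Complex.normSq (χ x) / Nat.card (Subgroup.centralizer ({x} : Set G))) =
      ∑ y ∈ Cfsg.Agent.H27.cl x, Complex.normSq (χ y) := by
    intro x _
    rw [Finset.sum_congr rfl (g := fun _ => Complex.normSq (χ x)), Finset.sum_const, nsmul_eq_mul]
    · rw [← Cfsg.Agent.H27.card_cl_mul_card_centralizer x]
      have h5 : (0 : ℝ) < Nat.card (Subgroup.centralizer ({x} : Set G)) := by exact_mod_cast Nat.card_pos
      push_cast
      field_simp
    · intro y hy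
      rw [Cfsg.Agent.H27.isCharacter_isConj hc (Cfsg.Agent.H27.mem_cl.1 hy)]
  have h6 : (Nat.card G : ℝ) * ∑ x ∈ L, Complex.normSq (χ x) / Nat.card (Subgroup.centralizer ({x} : Set G)) ≤ Nat.card G * 1 := by
    rw [mul_one, Finset.mul_sum, Finset.sum_congr rfl h4, ← Finset.sum_biUnion, ← h1]
    · exact Finset.sum_le_sum_of_subset_of_nonneg (Finset.subset_univ _) (fun _ _ _ => Complex.normSq_nonneg _)
    · intro x hx y hy hxy
      rw [Function.onFun, Finset.disjoint_left]
      intro z h5 h6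
      exact hL x hx y hy hxy ((Cfsg.Agent.H27.mem_cl.1 h5).trans (Cfsg.Agent.H27.mem_cl.1 h6).symm)
  exact le_of_mul_le_mul_left h6 hG

end Cfsg.Agent.H29
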