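import Mathlib
import Cfsg.Agent.H29.Rewrite
set_option autoImplicit false

/-! Homomorphisms from the symmetric group of degree 5 from its Coxeter relations. -/

namespace Cfsg.Agent.H29

def words5 : List (List (Fin 4)) :=
  ([[], [0], [1], [0,1], [1,0], [0,1,0]].flatMap fun w =>
    [w, w ++ [2], w ++ [2,1], w ++ [2,1,0]]).flatMap fun w =>
    [w, w ++ [3], w ++ [3,2], w ++ [3,2,1], w ++ [3,2,1,0]]

def sgen5 : Fin 4 → Equiv.Perm (Fin 5) :=
  ![Equiv.swap 0 1, Equiv.swap 1 2, Equiv.swap 2 3, Equiv.swap 3 4]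

def word5 (σ : Equiv.Perm (Fin 5)) : List (Fin 4) :=
  (words5.find? (fun w => decide (evalWord sgen5 w = σ))).getD []

def rules5 : List (List (Fin 4) × List (Fin 4)) :=
  [([0,0],[]), ([1,1],[]), ([2,2],[]), ([3,3],[]), ([2,0],[0,2]), ([3,0],[0,3]), ([3,1],[1,3]),
   ([1,0,1],[0,1,0]), ([2,1,2],[1,2,1]), ([3,2,3],[2,3,2]),
   ([2,1,0,2],[1,2,1,0]), ([3,2,1,3],[2,3,2,1]), ([3,2,1,0,3],[2,3,2,1,0])]

theorem eval_word5 : ∀ σ : Equiv.Perm (Fin 5), evalWord sgen5 (word5 σ) = σ := by
  decide +kernel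

theorem cert5 : ∀ (σ : Equiv.Perm (Fin 5)) (i : Fin 4),
    rwNF rules5 30 (word5 (σ * sgen5 i)) = rwNF rules5 30 (word5 σ ++ [i]) := by
  decide +kernel


theorem exists_hom_perm5 {G : Type*} [Group G] {a b c d : G} (haa : a * a = 1) (hbb : b * b = 1)
    (hcc : c * c = 1) (hdd : d * d = 1) (hac : a * c = c * a) (had : a * d = d * a)
    (hbd : b * d = d * b) (hab : a * b * a = b * a * b) (hbc : b * c * b = c * b * c)
    (hcd : c * d * c = d * c * d) :
    ∃ φ : Equiv.Perm (Fin 5) →* G, φ (Equiv.swap 0 1) = a ∧ φ (Equiv.swap 1 2) = b ∧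
      φ (Equiv.swap 2 3) = c ∧ φ (Equiv.swap 3 4) = d := by
  obtain ⟨φ, hφ, -⟩ := exists_hom_of_rewriting sgen5 ![a, b, c, d] word5 eval_word5 rules5 (by
    simp only [rules5, List.mem_cons, List.not_mem_nil, or_false]
    rintro r (rfl | rfl | rfl | rfl | rfl | rfl | rfl | rfl | rfl | rfl | rfl | rfl | rfl) <;>
      simp only [evalWord_cons, evalWord_nil, mul_one, Matrix.cons_val_zero, Matrix.cons_val_one,
        Matrix.cons_val]
    · exact haa
    · exact hbb
    · exact hcc
    · exact hdd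
    · exact hac.symm
    · exact had.symm
    · exact hbd.symm
    · rw [← mul_assoc, ← mul_assoc, hab]
    · rw [← mul_assoc, ← mul_assoc, hbc]
    · rw [← mul_assoc, ← mul_assoc, hcd]
    · -- c b a c = b c b a
      calc c * (b * (a * c)) = c * b * (a * c) := by group
        _ = c * b * (c * a) := by rw [hac]
        _ = (c * b * c) * a := by group
        _ = (b * c * b) * a := by rw [hbc]
        _ = _ := by group
    · calc d * (c * (b * d)) = d * c * (b * d) := by group
        _ = d * c * (d * b) := by rw [hbd]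
        _ = (d * c * d) * b := by group
        _ = (c * d * c) * b := by rw [hcd]
        _ = _ := by group
    · calc d * (c * (b * (a * d))) = d * c * b * (a * d) := by group
        _ = d * c * b * (d * a) := by rw [had]
        _ = d * c * (b * d) * a := by group
        _ = d * c * (d * b) * a := by rw [hbd]
        _ = (d * c * d) * b * a := by group
        _ = (c * d * c) * b * a := by rw [hcd]
        _ = _ := by group) 30 (by decide +kernel) cert5
  exact ⟨φ, hφ 0, hφ 1, hφ 2, hφ 3⟩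

theorem perm5_center (σ : Equiv.Perm (Fin 5)) (h : ∀ τ, σ * τ = τ * σ) : σ = 1 := by
  have h1 := h (Equiv.swap 0 1)
  have h2 := h (Equiv.swap 1 2)
  have h3 := h (Equiv.swap 2 3)
  have h4 := h (Equiv.swap 3 4)
  revert h1 h2 h3 h4
  clear h
  revert σ
  decide +kernel

theorem perm5_injective {G : Type*} [Group G] (φ : Equiv.Perm (Fin 5) →* G)
    (h : φ (Equiv.swap 0 1) ≠ φ (Equiv.swap 2 3)) : Function.Injective φ := by
  rw [← MonoidHom.ker_eq_bot_iff]
  have hN : (φ.ker.subgroupOf (alternatingGroup (Fin 5))).Normal := inferInstance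
  have hs : IsSimpleGroup (alternatingGroup (Fin 5)) := alternatingGroup.isSimpleGroup_five
  rcases hN.eq_bot_or_eq_top with hb | ht
  · rw [eq_bot_iff]
    intro k hk
    rw [Subgroup.mem_bot]
    apply perm5_center
    intro τ
    have h1 : k * τ * k⁻¹ * τ⁻¹ ∈ φ.ker := by
      rw [MonoidHom.mem_ker] at hk ⊢
      rw [map_mul, map_mul, map_mul, map_inv, hk, map_inv]; group
    have h2 : k * τ * k⁻¹ * τ⁻¹ ∈ alternatingGroup (Fin 5) := by
      rw [Equiv.Perm.mem_alternatingGroup, map_mul, map_mul, map_mul, map_inv, map_inv]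
      rw [mul_right_comm (Equiv.Perm.sign k), mul_inv_cancel, one_mul, mul_inv_cancel]
    have h3 : (⟨_, h2⟩ : alternatingGroup (Fin 5)) ∈ φ.ker.subgroupOf (alternatingGroup (Fin 5)) := h1
    rw [hb, Subgroup.mem_bot] at h3
    have h4 : k * τ * k⁻¹ * τ⁻¹ = 1 := congrArg Subtype.val h3
    exact mul_inv_eq_iff_eq_mul.1 (mul_inv_eq_one.1 h4)
  · exfalso
    apply h
    have h2 : (Equiv.swap 0 1 * Equiv.swap 2 3 : Equiv.Perm (Fin 5)) ∈ alternatingGroup (Fin 5) := by
      rw [Equiv.Perm.mem_alternatingGroup]; decide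
    have h3 : (⟨_, h2⟩ : alternatingGroup (Fin 5)) ∈ φ.ker.subgroupOf (alternatingGroup (Fin 5)) := by
      rw [ht]; trivial
    have h4 : φ (Equiv.swap 0 1 * Equiv.swap 2 3) = 1 := h3
    rw [map_mul] at h4
    rw [eq_inv_of_mul_eq_one_left h4, ← map_inv, Equiv.swap_inv]

end Cfsg.Agent.H29
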