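import Mathlib
import Cfsg.Prelude.Def_Solvable
import Cfsg.Prelude.Def_Local
import Cfsg.Agent.H29.TT10
set_option autoImplicit false

/-! Short relations between commuting 3-transpositions. -/

namespace Cfsg.Agent.H29
open Subgroup

namespace TT
variable {G : Type*} [Group G] {D : Set G}

/-- two products of two commuting members: the factors commute -/
theorem comm_of_pair (h : TT D) {a b c e : G} (ha : a ∈ D) (hb : b ∈ D) (hc : c ∈ D)
    (he : e ∈ D) (hab : Commute a b) (hce : Commute c e) (hne : a ≠ b) (hj : a * b = c * e) :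
    Commute c a := by
  by_contra hca
  have hcj : Commute c (a * b) := by
    rw [hj]
    exact (Commute.refl c).mul_right hce
  have hnb : ¬ Commute b c := by
    intro hbc
    apply hca
    have h1 : a = a * b * b := by rw [mul_assoc, h.sq b hb, mul_one]
    rw [h1]
    exact hcj.mul_right hbc.symm
  have hac : ¬ Commute a c := fun h' => hca h'.symm
  have h3 := h.cube ha hc hac
  have h3' := h.cube hb hc hnb
  have hbj : b = a * (a * b) := by rw [← mul_assoc, h.sq a ha, one_mul]
  have haj : Commute a (a * b) := (Commute.refl a).mul_right hab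
  have e1 : b * c = (a * c) * (a * b) := by
    calc b * c = a * (a * b) * c := by rw [← hbj]
      _ = a * ((a * b) * c) := by group
      _ = a * (c * (a * b)) := by rw [hcj.eq]
      _ = _ := by group
  have hc2 : Commute (a * c) (a * b) := haj.mul_left hcj
  rw [e1, hc2.mul_pow, h3, one_mul] at h3'
  have h2 := h.sq_of_comm ha hb hab
  have : a * b = 1 := by
    calc a * b = (a * b) ^ 3 * ((a * b) ^ 2)⁻¹ := by group
      _ = 1 := by rw [h3', h2]; group
  apply hne
  calc a = a * b * b := by rw [mul_assoc, h.sq b hb, mul_one]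
    _ = b := by rw [this, one_mul]

/-- a member commuting with a product of two commuting members commutes with the factors -/
theorem comm_of_mul (h : TT D) {a b x : G} (ha : a ∈ D) (hb : b ∈ D) (hx : x ∈ D)
    (hab : Commute a b) (hne : a ≠ b) (hj : Commute x (a * b)) : Commute x a := by
  by_contra hxa
  have h1 : a * b = (x * a * x) * (x * b * x) := by
    calc a * b = x * (x * (a * b)) := by rw [← mul_assoc, h.sq x hx, one_mul]
      _ = x * ((a * b) * x) := by rw [hj.eq]
      _ = x * a * (x * x) * b * x := by rw [h.sq x hx]; group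
      _ = _ := by group
  have h2 := h.comm_of_pair ha hb (h.conj' ha hx) (h.conj' hb hx) hab
    ((h.comm_conj hx).2 hab) hne h1
  exact h.not_comm_conj ha hx (fun h' => hxa h'.symm) h2.symm

theorem comm_of_mul' (h : TT D) {a b x : G} (ha : a ∈ D) (hb : b ∈ D) (hx : x ∈ D)
    (hab : Commute a b) (hne : a ≠ b) (hj : Commute x (a * b)) : Commute x b :=
  h.comm_of_mul hb ha hx hab.symm hne.symm (by rw [hab.symm.eq]; exact hj)

/-- a member not commuting with three others does not commute with their product -/
theorem not_comm_triple (h : TT D) {a b c x : G} (ha : a ∈ D) (hb : b ∈ D) (hc : c ∈ D)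
    (hx : x ∈ D) (hab : Commute a b) (hxa : ¬ Commute x a) (hxb : ¬ Commute x b)
    (hxc : ¬ Commute x c) : ¬ Commute x (a * b * c) := by
  intro hj
  have h1 := h.str_comm ha hx hb (fun h' => hxa h'.symm) hxb hab
  have e : a * b * x * b * a = c * x * c := by
    have hj' : x * (a * b * c) = a * b * c * x := hj
    have h2 : c * x * c = (a * b)⁻¹ * x * (a * b) := by
      have h3 : (a * b)⁻¹ * (x * (a * b * c)) * c = (a * b)⁻¹ * (a * b * c * x) * c := by
        rw [hj']
      have h4 : (a * b)⁻¹ * (x * (a * b * c)) * c = (a * b)⁻¹ * x * (a * b) := by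
        calc (a * b)⁻¹ * (x * (a * b * c)) * c = (a * b)⁻¹ * x * (a * b) * (c * c) := by group
          _ = _ := by rw [h.sq c hc, mul_one]
      have h5 : (a * b)⁻¹ * (a * b * c * x) * c = c * x * c := by group
      rw [h4, h5] at h3
      exact h3.symm
    rw [h2]
    have h6 : (a * b)⁻¹ = a * b := by
      rw [mul_inv_rev, h.inv ha, h.inv hb]
      exact hab.symm.eq
    rw [h6]
    have h7 : a * b = b * a := hab
    calc a * b * x * b * a = a * b * x * (b * a) := by group
      _ = a * b * x * (a * b) := by rw [← h7]
  rw [e] at h1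
  exact h.not_comm_conj hx hc hxc h1

/-- a member commuting with a product of three commuting members commutes with each of them -/
theorem comm_of_triple (h : TT D) {a b c x : G} (ha : a ∈ D) (hb : b ∈ D) (hc : c ∈ D)
    (hx : x ∈ D) (hab : Commute a b) (hac : Commute a c) (hbc : Commute b c) (h1 : a ≠ b)
    (h2 : a ≠ c) (h3 : b ≠ c) (hj : Commute x (a * b * c)) : Commute x a := by
  by_cases hxa : Commute x a
  · exact hxa
  by_cases hxc : Commute x c
  · have h4 : Commute x (a * b) := by
      have e : a * b = a * b * c * c := by rw [mul_assoc (a * b), h.sq c hc, mul_one]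
      rw [e]
      exact hj.mul_right hxc
    exact h.comm_of_mul ha hb hx hab h1 h4
  by_cases hxb : Commute x b
  · have h4 : Commute x (a * c) := by
      have e : a * c = a * b * c * b := by
        calc a * c = a * c * (b * b) := by rw [h.sq b hb, mul_one]
          _ = a * (c * b) * b := by group
          _ = a * (b * c) * b := by rw [hbc.eq]
          _ = _ := by group
      rw [e]
      exact hj.mul_right hxb
    exact h.comm_of_mul ha hc hx hac h2 h4
  · exact absurd hj (h.not_comm_triple ha hb hc hx hab hxa hxb hxc)

theorem comm_of_triple2 (h : TT D) {a b c x : G} (ha : a ∈ D) (hb : b ∈ D) (hc : c ∈ D)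
    (hx : x ∈ D) (hab : Commute a b) (hac : Commute a c) (hbc : Commute b c) (h1 : a ≠ b)
    (h2 : a ≠ c) (h3 : b ≠ c) (hj : Commute x (a * b * c)) : Commute x b := by
  refine h.comm_of_triple hb ha hc hx hab.symm hbc hac h1.symm h3 h2 ?_
  rw [hab.symm.eq]
  exact hj

theorem comm_of_triple3 (h : TT D) {a b c x : G} (ha : a ∈ D) (hb : b ∈ D) (hc : c ∈ D)
    (hx : x ∈ D) (hab : Commute a b) (hac : Commute a c) (hbc : Commute b c) (h1 : a ≠ b)
    (h2 : a ≠ c) (h3 : b ≠ c) (hj : Commute x (a * b * c)) : Commute x c := by
  refine h.comm_of_triple hc ha hb hx hac.symm hbc.symm hab h2.symm h3.symm h1 ?_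
  have e : c * a * b = a * b * c := by
    rw [hac.symm.eq, mul_assoc, hbc.symm.eq, mul_assoc]
  rw [e]
  exact hj

/-- a relation of length four between distinct commuting members makes them `V`-equivalent -/
theorem vrel_of_four (h : TT D) {a b c e : G} (ha : a ∈ D) (hb : b ∈ D) (hc : c ∈ D)
    (he : e ∈ D) (hab : Commute a b) (hce : Commute c e) (h1 : a ≠ b) (h2 : a ≠ c) (h3 : a ≠ e)
    (h4 : b ≠ c) (h5 : b ≠ e) (hj : a * b = c * e) : VRel D a b := by
  have hca := h.comm_of_pair ha hb hc he hab hce h1 hj
  have hce' : c ≠ e := by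
    rintro rfl
    rw [h.sq c hc] at hj
    apply h1
    rw [← h.inv hb]
    exact eq_inv_of_mul_eq_one_left hj
  have hea : Commute e a := by
    apply h.comm_of_pair ha hb he hc hab hce.symm h1
    rw [hj, hce.eq]
  have hcb : Commute c b := by
    apply h.comm_of_pair hb ha hc he hab.symm hce h1.symm
    rw [← hj, hab.eq]
  have heb : Commute e b := by
    apply h.comm_of_pair hb ha he hc hab.symm hce.symm h1.symm
    rw [← hce.eq, ← hj, hab.eq]
  -- the key: commuting with `a` implies commuting with `b`
  have key : ∀ a b : G, a ∈ D → b ∈ D → Commute a b → a ≠ b → a ≠ c → a ≠ e → b ≠ c → b ≠ e →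
      Commute c a → Commute e a → Commute c b → Commute e b → a * b = c * e →
      ∀ x ∈ D, Commute a x → Commute b x := by
    intro a b ha hb hab h1 h2 h3 h4 h5 hca hea hcb heb hj x hx hxa
    by_contra hxb
    have hxa' : Commute x a := hxa.symm
    have hxb' : ¬ Commute x b := fun h' => hxb h'.symm
    by_cases hxc : Commute x c
    · -- then `b e = a c`
      have e1 : b * e = a * c := by
        calc b * e = a * (a * b) * e := by rw [← mul_assoc a a b, h.sq a ha, one_mul]
          _ = a * (c * e) * e := by rw [hj]
          _ = a * c * (e * e) := by group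
          _ = _ := by rw [h.sq e he, mul_one]
      apply hxb'
      apply h.comm_of_mul hb he hx heb.symm h5
      rw [e1]
      exact hxa'.mul_right hxc
    by_cases hxe : Commute x e
    · have e1 : b * c = a * e := by
        calc b * c = a * (a * b) * c := by rw [← mul_assoc a a b, h.sq a ha, one_mul]
          _ = a * (c * e) * c := by rw [hj]
          _ = a * (e * c) * c := by rw [hce.eq]
          _ = a * e * (c * c) := by group
          _ = _ := by rw [h.sq c hc, mul_one]
      apply hxb'
      apply h.comm_of_mul hb hc hx hcb.symm h4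
      rw [e1]
      exact hxa'.mul_right hxe
    · have e1 : c * e * b = a := by
        rw [← hj, mul_assoc, h.sq b hb, mul_one]
      apply h.not_comm_triple hc he hb hx hce hxc hxe hxb'
      rw [e1]
      exact hxa'
  refine ⟨ha, hb, fun x hx => ⟨?_, ?_⟩⟩
  · exact key a b ha hb hab h1 h2 h3 h4 h5 hca hea hcb heb hj x hx
  · exact key b a hb ha hab.symm h1.symm h4 h5 h2 h3 hcb heb hca hea (by rw [← hj, hab.eq]) x hx

/-- In a relation of length five, members commuting with one factor commute with all or none of
the others. -/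
theorem vrel_five (h : TT D) {p q r s t : G} (hp : p ∈ D) (hq : q ∈ D) (hr : r ∈ D) (hs : s ∈ D)
    (ht : t ∈ D) (hpq : Commute p q) (hrs : Commute r s) (hrt : Commute r t) (hst : Commute s t)
    (h1 : r ≠ s) (h2 : r ≠ t) (h3 : s ≠ t) (hj : p * q = r * s * t) {x : G} (hx : x ∈ D)
    (hxp : Commute x p) (hxq : Commute x q) : Commute x r := by
  apply h.comm_of_triple hr hs ht hx hrs hrt hst h1 h2 h3
  rw [← hj]
  exact hxp.mul_right hxq

/-- If `q z` is a member for a central involution `z ≠ 1` then `q` is central. -/
theorem comm_all_of_central (h : TT D) {q r : G} (hq : q ∈ D) (hr : r ∈ D) (hne : q ≠ r)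
    (hqr : Commute q r) {y : G} (hy : y ∈ D) (hz : Commute (q * r) y) : Commute q y := by
  by_contra hqy
  have hz' : Commute y (q * r) := hz.symm
  exact hqy (h.comm_of_mul hq hr hy hqr hne hz').symm

end TT

end Cfsg.Agent.H29
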