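import Mathlib
import Cfsg.Prelude.Def_Solvable
import Cfsg.Prelude.Def_Local
import Cfsg.Prelude.Def_FischerSpaces
import Cfsg.Agent.H29.TT11
set_option autoImplicit false

/-! 3-transpositions: the subgroup generated by the members commuting with a given one, and
central quotients. -/

namespace Cfsg.Agent.H29
open Subgroup

section dh
variable {G : Type*} [Group G] {D : Set G}

/-- the members of `D_d` inside the subgroup they generate -/
def DH (D : Set G) (d : G) : Set ↥(Subgroup.closure (Dc D d)) := {x | (x : G) ∈ Dc D d}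

theorem comm_of_mem_hd {d g : G} (hg : g ∈ Subgroup.closure (Dc D d)) : Commute d g := by
  induction hg using Subgroup.closure_induction with
  | mem x hx => exact hx.2.2
  | one => exact Commute.one_right d
  | mul x y _ _ hx hy => exact hx.mul_right hy
  | inv x _ hx => exact hx.inv_right

theorem dc_conj_mem (h : TT D) {d g x : G} (hg : g ∈ Subgroup.closure (Dc D d)) (hx : x ∈ Dc D d) :
    g * x * g⁻¹ ∈ Dc D d := by
  have hc := comm_of_mem_hd hg
  have hd : g * d * g⁻¹ = d := by rw [← hc.eq]; group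
  refine ⟨h.conj g x hx.1, ?_, ?_⟩
  · intro he
    apply hx.2.1
    calc x = g⁻¹ * (g * x * g⁻¹) * g := by group
      _ = g⁻¹ * (g * d * g⁻¹) * g := by rw [he, hd]
      _ = d := by group
  · have := (comm_conj_iff g d x).2 hx.2.2
    rwa [hd] at this

theorem dh_group (hD : Cfsg.IsThreeTranspositionGroup D) (d : G) :
    Cfsg.IsThreeTranspositionGroup (DH D d) := by
  have h := tt_of_group hD
  refine ⟨⟨?_, ?_⟩, ?_, ?_⟩
  · intro x hx
    rw [← Subgroup.orderOf_coe]
    exact hD.1.1 _ hx.1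
  · intro x hx y hy
    rcases hD.1.2 _ hx.1 _ hy.1 with h1 | h1
    · left
      apply Subtype.ext
      exact h1
    · right
      apply Subtype.ext
      exact h1
  · intro g x hx
    exact dc_conj_mem h g.2 hx
  · exact Subgroup.closure_closure_coe_preimage

theorem dh_class [Finite G] (hD : Cfsg.IsThreeTranspositionGroup D) {d : G}
    (hne : (Dc D d).Nonempty)
    (ht : ∀ e ∈ Dc D d, ∀ f ∈ Dc D d, ∃ g ∈ Subgroup.closure (Dc D d), g * e * g⁻¹ = f) :
    Cfsg.IsThreeTranspositionClass (DH D d) := by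
  have h1 := dh_group hD d
  obtain ⟨e, he⟩ := hne
  refine ⟨h1.1, ⟨⟨e, Subgroup.subset_closure he⟩, he, ?_⟩, h1.2.2⟩
  ext x
  constructor
  · intro hx
    obtain ⟨g, hg, hgx⟩ := ht e he x hx
    show IsConj _ _
    rw [isConj_iff]
    exact ⟨⟨g, hg⟩, Subtype.ext hgx⟩
  · intro hx
    have hx' : IsConj (⟨e, Subgroup.subset_closure he⟩ : ↥(Subgroup.closure (Dc D d))) x := hx
    rw [isConj_iff] at hx'
    obtain ⟨g, rfl⟩ := hx'
    exact h1.2.1 g _ he

theorem vrel_dh {d q r : G} (hq : q ∈ Dc D d) (hr : r ∈ Dc D d)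
    (h : ∀ x ∈ Dc D d, Commute q x ↔ Commute r x) :
    VRel (DH D d) ⟨q, Subgroup.subset_closure hq⟩ ⟨r, Subgroup.subset_closure hr⟩ := by
  refine ⟨hq, hr, fun x hx => ?_⟩
  constructor
  · intro h1
    have h2 : Commute q (x : G) := congrArg Subtype.val h1
    have h3 := (h x hx).1 h2
    exact Subtype.ext h3
  · intro h1
    have h2 : Commute r (x : G) := congrArg Subtype.val h1
    have h3 := (h x hx).2 h2
    exact Subtype.ext h3

end dh

section qt
variable {G : Type*} [Group G] {D : Set G}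

theorem quot_comm (h : TT D) {x y : G} (hx : x ∈ D) (hy : y ∈ D) :
    Commute (QuotientGroup.mk x : G ⧸ Subgroup.center G) (QuotientGroup.mk y) ↔ Commute x y := by
  constructor
  · intro h1
    by_contra hxy
    have h2 : (QuotientGroup.mk (x * y) : G ⧸ Subgroup.center G) = QuotientGroup.mk (y * x) := h1
    rw [QuotientGroup.eq] at h2
    have h3 : (x * y)⁻¹ * (y * x) = (y * x) * (y * x) := by
      rw [mul_inv_rev, h.inv hx, h.inv hy]
    rw [h3] at h2
    have hyx : ¬ Commute y x := fun h' => hxy h'.symm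
    have h4 := h.cube hy hx hyx
    have h5 : (y * x) * (y * x) = (y * x)⁻¹ := by
      have : (y * x) ^ 3 = (y * x) * (y * x) * (y * x) := by
        rw [pow_succ, pow_two]
      rw [this] at h4
      exact eq_inv_of_mul_eq_one_left h4
    rw [h5] at h2
    have h6 : y * x ∈ Subgroup.center G := by simpa using inv_mem h2
    rw [Subgroup.mem_center_iff] at h6
    have h7 := h6 y
    apply hyx
    show y * x = x * y
    have h8 : y * (y * x) = y * (x * y) := by rw [h7, mul_assoc]
    exact mul_left_cancel h8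
  · intro h1
    show (QuotientGroup.mk (x * y) : G ⧸ Subgroup.center G) = QuotientGroup.mk (y * x)
    rw [h1.eq]

/-- two members congruent modulo the centre are equal, or commute with everything -/
theorem quot_inj (h : TT D) {x y : G} (hx : x ∈ D) (hy : y ∈ D)
    (he : (QuotientGroup.mk x : G ⧸ Subgroup.center G) = QuotientGroup.mk y) :
    x = y ∨ ∀ z ∈ D, Commute x z := by
  by_cases hxy : x = y
  · exact Or.inl hxy
  right
  rw [QuotientGroup.eq, h.inv hx, Subgroup.mem_center_iff] at he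
  have hc : Commute x y := by
    have h1 := he x
    show x * y = y * x
    have h2 : x * (x * y) = x * (y * x) := by rw [h1, mul_assoc]
    exact mul_left_cancel h2
  intro z hz
  exact h.comm_all_of_central hx hy hxy hc hz (he z).symm

theorem quot_group (hD : Cfsg.IsThreeTranspositionGroup D) (hnc : ∀ x ∈ D, x ∉ Subgroup.center G) :
    Cfsg.IsThreeTranspositionGroup
      ((QuotientGroup.mk : G → G ⧸ Subgroup.center G) '' D) := by
  have h := tt_of_group hD
  refine ⟨⟨?_, ?_⟩, ?_, ?_⟩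
  · rintro _ ⟨x, hx, rfl⟩
    apply orderOf_eq_prime
    · rw [← QuotientGroup.mk_pow, pow_two, h.sq x hx]
      rfl
    · intro he
      exact hnc x hx ((QuotientGroup.eq_one_iff x).1 he)
  · rintro _ ⟨x, hx, rfl⟩ _ ⟨y, hy, rfl⟩
    rcases hD.1.2 x hx y hy with h1 | h1
    · left
      rw [← QuotientGroup.mk_mul, ← QuotientGroup.mk_pow, h1]
      rfl
    · right
      rw [← QuotientGroup.mk_mul, ← QuotientGroup.mk_pow, h1]
      rfl
  · intro g
    rintro _ ⟨x, hx, rfl⟩
    obtain ⟨g, rfl⟩ := QuotientGroup.mk_surjective g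
    exact ⟨g * x * g⁻¹, h.conj g x hx, rfl⟩
  · have h1 := (MonoidHom.map_closure (QuotientGroup.mk' (Subgroup.center G)) D).symm
    have h2 : Subgroup.closure ((QuotientGroup.mk : G → G ⧸ Subgroup.center G) '' D) =
      Subgroup.map (QuotientGroup.mk' (Subgroup.center G)) (Subgroup.closure D) := h1
    rw [h2, hD.2.2, Subgroup.map_top_of_surjective _ (QuotientGroup.mk'_surjective _)]

theorem not_central_of_pair (h : TT D) (hcl : ∀ a ∈ D, ∀ b ∈ D, IsConj a b)
    (hD2 : ∃ a ∈ D, ∃ b ∈ D, ¬ Commute a b) : ∀ x ∈ D, ¬ ∀ z ∈ D, Commute x z := by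
  obtain ⟨a, ha, b, hb, hab⟩ := hD2
  intro x hx hall
  obtain ⟨g, hg⟩ := isConj_iff.1 (hcl x hx a ha)
  apply hab
  have h1 := hall (g⁻¹ * b * g⁻¹⁻¹) (h.conj g⁻¹ b hb)
  have h2 := (comm_conj_iff g _ _).2 h1
  rw [hg] at h2
  have h3 : g * (g⁻¹ * b * g⁻¹⁻¹) * g⁻¹ = b := by group
  rwa [h3] at h2

theorem quot_class (hD : Cfsg.IsThreeTranspositionClass D)
    (hD2 : ∃ a ∈ D, ∃ b ∈ D, ¬ Commute a b) :
    Cfsg.IsThreeTranspositionClass
      ((QuotientGroup.mk : G → G ⧸ Subgroup.center G) '' D) := by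
  have h := tt_of_class hD
  have hnc := not_central_of_pair h (fun a ha b hb => tt_class_isConj hD ha hb) hD2
  have h1 := quot_group (tt_class_group hD) (fun x hx hc => hnc x hx
    (fun z _ => ((Subgroup.mem_center_iff.1 hc) z).symm))
  obtain ⟨a, ha, -⟩ := hD2
  refine ⟨h1.1, ⟨QuotientGroup.mk a, ⟨a, ha, rfl⟩, ?_⟩, h1.2.2⟩
  ext x
  constructor
  · rintro ⟨b, hb, rfl⟩
    obtain ⟨g, hg⟩ := isConj_iff.1 (tt_class_isConj hD ha hb)
    show IsConj _ _
    rw [isConj_iff]
    exact ⟨QuotientGroup.mk g, by rw [← hg]; rfl⟩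
  · intro hx
    have hx' : IsConj (QuotientGroup.mk a : G ⧸ Subgroup.center G) x := hx
    rw [isConj_iff] at hx'
    obtain ⟨g, rfl⟩ := hx'
    exact h1.2.1 g _ ⟨a, ha, rfl⟩

theorem quot_inj' (hD : Cfsg.IsThreeTranspositionClass D)
    (hD2 : ∃ a ∈ D, ∃ b ∈ D, ¬ Commute a b) {x y : G} (hx : x ∈ D) (hy : y ∈ D)
    (he : (QuotientGroup.mk x : G ⧸ Subgroup.center G) = QuotientGroup.mk y) : x = y := by
  have h := tt_of_class hD
  have hnc := not_central_of_pair h (fun a ha b hb => tt_class_isConj hD ha hb) hD2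
  rcases quot_inj h hx hy he with h1 | h1
  · exact h1
  · exact absurd h1 (hnc x hx)

end qt

section lst
variable {G : Type*} [Group G] {D : Set G}

/-- a relation of length five between commuting members -/
structure Rel5 (D : Set G) (f : Fin 5 → G) : Prop where
  mem : ∀ i, f i ∈ D
  inj : Function.Injective f
  comm : ∀ i j, Commute (f i) (f j)
  rel : f 0 * f 1 = f 2 * f 3 * f 4

structure Rel6 (D : Set G) (f : Fin 6 → G) : Prop where
  mem : ∀ i, f i ∈ D
  inj : Function.Injective f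
  comm : ∀ i j, Commute (f i) (f j)
  rel : f 0 * f 1 * f 2 = f 3 * f 4 * f 5

theorem conj_inj (g : G) {x y : G} (h : g * x * g⁻¹ = g * y * g⁻¹) : x = y :=
  mul_left_cancel (mul_right_cancel h)

theorem Rel5.conj (h : TT D) {f : Fin 5 → G} (hf : Rel5 D f) (g : G) :
    Rel5 D (fun i => g * f i * g⁻¹) := by
  refine ⟨fun i => h.conj g _ (hf.mem i), fun i j hij => hf.inj (conj_inj g hij),
    fun i j => (comm_conj_iff g _ _).2 (hf.comm i j), ?_⟩
  show g * f 0 * g⁻¹ * (g * f 1 * g⁻¹) = g * f 2 * g⁻¹ * (g * f 3 * g⁻¹) * (g * f 4 * g⁻¹)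
  calc g * f 0 * g⁻¹ * (g * f 1 * g⁻¹) = g * (f 0 * f 1) * g⁻¹ := by group
    _ = g * (f 2 * f 3 * f 4) * g⁻¹ := by rw [hf.rel]
    _ = _ := by group

theorem Rel6.conj (h : TT D) {f : Fin 6 → G} (hf : Rel6 D f) (g : G) :
    Rel6 D (fun i => g * f i * g⁻¹) := by
  refine ⟨fun i => h.conj g _ (hf.mem i), fun i j hij => hf.inj (conj_inj g hij),
    fun i j => (comm_conj_iff g _ _).2 (hf.comm i j), ?_⟩
  show g * f 0 * g⁻¹ * (g * f 1 * g⁻¹) * (g * f 2 * g⁻¹) =
    g * f 3 * g⁻¹ * (g * f 4 * g⁻¹) * (g * f 5 * g⁻¹)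
  calc g * f 0 * g⁻¹ * (g * f 1 * g⁻¹) * (g * f 2 * g⁻¹) = g * (f 0 * f 1 * f 2) * g⁻¹ := by group
    _ = g * (f 3 * f 4 * f 5) * g⁻¹ := by rw [hf.rel]
    _ = _ := by group

/-- in a relation of length five, the last four factors have the same partners among the members
commuting with the first -/
theorem Rel5.part (h : TT D) {f : Fin 5 → G} (hf : Rel5 D f) {x : G} (hx : x ∈ D)
    (h0 : Commute x (f 0)) : Commute (f 1) x ↔ Commute (f 2) x := by
  have key : ∀ q r s t : G, q ∈ D → r ∈ D → s ∈ D → t ∈ D → Commute (f 0) q → Commute r s →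
      Commute r t → Commute s t → r ≠ s → r ≠ t → s ≠ t → f 0 * q = r * s * t →
      Commute q x → Commute r x := by
    intro q r s t hq hr hs ht h1 h2 h3 h4 n1 n2 n3 hj hqx
    exact (h.vrel_five (hf.mem 0) hq hr hs ht h1 h2 h3 h4 n1 n2 n3 hj hx h0 hqx.symm).symm
  constructor
  · exact key (f 1) (f 2) (f 3) (f 4) (hf.mem 1) (hf.mem 2) (hf.mem 3) (hf.mem 4) (hf.comm 0 1)
      (hf.comm 2 3) (hf.comm 2 4) (hf.comm 3 4) (hf.inj.ne (by decide)) (hf.inj.ne (by decide))
      (hf.inj.ne (by decide)) hf.rel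
  · apply key (f 2) (f 1) (f 3) (f 4) (hf.mem 2) (hf.mem 1) (hf.mem 3) (hf.mem 4) (hf.comm 0 2)
      (hf.comm 1 3) (hf.comm 1 4) (hf.comm 3 4) (hf.inj.ne (by decide)) (hf.inj.ne (by decide))
      (hf.inj.ne (by decide))
    have c12 := (hf.comm 1 2).eq
    have c23 := (hf.comm 2 3).eq
    calc f 0 * f 2 = f 0 * f 1 * f 1 * f 2 := by
          rw [mul_assoc (f 0), h.sq _ (hf.mem 1), mul_one]
      _ = f 2 * f 3 * f 4 * f 1 * f 2 := by rw [hf.rel]
      _ = (f 1 * f 3 * f 4) * (f 2 * f 2) := by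
          have c21 := (hf.comm 2 1).eq
          have c24 := (hf.comm 2 4).eq
          have c31 := (hf.comm 3 1).eq
          have c41 := (hf.comm 4 1).eq
          calc f 2 * f 3 * f 4 * f 1 * f 2 = f 2 * f 3 * (f 4 * f 1) * f 2 := by group
            _ = f 2 * f 3 * (f 1 * f 4) * f 2 := by rw [c41]
            _ = f 2 * (f 3 * f 1) * f 4 * f 2 := by group
            _ = f 2 * (f 1 * f 3) * f 4 * f 2 := by rw [c31]
            _ = (f 2 * f 1) * f 3 * f 4 * f 2 := by group
            _ = (f 1 * f 2) * f 3 * f 4 * f 2 := by rw [c21]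
            _ = f 1 * (f 2 * f 3) * f 4 * f 2 := by group
            _ = f 1 * (f 3 * f 2) * f 4 * f 2 := by rw [c23]
            _ = f 1 * f 3 * (f 2 * f 4) * f 2 := by group
            _ = f 1 * f 3 * (f 4 * f 2) * f 2 := by rw [c24]
            _ = _ := by group
      _ = _ := by rw [h.sq _ (hf.mem 2), mul_one]

end lst

end Cfsg.Agent.H29
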