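import Mathlib
import Cfsg.Prelude.Def_Solvable
import Cfsg.Prelude.Def_Local
import Cfsg.Prelude.Def_FischerSpaces
import Cfsg.Agent.H29.TT12
import Cfsg.Agent.H5.UnitSimple2
import Cfsg.Agent.H5.OmegaQuot
import Cfsg.Agent.H5.OrthForms
set_option autoImplicit false

/-! 3-transpositions: types M(22), M(23), M(24) and relations of length five. -/

namespace Cfsg.Agent.H29
open Subgroup
open scoped commutatorElement

theorem pcore_le_center_of_simple {G : Type*} [Group G] [Finite G]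
    (hs : IsSimpleGroup (G ⧸ Subgroup.center G))
    (hn : ∃ x y : G ⧸ Subgroup.center G, x * y ≠ y * x) : Cfsg.pCore 2 G ≤ Subgroup.center G := by
  have : Fact (Nat.Prime 2) := ⟨Nat.prime_two⟩
  have hN := H1.pCore_normal 2 G
  have hP := H1.pCore_isPGroup 2 G
  have hM : ((Cfsg.pCore 2 G).map (QuotientGroup.mk' (Subgroup.center G))).Normal :=
    hN.map _ (QuotientGroup.mk'_surjective _)
  rcases hM.eq_bot_or_eq_top with h | h
  · rw [(Cfsg.pCore 2 G).map_eq_bot_iff, QuotientGroup.ker_mk'] at h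
    exact h
  · exfalso
    have h1 : IsPGroup 2 ((Cfsg.pCore 2 G).map (QuotientGroup.mk' (Subgroup.center G))) :=
      hP.map _
    rw [h] at h1
    have h2 : IsPGroup 2 (G ⧸ Subgroup.center G) := by
      intro x
      obtain ⟨k, hk⟩ := h1 ⟨x, trivial⟩
      exact ⟨k, congrArg Subtype.val hk⟩
    have hnt : Nontrivial (G ⧸ Subgroup.center G) := hs.toNontrivial
    have h3 := h2.center_nontrivial
    have hc : (Subgroup.center (G ⧸ Subgroup.center G)).Normal := inferInstance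
    rcases hc.eq_bot_or_eq_top with h4 | h4
    · rw [h4] at h3
      obtain ⟨a, b, hab⟩ := h3
      apply hab
      apply Subtype.ext
      have ha := a.2
      have hb := b.2
      rw [Subgroup.mem_bot] at ha hb
      rw [ha, hb]
    · obtain ⟨x, y, hxy⟩ := hn
      have hx : x ∈ Subgroup.center (G ⧸ Subgroup.center G) := by rw [h4]; trivial
      exact hxy ((Subgroup.mem_center_iff.1 hx y).symm)

theorem psu_facts {F : Type} [Field F] [Fintype F] (hF : Fintype.card F = 4) :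
    IsSimpleGroup (Cfsg.PSU 6 F 2) ∧ ∃ x y : Cfsg.PSU 6 F 2, x * y ≠ y * x := by
  have h4 : Fintype.card F = 2 ^ 2 := by rw [hF]; norm_num
  have hs := Cfsg.Agent.H5.PSU_isSimple h4 (n := 6) (by norm_num) (by omega)
  refine ⟨hs, ?_⟩
  by_contra hcon
  push Not at hcon
  have hp := Cfsg.Agent.H5.SU_perfect h4 (n := 6) (by norm_num) (by omega)
  have hle : commutator (Cfsg.SU 6 F 2) ≤ Subgroup.center (Cfsg.SU 6 F 2) := by
    rw [commutator_def, Subgroup.commutator_le]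
    intro x _ y _
    have h1 := hcon (QuotientGroup.mk x) (QuotientGroup.mk y)
    rw [← QuotientGroup.eq_one_iff]
    have h2 : (QuotientGroup.mk ⁅x, y⁆ : Cfsg.PSU 6 F 2) =
      ⁅(QuotientGroup.mk x : Cfsg.PSU 6 F 2), QuotientGroup.mk y⁆ := rfl
    rw [h2, commutatorElement_eq_one_iff_mul_comm]
    exact h1
  rw [hp] at hle
  obtain ⟨a, b, hab⟩ := hs.toNontrivial
  apply hab
  obtain ⟨a, rfl⟩ := QuotientGroup.mk_surjective a
  obtain ⟨b, rfl⟩ := QuotientGroup.mk_surjective b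
  rw [QuotientGroup.eq]
  exact hle trivial

theorem psu_case {K : Type*} [Group K]
    (h : ∃ (F : Type) (_ : Field F) (_ : Fintype F), Fintype.card F = 4 ∧
      Nonempty (K ⧸ Subgroup.center K ≃* Cfsg.PSU 6 F 2)) :
    IsSimpleGroup (K ⧸ Subgroup.center K) ∧ ∃ x y : K ⧸ Subgroup.center K, x * y ≠ y * x := by
  obtain ⟨F, _, _, hF, ⟨e⟩⟩ := h
  obtain ⟨hs, x, y, hxy⟩ := psu_facts hF
  refine ⟨?_, e.symm x, e.symm y, ?_⟩
  · exact e.isSimpleGroup
  · intro h1
    apply hxy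
    apply e.symm.injective
    rw [map_mul, map_mul]
    exact h1

theorem comm_closure {G : Type*} [Group G] {S : Set G} (h : ∀ a ∈ S, ∀ b ∈ S, Commute a b) :
    ∀ x ∈ Subgroup.closure S, ∀ y ∈ Subgroup.closure S, Commute x y := by
  have h1 : ∀ a ∈ S, ∀ y ∈ Subgroup.closure S, Commute a y := by
    intro a ha y hy
    induction hy using Subgroup.closure_induction with
    | mem x hx => exact h a ha x hx
    | one => exact Commute.one_right a
    | mul x y _ _ hx hy => exact hx.mul_right hy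
    | inv x _ hx => exact hx.inv_right
  intro x hx y hy
  induction hx using Subgroup.closure_induction with
  | mem x hx => exact h1 x hx y hy
  | one => exact Commute.one_left y
  | mul x z _ _ hx hz => exact hx.mul_left hz
  | inv x _ hx => exact hx.inv_left

section types
variable {G : Type*} [Group G] [Finite G] {D : Set G}

omit [Finite G] in
/-- if `⟨D_d⟩` is not commutative modulo its centre then two members of `D_d` do not commute -/
theorem exists_pair {d : G}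
    (hn : ∃ x y : ↥(Subgroup.closure (Dc D d)) ⧸ Subgroup.center ↥(Subgroup.closure (Dc D d)),
      x * y ≠ y * x) : ∃ e ∈ Dc D d, ∃ f ∈ Dc D d, ¬ Commute e f := by
  by_contra hcon
  push Not at hcon
  obtain ⟨x, y, hxy⟩ := hn
  obtain ⟨x, rfl⟩ := QuotientGroup.mk_surjective x
  obtain ⟨y, rfl⟩ := QuotientGroup.mk_surjective y
  apply hxy
  have h1 := comm_closure hcon x x.2 y y.2
  have h2 : x * y = y * x := Subtype.ext h1
  show (QuotientGroup.mk (x * y) : ↥(Subgroup.closure (Dc D d)) ⧸ _) = QuotientGroup.mk (y * x)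
  rw [h2]

/-- two equivalent members of `D_d`, with `O_2(⟨D_d⟩)` central, commute with all of `D_d` -/
theorem comm_of_vrel_dc (hD : Cfsg.IsThreeTranspositionGroup D) {d q r : G}
    (hq : q ∈ Dc D d) (hr : r ∈ Dc D d) (hne : q ≠ r)
    (hv : ∀ x ∈ Dc D d, Commute q x ↔ Commute r x)
    (hc : Cfsg.pCore 2 ↥(Subgroup.closure (Dc D d)) ≤
      Subgroup.center ↥(Subgroup.closure (Dc D d))) : ∀ x ∈ Dc D d, Commute q x := by
  have h := tt_of_group (dh_group hD d)
  have h1 := vrel_dh hq hr hv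
  have h2 := hc (h.core_of_vrel h1.symm)
  rw [Subgroup.mem_center_iff] at h2
  intro x hx
  have hqr : Commute (⟨q, Subgroup.subset_closure hq⟩ : ↥(Subgroup.closure (Dc D d)))
      ⟨r, Subgroup.subset_closure hr⟩ := h1.comm
  have h3 := h.comm_all_of_central (q := ⟨q, Subgroup.subset_closure hq⟩)
    (r := ⟨r, Subgroup.subset_closure hr⟩) hq hr
    (fun he => hne (congrArg Subtype.val he)) hqr
    (y := ⟨x, Subgroup.subset_closure hx⟩) hx (h2 _).symm
  exact congrArg Subtype.val h3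

/-- In type M(22) there are no equivalent members. -/
theorem v22 (hD : Cfsg.IsThreeTranspositionClass D) (ht : Cfsg.IsOfTypeM22 G D) {x y : G}
    (hv : VRel D x y) : x = y := by
  by_contra hne
  obtain ⟨-, d, hd, c, hc, hdc, hpsu, -⟩ := ht
  have h := tt_of_class hD
  have hps := psu_case (K := ↥(Subgroup.closure (Dc D d))) hpsu
  obtain ⟨e, he, f, hf, hef⟩ := exists_pair hps.2
  have hcore := pcore_le_center_of_simple hps.1 hps.2
  obtain ⟨g, hg⟩ := isConj_iff.1 (tt_class_isConj hD hv.1 he.1)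
  have hv' := hv.conj h.conj g
  rw [hg] at hv'
  have hne' : e ≠ g * y * g⁻¹ := by
    intro h1
    apply hne
    rw [← hg] at h1
    exact conj_inj g h1
  have hd' : g * y * g⁻¹ ≠ d := by
    intro h1
    apply hef
    rw [(hv'.2.2 f hf.1), h1]
    exact hf.2.2
  have hmem : g * y * g⁻¹ ∈ Dc D d := by
    refine ⟨hv'.2.1, hd', ?_⟩
    have := (hv'.2.2 d hd).1 he.2.2.symm
    exact this.symm
  apply hef
  exact comm_of_vrel_dc (tt_class_group hD) he hmem hne' (fun x hx => hv'.2.2 x hx.1) hcore f hf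

/-- if a member of `D_d` commutes with everything commuting with `d` they are equivalent -/
theorem vrel_of_sub (hD : Cfsg.IsThreeTranspositionClass D) {d q : G} (hd : d ∈ D) (hq : q ∈ D)
    (hs : ∀ x ∈ D, Commute d x → Commute q x) : VRel D d q := by
  have h := tt_of_class hD
  obtain ⟨g, hg⟩ := isConj_iff.1 (tt_class_isConj hD hd hq)
  have hsub : {x | x ∈ D ∧ Commute d x} ⊆ {x | x ∈ D ∧ Commute q x} :=
    fun x hx => ⟨hx.1, hs x hx.1 hx.2⟩
  have hcard : {x | x ∈ D ∧ Commute q x}.ncard ≤ {x | x ∈ D ∧ Commute d x}.ncard := by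
    have himg : (fun x => g * x * g⁻¹) '' {x | x ∈ D ∧ Commute d x} =
        {x | x ∈ D ∧ Commute q x} := by
      ext x
      constructor
      · rintro ⟨y, ⟨hy, hy'⟩, rfl⟩
        refine ⟨h.conj g y hy, ?_⟩
        have := (comm_conj_iff g d y).2 hy'
        rwa [hg] at this
      · rintro ⟨hx, hx'⟩
        refine ⟨g⁻¹ * x * g⁻¹⁻¹, ⟨h.conj g⁻¹ x hx, ?_⟩, by group⟩
        rw [← comm_conj_iff g, hg]
        have e : g * (g⁻¹ * x * g⁻¹⁻¹) * g⁻¹ = x := by group
        rwa [e]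
    rw [← himg]
    exact Set.ncard_image_le (Set.toFinite _)
  have heq := Set.eq_of_subset_of_ncard_le hsub hcard (Set.toFinite _)
  refine ⟨hd, hq, fun x hx => ⟨hs x hx, fun h' => ?_⟩⟩
  have : x ∈ {x | x ∈ D ∧ Commute d x} := by rw [heq]; exact ⟨hx, h'⟩
  exact this.2

omit [Finite G] in
/-- move the first factor of a relation -/
theorem rel5_move (hD : Cfsg.IsThreeTranspositionClass D) {f : Fin 5 → G} (hf : Rel5 D f) {d : G}
    (hd : d ∈ D) : ∃ f' : Fin 5 → G, Rel5 D f' ∧ f' 0 = d := by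
  obtain ⟨g, hg⟩ := isConj_iff.1 (tt_class_isConj hD (hf.mem 0) hd)
  exact ⟨_, hf.conj (tt_of_class hD) g, hg⟩

omit [Finite G] in
theorem rel5_dc {f : Fin 5 → G} (hf : Rel5 D f) {i : Fin 5} (hi : i ≠ 0) : f i ∈ Dc D (f 0) :=
  ⟨hf.mem i, hf.inj.ne hi, hf.comm 0 i⟩

/-- type M(22): no relation of length five -/
theorem five22 (hD : Cfsg.IsThreeTranspositionClass D) (ht : Cfsg.IsOfTypeM22 G D)
    {f : Fin 5 → G} (hf : Rel5 D f) : False := by
  have ht' := ht
  obtain ⟨-, d, hd, c, hc, hdc, hpsu, -⟩ := ht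
  have h := tt_of_class hD
  have hps := psu_case (K := ↥(Subgroup.closure (Dc D d))) hpsu
  have hcore := pcore_le_center_of_simple hps.1 hps.2
  obtain ⟨f, hf, rfl⟩ := rel5_move hD hf hd
  have h1 := comm_of_vrel_dc (tt_class_group hD) (rel5_dc hf (i := 1) (by decide))
    (rel5_dc hf (i := 2) (by decide)) (hf.inj.ne (by decide))
    (fun x hx => hf.part h hx.1 hx.2.2.symm) hcore
  have h2 : VRel D (f 0) (f 1) := by
    apply vrel_of_sub hD (hf.mem 0) (hf.mem 1)
    intro x hx hcx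
    by_cases hx0 : x = f 0
    · rw [hx0]
      exact hf.comm 1 0
    · exact h1 x ⟨hx, hx0, hcx⟩
  exact hf.inj.ne (by decide) (v22 hD ht' h2)

omit [Finite G] in
/-- a non-commuting pair upstairs -/
theorem pair_of_quot {K : Type*} [Group K] {E : Set K}
    (h : ∃ a ∈ ((QuotientGroup.mk : K → K ⧸ Subgroup.center K) '' E),
      ∃ b ∈ ((QuotientGroup.mk : K → K ⧸ Subgroup.center K) '' E), ¬ Commute a b) :
    ∃ a ∈ E, ∃ b ∈ E, ¬ Commute a b := by
  obtain ⟨_, ⟨a, ha, rfl⟩, _, ⟨b, hb, rfl⟩, hab⟩ := h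
  refine ⟨a, ha, b, hb, fun hc => hab ?_⟩
  show (QuotientGroup.mk (a * b) : K ⧸ _) = QuotientGroup.mk (b * a)
  rw [hc.eq]

theorem pair22 {K : Type*} [Group K] {E : Set K}
    (h : Cfsg.IsOfTypeM22 (K ⧸ Subgroup.center K)
      ((QuotientGroup.mk : K → K ⧸ Subgroup.center K) '' E)) :
    ∃ a ∈ E, ∃ b ∈ E, ¬ Commute a b := by
  obtain ⟨-, d, hd, c, hc, hdc, -⟩ := h
  exact pair_of_quot ⟨d, hd, c, hc, hdc⟩

theorem pair23 {K : Type*} [Group K] {E : Set K}
    (h : Cfsg.IsOfTypeM23 (K ⧸ Subgroup.center K)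
      ((QuotientGroup.mk : K → K ⧸ Subgroup.center K) '' E)) :
    ∃ a ∈ E, ∃ b ∈ E, ¬ Commute a b := by
  obtain ⟨-, d, hd, c, hc, hdc, -⟩ := h
  exact pair_of_quot ⟨d, hd, c, hc, hdc⟩

/-- type M(23): no relation of length five, given transitivity of `⟨D_d⟩` on `D_d` -/
theorem five23 (hD : Cfsg.IsThreeTranspositionClass D)
    (hperp : ∀ d ∈ D, ∀ e ∈ Dc D d, ∀ f ∈ Dc D d,
      ∃ g ∈ Subgroup.closure (Dc D d), g * e * g⁻¹ = f)
    (ht : Cfsg.IsOfTypeM23 G D) {f : Fin 5 → G} (hf : Rel5 D f) : False := by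
  obtain ⟨-, d, hd, c, hc, hdc, h22, -⟩ := ht
  have h := tt_of_class hD
  obtain ⟨f, hf, rfl⟩ := rel5_move hD hf hd
  have h22' : Cfsg.IsOfTypeM22 (↥(Subgroup.closure (Dc D (f 0))) ⧸
      Subgroup.center ↥(Subgroup.closure (Dc D (f 0))))
      ((QuotientGroup.mk : ↥(Subgroup.closure (Dc D (f 0))) → _) '' DH D (f 0)) := h22
  have m1 := rel5_dc hf (i := 1) (by decide)
  have m2 := rel5_dc hf (i := 2) (by decide)
  have hcl := dh_class (tt_class_group hD) ⟨_, m1⟩ (hperp (f 0) hd)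
  have hpair := pair22 h22'
  have hqc := quot_class hcl hpair
  have hv : VRel (DH D (f 0)) ⟨f 1, Subgroup.subset_closure m1⟩
      ⟨f 2, Subgroup.subset_closure m2⟩ :=
    vrel_dh m1 m2 (fun x hx => hf.part h hx.1 hx.2.2.symm)
  have htt := tt_of_class hcl
  have hv' : VRel ((QuotientGroup.mk : ↥(Subgroup.closure (Dc D (f 0))) → _) '' DH D (f 0))
      (QuotientGroup.mk ⟨f 1, Subgroup.subset_closure m1⟩)
      (QuotientGroup.mk ⟨f 2, Subgroup.subset_closure m2⟩ :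
        ↥(Subgroup.closure (Dc D (f 0))) ⧸ Subgroup.center ↥(Subgroup.closure (Dc D (f 0)))) := by
    refine ⟨⟨_, m1, rfl⟩, ⟨_, m2, rfl⟩, ?_⟩
    rintro _ ⟨x, hx, rfl⟩
    rw [quot_comm htt m1 hx, quot_comm htt m2 hx]
    exact hv.2.2 x hx
  have h1 := v22 hqc h22' hv'
  have h2 := quot_inj' hcl hpair (x := ⟨f 1, Subgroup.subset_closure m1⟩)
    (y := ⟨f 2, Subgroup.subset_closure m2⟩) m1 m2 h1
  exact hf.inj.ne (by decide) (congrArg Subtype.val h2)

omit [Finite G] in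
/-- a relation of length six gives one of length five in the central quotient of `⟨D_d⟩` -/
theorem rel5_of_rel6 {f : Fin 6 → G} (hf : Rel6 D f)
    (hcl : Cfsg.IsThreeTranspositionClass (DH D (f 0)))
    (hpair : ∃ a ∈ DH D (f 0), ∃ b ∈ DH D (f 0), ¬ Commute a b) :
    ∃ f' : Fin 5 → ↥(Subgroup.closure (Dc D (f 0))) ⧸
        Subgroup.center ↥(Subgroup.closure (Dc D (f 0))),
      Rel5 ((QuotientGroup.mk : ↥(Subgroup.closure (Dc D (f 0))) → _) '' DH D (f 0)) f' := by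
  have hm : ∀ i : Fin 5, f i.succ ∈ Dc D (f 0) := fun i =>
    ⟨hf.mem _, hf.inj.ne (Fin.succ_ne_zero i), hf.comm 0 _⟩
  have hmc : ∀ i : Fin 5, f i.succ ∈ Subgroup.closure (Dc D (f 0)) :=
    fun i => Subgroup.subset_closure (hm i)
  have h0 : f 0 ∈ Subgroup.closure (Dc D (f 0)) := by
    have e : f 3 * f 4 * f 5 * (f 1 * f 2)⁻¹ = f 0 := by
      rw [← hf.rel]; group
    have h9 : f 3 * f 4 * f 5 * (f 1 * f 2)⁻¹ ∈ Subgroup.closure (Dc D (f 0)) :=
      mul_mem (mul_mem (mul_mem (hmc 2) (hmc 3)) (hmc 4)) (inv_mem (mul_mem (hmc 0) (hmc 1)))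
    rwa [e] at h9
  refine ⟨fun i => QuotientGroup.mk ⟨f i.succ, hmc i⟩, ⟨fun i => ⟨_, hm i, rfl⟩, ?_, ?_, ?_⟩⟩
  · intro i j hij
    have := quot_inj' hcl hpair (hm i) (hm j) hij
    have h2 := hf.inj (congrArg Subtype.val this)
    exact Fin.succ_injective _ h2
  · intro i j
    have h1 : (⟨f i.succ, hmc i⟩ : ↥(Subgroup.closure (Dc D (f 0)))) * ⟨f j.succ, hmc j⟩ =
      ⟨f j.succ, hmc j⟩ * ⟨f i.succ, hmc i⟩ := Subtype.ext (hf.comm _ _).eq
    show (QuotientGroup.mk (_ * _) : ↥(Subgroup.closure (Dc D (f 0))) ⧸ _) =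
      QuotientGroup.mk (_ * _)
    rw [h1]
  · show (QuotientGroup.mk ((⟨f 1, hmc 0⟩ : ↥(Subgroup.closure (Dc D (f 0)))) * ⟨f 2, hmc 1⟩) :
      ↥(Subgroup.closure (Dc D (f 0))) ⧸ Subgroup.center ↥(Subgroup.closure (Dc D (f 0)))) =
      QuotientGroup.mk (⟨f 3, hmc 2⟩ * ⟨f 4, hmc 3⟩ * ⟨f 5, hmc 4⟩)
    rw [QuotientGroup.eq]
    have e : ((⟨f 1, hmc 0⟩ : ↥(Subgroup.closure (Dc D (f 0)))) * ⟨f 2, hmc 1⟩)⁻¹ *
        (⟨f 3, hmc 2⟩ * ⟨f 4, hmc 3⟩ * ⟨f 5, hmc 4⟩) = ⟨f 0, h0⟩ := by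
      apply Subtype.ext
      show (f 1 * f 2)⁻¹ * (f 3 * f 4 * f 5) = f 0
      rw [← hf.rel]
      have c1 := (hf.comm 0 1).eq
      have c2 := (hf.comm 0 2).eq
      calc (f 1 * f 2)⁻¹ * (f 0 * f 1 * f 2) = (f 1 * f 2)⁻¹ * ((f 0 * f 1) * f 2) := rfl
        _ = (f 1 * f 2)⁻¹ * (f 1 * (f 0 * f 2)) := by rw [c1]; group
        _ = (f 1 * f 2)⁻¹ * (f 1 * (f 2 * f 0)) := by rw [c2]
        _ = f 0 := by group
    rw [e, Subgroup.mem_center_iff]
    intro x
    apply Subtype.ext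
    exact (comm_of_mem_hd x.2).eq.symm

end types

end Cfsg.Agent.H29
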