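import Mathlib
import Cfsg.Prelude.Def_Solvable
import Cfsg.Prelude.Def_Local
import Cfsg.Prelude.Def_FischerSpaces
import Cfsg.Agent.H29.TT13
set_option autoImplicit false

/-! 3-transpositions: groups of type M(23) and M(24) have no relation of length six. -/

namespace Cfsg.Agent.H29
open Subgroup
open scoped commutatorElement

section cores

theorem core_equiv {K K' : Type*} [Group K] [Group K'] (e : K ≃* K') {p : ℕ}
    (h : Cfsg.pCore p K ≤ Subgroup.center K) : Cfsg.pCore p K' ≤ Subgroup.center K' := by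
  intro x hx
  have h1 : (Cfsg.pCore p K').map e.symm.toMonoidHom ≤ Cfsg.pCore p K :=
    H1.le_pCore (H1.normal_map_equiv e.symm (H1.pCore_normal p K'))
      ((H1.pCore_isPGroup p K').map _)
  have h2 := h (h1 ⟨x, hx, rfl⟩)
  rw [Subgroup.mem_center_iff] at h2 ⊢
  intro y
  have h3 := h2 (e.symm y)
  have h4 : e.symm y * e.symm x = e.symm x * e.symm y := h3
  apply e.symm.injective
  rw [map_mul, map_mul]
  exact h4

variable {G : Type*} [Group G] {D : Set G}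

theorem dc_conj (h : TT D) (g d : G) :
    Dc D (g * d * g⁻¹) = (MulAut.conj g).toMonoidHom '' Dc D d := by
  ext x
  constructor
  · rintro ⟨hx, hne, hc⟩
    refine ⟨g⁻¹ * x * g⁻¹⁻¹, ⟨h.conj g⁻¹ x hx, ?_, ?_⟩, ?_⟩
    · intro he
      apply hne
      rw [← he]
      group
    · rw [← comm_conj_iff g]
      have e : g * (g⁻¹ * x * g⁻¹⁻¹) * g⁻¹ = x := by group
      rwa [e]
    · show g * (g⁻¹ * x * g⁻¹⁻¹) * g⁻¹ = x
      group
  · rintro ⟨y, ⟨hy, hne, hc⟩, rfl⟩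
    refine ⟨h.conj g y hy, ?_, (comm_conj_iff g d y).2 hc⟩
    intro he
    exact hne (conj_inj g he)

theorem core_transfer (hD : Cfsg.IsThreeTranspositionClass D) {d d' : G} (hd : d ∈ D)
    (hd' : d' ∈ D) {p : ℕ} (hc : Cfsg.pCore p ↥(Subgroup.closure (Dc D d)) ≤
      Subgroup.center ↥(Subgroup.closure (Dc D d))) :
    Cfsg.pCore p ↥(Subgroup.closure (Dc D d')) ≤
      Subgroup.center ↥(Subgroup.closure (Dc D d')) := by
  obtain ⟨g, hg⟩ := isConj_iff.1 (tt_class_isConj hD hd hd')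
  have h1 : Subgroup.closure (Dc D d') =
      (Subgroup.closure (Dc D d)).map (MulAut.conj g).toMonoidHom := by
    rw [← hg, dc_conj (tt_of_class hD), MonoidHom.map_closure]
  have e : ↥(Subgroup.closure (Dc D d)) ≃* ↥(Subgroup.closure (Dc D d')) :=
    ((Subgroup.closure (Dc D d)).equivMapOfInjective (MulAut.conj g).toMonoidHom
      (MulAut.conj g).injective).trans (MulEquiv.subgroupCongr h1.symm)
  exact core_equiv e hc

end cores

section pair
variable {G : Type*} [Group G] {D : Set G}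

theorem y_conj (h : TT D) {p c g x : G} (hp : Commute p g) (hc : Commute c g)
    (hx : x ∈ Dc D p ∩ Dc D c) : g * x * g⁻¹ ∈ Dc D p ∩ Dc D c := by
  have e1 : g * p * g⁻¹ = p := by rw [← hp.eq]; group
  have e2 : g * c * g⁻¹ = c := by rw [← hc.eq]; group
  have h1 := dc_conj h g p
  have h2 := dc_conj h g c
  rw [e1] at h1
  rw [e2] at h2
  refine ⟨?_, ?_⟩
  · rw [h1]; exact ⟨x, hx.1, rfl⟩
  · rw [h2]; exact ⟨x, hx.2, rfl⟩

theorem comm_y {p c g : G} (hg : g ∈ Subgroup.closure (Dc D p ∩ Dc D c)) :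
    Commute p g ∧ Commute c g :=
  ⟨comm_of_mem_hd (Subgroup.closure_mono Set.inter_subset_left hg),
    comm_of_mem_hd (Subgroup.closure_mono Set.inter_subset_right hg)⟩

/-- If some member of `Y = D_p ∩ D_c` commutes with no other member of `Y` then no two members
of `Y` commute. -/
theorem width_pair (h : TT D) {d p c : G} (hd : d ∈ Dc D p ∩ Dc D c)
    (hno : ∀ y ∈ Dc D p ∩ Dc D c, Commute d y → y = d) :
    ∀ a ∈ Dc D p ∩ Dc D c, ∀ b ∈ Dc D p ∩ Dc D c, Commute a b → a = b := by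
  intro a ha b hb hab
  by_cases had : a = d
  · subst had
    exact (hno b hb hab).symm
  have hda : ¬ Commute d a := fun h' => had (hno a ha h')
  have haD : a ∈ D := ha.1.1
  have hdD : d ∈ D := hd.1.1
  have hbr := h.braid d hdD a haD hda
  have hg : (a * d) * a * (a * d)⁻¹ = d := by
    rw [mul_inv_rev, h.inv haD, h.inv hdD]
    calc a * d * a * (d * a) = a * (d * a * d) * a := by group
      _ = a * (a * d * a) * a := by rw [hbr]
      _ = (a * a) * d * (a * a) := by group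
      _ = d := by rw [h.sq a haD, one_mul, mul_one]
  have hp : Commute p (a * d) := ha.1.2.2.mul_right hd.1.2.2
  have hc : Commute c (a * d) := ha.2.2.2.mul_right hd.2.2.2
  have hb' := y_conj h hp hc hb
  have h1 := (comm_conj_iff (a * d) a b).2 hab
  rw [hg] at h1
  have h2 := hno _ hb' h1
  exact (conj_inj _ (h2.trans hg.symm)).symm

theorem solvable_of_width [Finite G] (h : TT D) {p c : G}
    (hw : ∀ a ∈ Dc D p ∩ Dc D c, ∀ b ∈ Dc D p ∩ Dc D c, Commute a b → a = b) :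
    Group.IsSolvable ↥(Subgroup.closure (Dc D p ∩ Dc D c)) := by
  by_cases hY : (Dc D p ∩ Dc D c).Nonempty
  · obtain ⟨d, hd⟩ := hY
    set L := Subgroup.closure (Dc D p ∩ Dc D c) with hL
    have hcl : TT {x : ↥L | (x : G) ∈ Dc D p ∩ Dc D c} := by
      refine ⟨?_, ?_, ?_⟩
      · intro a ha
        exact Subtype.ext (h.sq a ha.1.1)
      · intro a ha b hb hab
        apply Subtype.ext
        exact h.braid a ha.1.1 b hb.1.1 (fun h' => hab (Subtype.ext h'))
      · intro g a ha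
        obtain ⟨h1, h2⟩ := comm_y g.2
        exact y_conj h h1 h2 ha
    have hbr : ∀ a ∈ {x : ↥L | (x : G) ∈ Dc D p ∩ Dc D c},
        ∀ b ∈ {x : ↥L | (x : G) ∈ Dc D p ∩ Dc D c}, a * b * a = b * a * b := by
      intro a ha b hb
      by_cases hab : Commute a b
      · have : (a : G) = b := hw a ha b hb (congrArg Subtype.val hab)
        rw [Subtype.ext this]
      · exact hcl.braid a ha b hb hab
    have hgen : Subgroup.closure {x : ↥L | (x : G) ∈ Dc D p ∩ Dc D c} = ⊤ :=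
      Subgroup.closure_closure_coe_preimage
    have hdL : d ∈ L := Subgroup.subset_closure hd
    have hall : ∀ x ∈ {x : ↥L | (x : G) ∈ Dc D p ∩ Dc D c},
        (⟨d, hdL⟩ : ↥L) * x ∈ Cfsg.pCore 3 ↥L :=
      fun x hx => width_one hcl.sq hbr hcl.conj (a := (⟨d, hdL⟩ : ↥L)) hd hx
    have hN := H1.pCore_normal 3 ↥L
    have hcos := cos_two hcl hgen hN (d := ⟨d, hdL⟩) hd hall
    have hcomm := commutator_le_of_cos hN (hcl.sq ⟨d, hdL⟩ hd) hcos
    have : Fact (Nat.Prime 3) := ⟨Nat.prime_three⟩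
    have s1 : Group.IsSolvable ↥(Cfsg.pCore 3 ↥L) := by
      have := (H1.pCore_isPGroup 3 ↥L).isNilpotent
      infer_instance
    have s2 : Group.IsSolvable (↥L ⧸ Cfsg.pCore 3 ↥L) := by
      apply Group.isSolvable_of_comm
      intro a b
      obtain ⟨a, rfl⟩ := QuotientGroup.mk_surjective a
      obtain ⟨b, rfl⟩ := QuotientGroup.mk_surjective b
      have h1 : ⁅a, b⁆ ∈ Cfsg.pCore 3 ↥L :=
        hcomm (Subgroup.commutator_mem_commutator trivial trivial)
      have h2 : (QuotientGroup.mk ⁅a, b⁆ : ↥L ⧸ Cfsg.pCore 3 ↥L) = 1 :=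
        (QuotientGroup.eq_one_iff _).2 h1
      have h3 : (QuotientGroup.mk ⁅a, b⁆ : ↥L ⧸ Cfsg.pCore 3 ↥L) =
        ⁅(QuotientGroup.mk a : ↥L ⧸ Cfsg.pCore 3 ↥L), (QuotientGroup.mk b : ↥L ⧸ Cfsg.pCore 3 ↥L)⁆ :=
        rfl
      rw [h3] at h2
      exact commutatorElement_eq_one_iff_mul_comm.1 h2
    exact Group.isSolvable_of_ker_le_range (Cfsg.pCore 3 ↥L).subtype
      (QuotientGroup.mk' (Cfsg.pCore 3 ↥L)) (by rw [QuotientGroup.ker_mk', Subgroup.range_subtype])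
  · rw [Set.not_nonempty_iff_eq_empty] at hY
    rw [hY, Subgroup.closure_empty]
    infer_instance

end pair

section m24

theorem sol_sub {L : Type*} [Group L] (h : Group.IsSolvable L) (N : Subgroup L) :
    Group.IsSolvable N := inferInstance

theorem sol_equiv {A B : Type*} [Group A] [Group B] (h : Group.IsSolvable A) (e : A ≃* B) :
    Group.IsSolvable B :=
  Group.isSolvable_of_surjective (f := e.toMonoidHom) e.surjective

theorem sol_chain {L P : Type*} [Group L] [Group P] (h : Group.IsSolvable L)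
    (N : Subgroup (L ⧸ Subgroup.center L)) (e : N ≃* P) : Group.IsSolvable P :=
  sol_equiv (sol_sub inferInstance N) e

theorem nonsol_of {P E : Type*} [Group P] [Group E] (hs : IsSimpleGroup P)
    (e : P ≃* E ⧸ Subgroup.center E) (hp : commutator E = ⊤) : ¬ Group.IsSolvable P := by
  intro hsol
  have hc := hs.comm_iff_isSolvable.2 hsol
  have hle : commutator E ≤ Subgroup.center E := by
    rw [_root_.commutator_def, Subgroup.commutator_le]
    intro x _ y _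
    rw [← QuotientGroup.eq_one_iff]
    have h2 : (QuotientGroup.mk ⁅x, y⁆ : E ⧸ Subgroup.center E) =
      ⁅(QuotientGroup.mk x : E ⧸ Subgroup.center E), (QuotientGroup.mk y : E ⧸ Subgroup.center E)⁆ :=
      rfl
    rw [h2, commutatorElement_eq_one_iff_mul_comm]
    apply e.symm.injective
    rw [map_mul, map_mul]
    exact hc _ _
  rw [hp] at hle
  obtain ⟨a, b, hab⟩ := hs.toNontrivial
  apply hab
  apply e.injective
  obtain ⟨a', ha'⟩ := QuotientGroup.mk_surjective (e a)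
  obtain ⟨b', hb'⟩ := QuotientGroup.mk_surjective (e b)
  rw [← ha', ← hb', QuotientGroup.eq]
  exact hle trivial

/-- `PΩ₈⁺(3)` is not soluble. -/
theorem pomega_not_solvable :
    ¬ Group.IsSolvable (Cfsg.POmega (ZMod 3) (Cfsg.quadFormPlus 4 (ZMod 3))) := by
  have hnd : Cfsg.Agent.H5.ND (Cfsg.Agent.H5.qPlus 4 (ZMod 3)) := Cfsg.Agent.H5.nd_plus
  have hcard : 5 ≤ Fintype.card (Fin 4 ⊕ Fin 4) := by simp
  have hfr : Module.finrank (ZMod 3) (Fin 4 ⊕ Fin 4 → ZMod 3) = Fintype.card (Fin 4 ⊕ Fin 4) :=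
    Module.finrank_fintype_fun_eq_card _
  have key := nonsol_of (Cfsg.Agent.H5.POmega_simple hnd hcard)
    (Cfsg.Agent.H5.pomEquiv hnd hcard)
    (Cfsg.Agent.H5.eg_perfect hnd (by rw [hfr]; exact hcard))
  rw [Cfsg.Agent.H5.qPlus_coe] at key
  exact key

variable {G : Type*} [Group G] [Finite G] {D : Set G}

/-- in type M(24) the commuting graph on `D_d` is connected -/
theorem conn24 (hD : Cfsg.IsThreeTranspositionClass D) (hp : Cfsg.IsPrimitiveUnderConj D)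
    (hw : ∃ a ∈ D, ∃ b ∈ D, a ≠ b ∧ Commute a b) (ht : Cfsg.IsOfTypeM24 G D) {d : G}
    (hd : d ∈ D) : ∀ x ∈ DH D d, ∀ y ∈ DH D d, Rch (DH D d) x y := by
  have h := tt_of_class hD
  intro x hx y hy
  by_contra hcon
  have hxy : ¬ Commute (x : G) (y : G) := by
    intro hc
    exact hcon (Rch.step hx hy (Subtype.ext hc))
  have hdY : d ∈ Dc D (x : G) ∩ Dc D (y : G) :=
    ⟨⟨hd, fun h' => hx.2.1 h'.symm, hx.2.2.symm⟩, ⟨hd, fun h' => hy.2.1 h'.symm, hy.2.2.symm⟩⟩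
  have hno : ∀ z ∈ Dc D (x : G) ∩ Dc D (y : G), Commute d z → z = d := by
    intro z hz hdz
    by_contra hne
    have hzm : z ∈ Dc D d := ⟨hz.1.1, hne, hdz⟩
    have hz' : (⟨z, Subgroup.subset_closure hzm⟩ : ↥(Subgroup.closure (Dc D d))) ∈ DH D d := hzm
    apply hcon
    apply (Rch.step hx hz' (Subtype.ext hz.1.2.2)).trans
    exact Rch.step hz' hy (Subtype.ext hz.2.2.2.symm)
  have hwid := width_pair h hdY hno
  obtain ⟨-, d1, hd1, c1, hc1, hdc, -, N, hN, ⟨e⟩, -⟩ := ht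
  obtain ⟨g1, hg1⟩ := isConj_iff.1 (tt_class_isConj hD hx.1 hd1)
  have hc' : g1 * (y : G) * g1⁻¹ ∈ D := h.conj g1 _ hy.1
  have hdc' : ¬ Commute d1 (g1 * (y : G) * g1⁻¹) := by
    rw [← hg1, comm_conj_iff]
    exact hxy
  obtain ⟨g2, hg2, hg2c⟩ := ac_transitive hD hp hw hd1 hc' hc1 hdc' hdc
  have hcomm := perp_comm hg2
  have e1 : g2 * g1 * (x : G) * (g2 * g1)⁻¹ = d1 := by
    calc g2 * g1 * (x : G) * (g2 * g1)⁻¹ = g2 * (g1 * (x : G) * g1⁻¹) * g2⁻¹ := by group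
      _ = g2 * d1 * g2⁻¹ := by rw [hg1]
      _ = d1 := by rw [← hcomm.eq]; group
  have e2 : g2 * g1 * (y : G) * (g2 * g1)⁻¹ = c1 := by
    calc g2 * g1 * (y : G) * (g2 * g1)⁻¹ = g2 * (g1 * (y : G) * g1⁻¹) * g2⁻¹ := by group
      _ = c1 := hg2c
  have hY : Dc D d1 ∩ Dc D c1 =
      (MulAut.conj (g2 * g1)).toMonoidHom '' (Dc D (x : G) ∩ Dc D (y : G)) := by
    rw [Set.image_inter (f := ⇑(MulAut.conj (g2 * g1)).toMonoidHom)
      (MulAut.conj (g2 * g1)).injective, ← dc_conj h, ← dc_conj h, e1, e2]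
  have hwid' : ∀ a ∈ Dc D d1 ∩ Dc D c1, ∀ b ∈ Dc D d1 ∩ Dc D c1, Commute a b → a = b := by
    rw [hY]
    rintro _ ⟨a, ha, rfl⟩ _ ⟨b, hb, rfl⟩ hab
    have : Commute (g2 * g1 * a * (g2 * g1)⁻¹) (g2 * g1 * b * (g2 * g1)⁻¹) := hab
    rw [comm_conj_iff] at this
    rw [hwid a ha b hb this]
  have hsol : Group.IsSolvable ↥(Subgroup.closure (Dc D d1 ∩ Dc D c1)) := solvable_of_width h hwid'
  exact pomega_not_solvable (sol_chain hsol N e)

/-- in type M(24) the subgroup `⟨D_d⟩` acts primitively on `D_d` -/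
theorem prim24 (hD : Cfsg.IsThreeTranspositionClass D) (hp : Cfsg.IsPrimitiveUnderConj D)
    (hw : ∃ a ∈ D, ∃ b ∈ D, a ≠ b ∧ Commute a b) (ht : Cfsg.IsOfTypeM24 G D) {d : G}
    (hd : d ∈ D) (hcl : Cfsg.IsThreeTranspositionClass (DH D d))
    (hD2 : ∃ a ∈ DH D d, ∃ b ∈ DH D d, a ≠ b)
    (h2 : Cfsg.pCore 2 ↥(Subgroup.closure (Dc D d)) ≤ Subgroup.center ↥(Subgroup.closure (Dc D d)))
    (h3 : Cfsg.pCore 3 ↥(Subgroup.closure (Dc D d)) ≤ Subgroup.center ↥(Subgroup.closure (Dc D d))) :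
    Cfsg.IsPrimitiveUnderConj (DH D d) := by
  obtain ⟨L, hL⟩ := exists_comp hcl hD2 h2 h3
  exact primitive_of_index hcl hD2 h2 h3 hL
    (index_le_two hcl hL (conn24 hD hp hw ht hd))

end m24

section qperp
variable {K : Type*} [Group K] [Finite K] {E : Set K}

omit [Finite K] in
/-- transitivity of `⟨E_x⟩` on `E_x` passes to the central quotient -/
theorem quot_perp (hE : Cfsg.IsThreeTranspositionClass E) (hpair : ∃ a ∈ E, ∃ b ∈ E, ¬ Commute a b)
    (hperp : ∀ d ∈ E, ∀ e ∈ Dc E d, ∀ f ∈ Dc E d,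
      ∃ g ∈ Subgroup.closure (Dc E d), g * e * g⁻¹ = f) :
    ∀ d ∈ ((QuotientGroup.mk : K → K ⧸ Subgroup.center K) '' E),
      ∀ e ∈ Dc ((QuotientGroup.mk : K → K ⧸ Subgroup.center K) '' E) d,
      ∀ f ∈ Dc ((QuotientGroup.mk : K → K ⧸ Subgroup.center K) '' E) d,
      ∃ g ∈ Subgroup.closure (Dc ((QuotientGroup.mk : K → K ⧸ Subgroup.center K) '' E) d),
        g * e * g⁻¹ = f := by
  have h := tt_of_class hE
  rintro _ ⟨d, hd, rfl⟩ e ⟨⟨e, he, rfl⟩, hne, hce⟩ f ⟨⟨f, hf, rfl⟩, hnf, hcf⟩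
  have he' : e ∈ Dc E d := ⟨he, fun h' => hne (by rw [h']), (quot_comm h hd he).1 hce⟩
  have hf' : f ∈ Dc E d := ⟨hf, fun h' => hnf (by rw [h']), (quot_comm h hd hf).1 hcf⟩
  obtain ⟨g, hg, hgf⟩ := hperp d hd e he' f hf'
  refine ⟨QuotientGroup.mk g, ?_, by rw [← hgf]; rfl⟩
  have h1 : (Subgroup.closure (Dc E d)).map (QuotientGroup.mk' (Subgroup.center K)) ≤
      Subgroup.closure (Dc ((QuotientGroup.mk : K → K ⧸ Subgroup.center K) '' E)
        (QuotientGroup.mk d)) := by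
    rw [MonoidHom.map_closure]
    apply Subgroup.closure_mono
    rintro _ ⟨x, hx, rfl⟩
    refine ⟨⟨x, hx.1, rfl⟩, ?_, (quot_comm h hd hx.1).2 hx.2.2⟩
    intro h'
    exact hx.2.1 (quot_inj' hE hpair hx.1 hd h')
  exact h1 ⟨g, hg, rfl⟩

end qperp

section six
variable {G : Type*} [Group G] [Finite G] {D : Set G}

omit [Finite G] in
theorem rel6_move (hD : Cfsg.IsThreeTranspositionClass D) {f : Fin 6 → G} (hf : Rel6 D f) {d : G}
    (hd : d ∈ D) : ∃ f' : Fin 6 → G, Rel6 D f' ∧ f' 0 = d := by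
  obtain ⟨g, hg⟩ := isConj_iff.1 (tt_class_isConj hD (hf.mem 0) hd)
  exact ⟨_, hf.conj (tt_of_class hD) g, hg⟩

omit [Finite G] in
theorem width_of_six {f : Fin 6 → G} (hf : Rel6 D f) : ∃ a ∈ D, ∃ b ∈ D, a ≠ b ∧ Commute a b :=
  ⟨f 0, hf.mem 0, f 1, hf.mem 1, hf.inj.ne (by decide), hf.comm 0 1⟩

theorem six23 (hD : Cfsg.IsThreeTranspositionClass D) (hp : Cfsg.IsPrimitiveUnderConj D)
    (ht : Cfsg.IsOfTypeM23 G D) {f : Fin 6 → G} (hf : Rel6 D f) : False := by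
  have hw := width_of_six hf
  obtain ⟨-, d, hd, c, hc, hdc, h22, -⟩ := ht
  obtain ⟨f, hf, rfl⟩ := rel6_move hD hf hd
  have h22' : Cfsg.IsOfTypeM22 (↥(Subgroup.closure (Dc D (f 0))) ⧸
      Subgroup.center ↥(Subgroup.closure (Dc D (f 0))))
      ((QuotientGroup.mk : ↥(Subgroup.closure (Dc D (f 0))) → _) '' DH D (f 0)) := h22
  have hcl := dh_class (tt_class_group hD) (d := f 0)
    ⟨f 1, hf.mem 1, hf.inj.ne (by decide), hf.comm 0 1⟩
    (fun e he g hg => dc_transitive hD hp hw hd he hg)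
  have hpair := pair22 h22'
  obtain ⟨f', hf'⟩ := rel5_of_rel6 hf hcl hpair
  exact five22 (quot_class hcl hpair) h22' hf'

theorem six24 (hD : Cfsg.IsThreeTranspositionClass D) (hp : Cfsg.IsPrimitiveUnderConj D)
    (ht : Cfsg.IsOfTypeM24 G D) {d₀ : G} (hd₀ : d₀ ∈ D)
    (h2 : Cfsg.pCore 2 ↥(Subgroup.closure (Dc D d₀)) ≤ Subgroup.center ↥(Subgroup.closure (Dc D d₀)))
    (h3 : Cfsg.pCore 3 ↥(Subgroup.closure (Dc D d₀)) ≤ Subgroup.center ↥(Subgroup.closure (Dc D d₀)))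
    {f : Fin 6 → G} (hf : Rel6 D f) : False := by
  have hw := width_of_six hf
  have ht' := ht
  obtain ⟨-, d, hd, c, hc, hdc, h23, -⟩ := ht
  obtain ⟨f, hf, rfl⟩ := rel6_move hD hf hd
  have h23' : Cfsg.IsOfTypeM23 (↥(Subgroup.closure (Dc D (f 0))) ⧸
      Subgroup.center ↥(Subgroup.closure (Dc D (f 0))))
      ((QuotientGroup.mk : ↥(Subgroup.closure (Dc D (f 0))) → _) '' DH D (f 0)) := h23
  have m1 : f 1 ∈ Dc D (f 0) := ⟨hf.mem 1, hf.inj.ne (by decide), hf.comm 0 1⟩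
  have m2 : f 2 ∈ Dc D (f 0) := ⟨hf.mem 2, hf.inj.ne (by decide), hf.comm 0 2⟩
  have hcl := dh_class (tt_class_group hD) (d := f 0) ⟨f 1, m1⟩
    (fun e he g hg => dc_transitive hD hp hw hd he hg)
  have hpair := pair23 h23'
  have hpr := prim24 hD hp hw ht' hd hcl
    ⟨⟨f 1, Subgroup.subset_closure m1⟩, m1, ⟨f 2, Subgroup.subset_closure m2⟩, m2,
      fun h' => hf.inj.ne (by decide) (congrArg Subtype.val h')⟩
    (core_transfer hD hd₀ hd h2) (core_transfer hD hd₀ hd h3)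
  have hw' : ∃ a ∈ DH D (f 0), ∃ b ∈ DH D (f 0), a ≠ b ∧ Commute a b :=
    ⟨⟨f 1, Subgroup.subset_closure m1⟩, m1, ⟨f 2, Subgroup.subset_closure m2⟩, m2,
      fun h' => hf.inj.ne (by decide) (congrArg Subtype.val h'), Subtype.ext (hf.comm 1 2)⟩
  obtain ⟨f', hf'⟩ := rel5_of_rel6 hf hcl hpair
  refine five23 (quot_class hcl hpair) ?_ h23' hf'
  exact quot_perp hcl hpair (fun x hx e he g hg => dc_transitive hcl hpr hw' hx he hg)

end six

end Cfsg.Agent.H29
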