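import Mathlib
import Cfsg.Prelude.Def_Solvable
import Cfsg.Prelude.Def_Local
import Cfsg.Prelude.Def_FischerSpaces
import Cfsg.Agent.H29.TT14
set_option autoImplicit false

/-! 3-transpositions: products of at most three commuting members. -/

namespace Cfsg.Agent.H29
open Subgroup

section uniq
variable {G : Type*} [Group G] [Finite G] {D : Set G}

theorem uniq2 (hD : Cfsg.IsThreeTranspositionClass D) (hp : Cfsg.IsPrimitiveUnderConj D)
    {a b c e : G} (ha : a ∈ D) (hb : b ∈ D) (hc : c ∈ D) (he : e ∈ D) (hab : Commute a b)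
    (hce : Commute c e) (hne : a ≠ b) (hj : a * b = c * e) : a = c ∨ a = e := by
  by_contra hcon
  push Not at hcon
  obtain ⟨h1, h2⟩ := hcon
  have h := tt_of_class hD
  by_cases hbc : b = c
  · subst hbc
    apply h2
    rw [hab.eq] at hj
    exact mul_left_cancel hj
  by_cases hbe : b = e
  · subst hbe
    exact h1 (mul_right_cancel hj)
  exact hne (prim_vrel hD hp (h.vrel_of_four ha hb hc he hab hce hne h1 h2 hbc hbe hj))

omit [Finite G] in
theorem split3 {p q r x : G} (hpq : Commute p q) (hpr : Commute p r) (hqr : Commute q r)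
    (n1 : p ≠ q) (n2 : p ≠ r) (n3 : q ≠ r) (hx : x = p ∨ x = q ∨ x = r) :
    ∃ u v, (u = p ∨ u = q ∨ u = r) ∧ (v = p ∨ v = q ∨ v = r) ∧ u ≠ v ∧ Commute u v ∧
      x * (u * v) = p * q * r := by
  rcases hx with rfl | rfl | rfl
  · exact ⟨q, r, by simp, by simp, n3, hqr, by group⟩
  · refine ⟨p, r, by simp, by simp, n2, hpr, ?_⟩
    rw [← mul_assoc, hpq.eq]
  · refine ⟨p, q, by simp, by simp, n1, hpq, ?_⟩
    rw [← mul_assoc, ← hpr.eq, mul_assoc, ← hqr.eq, mul_assoc]

theorem mem3 (hD : Cfsg.IsThreeTranspositionClass D) (hp : Cfsg.IsPrimitiveUnderConj D)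
    (h6 : ∀ f : Fin 6 → G, Rel6 D f → False)
    {a b c p q r : G} (ha : a ∈ D) (hb : b ∈ D) (hc : c ∈ D) (hpD : p ∈ D) (hq : q ∈ D)
    (hr : r ∈ D) (hab : Commute a b) (hac : Commute a c) (hbc : Commute b c) (hpq : Commute p q)
    (hpr : Commute p r) (hqr : Commute q r) (m1 : a ≠ b) (m2 : a ≠ c) (m3 : b ≠ c)
    (n1 : p ≠ q) (n2 : p ≠ r) (n3 : q ≠ r) (hj : a * b * c = p * q * r) :
    a = p ∨ a = q ∨ a = r := by
  by_contra hcon
  have h := tt_of_class hD
  have hmem : ∀ u, (u = p ∨ u = q ∨ u = r) → u ∈ D := by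
    rintro u (rfl | rfl | rfl) <;> assumption
  by_cases hbm : b = p ∨ b = q ∨ b = r
  · obtain ⟨u, v, hu, hv, huv, hcuv, e⟩ := split3 hpq hpr hqr n1 n2 n3 hbm
    have e2 : a * c = u * v := by
      rw [← hj, hab.eq, mul_assoc] at e
      exact (mul_left_cancel e).symm
    rcases uniq2 hD hp ha hc (hmem u hu) (hmem v hv) hac hcuv m2 e2 with h1 | h1
    · exact hcon (h1 ▸ hu)
    · exact hcon (h1 ▸ hv)
  by_cases hcm : c = p ∨ c = q ∨ c = r
  · obtain ⟨u, v, hu, hv, huv, hcuv, e⟩ := split3 hpq hpr hqr n1 n2 n3 hcm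
    have e2 : a * b = u * v := by
      rw [← hj, mul_assoc a b c, hbc.eq, ← mul_assoc a c b, hac.eq, mul_assoc] at e
      exact (mul_left_cancel e).symm
    rcases uniq2 hD hp ha hb (hmem u hu) (hmem v hv) hab hcuv m1 e2 with h1 | h1
    · exact hcon (h1 ▸ hu)
    · exact hcon (h1 ▸ hv)
  push Not at hcon hbm hcm
  have cp : Commute p (a * b * c) := by
    rw [hj]; exact ((Commute.refl p).mul_right hpq).mul_right hpr
  have cq : Commute q (a * b * c) := by
    rw [hj]; exact (hpq.symm.mul_right (Commute.refl q)).mul_right hqr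
  have cr : Commute r (a * b * c) := by
    rw [hj]; exact (hpr.symm.mul_right hqr.symm).mul_right (Commute.refl r)
  have pa := h.comm_of_triple ha hb hc hpD hab hac hbc m1 m2 m3 cp
  have pb := h.comm_of_triple2 ha hb hc hpD hab hac hbc m1 m2 m3 cp
  have pc := h.comm_of_triple3 ha hb hc hpD hab hac hbc m1 m2 m3 cp
  have qa := h.comm_of_triple ha hb hc hq hab hac hbc m1 m2 m3 cq
  have qb := h.comm_of_triple2 ha hb hc hq hab hac hbc m1 m2 m3 cq
  have qc := h.comm_of_triple3 ha hb hc hq hab hac hbc m1 m2 m3 cq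
  have ra := h.comm_of_triple ha hb hc hr hab hac hbc m1 m2 m3 cr
  have rb := h.comm_of_triple2 ha hb hc hr hab hac hbc m1 m2 m3 cr
  have rc := h.comm_of_triple3 ha hb hc hr hab hac hbc m1 m2 m3 cr
  apply h6 ![a, b, c, p, q, r]
  obtain ⟨a1, a2, a3⟩ := hcon
  obtain ⟨b1, b2, b3⟩ := hbm
  obtain ⟨c1, c2, c3⟩ := hcm
  refine ⟨?_, ?_, ?_, hj⟩
  · intro i
    fin_cases i <;> assumption
  · intro i j hij
    fin_cases i <;> fin_cases j <;>
      first
        | rfl
        | (exfalso
           have hij' := hij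
           simp only [Fin.zero_eta, Fin.mk_one, Fin.reduceFinMk, Matrix.cons_val] at hij'
           first
             | exact m1 hij' | exact m2 hij' | exact m3 hij' | exact n1 hij' | exact n2 hij'
             | exact n3 hij' | exact a1 hij' | exact a2 hij' | exact a3 hij' | exact b1 hij'
             | exact b2 hij' | exact b3 hij' | exact c1 hij' | exact c2 hij' | exact c3 hij'
             | exact m1 hij'.symm | exact m2 hij'.symm | exact m3 hij'.symm | exact n1 hij'.symm
             | exact n2 hij'.symm | exact n3 hij'.symm | exact a1 hij'.symm | exact a2 hij'.symm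
             | exact a3 hij'.symm | exact b1 hij'.symm | exact b2 hij'.symm | exact b3 hij'.symm
             | exact c1 hij'.symm | exact c2 hij'.symm | exact c3 hij'.symm)
  · intro i j
    fin_cases i <;> fin_cases j <;>
      simp only [Fin.zero_eta, Fin.mk_one, Fin.reduceFinMk, Matrix.cons_val] <;>
      first
        | exact Commute.refl _
        | assumption
        | (apply Commute.symm; assumption)

/-- the list form -/
theorem list_sub (hD : Cfsg.IsThreeTranspositionClass D) (hp : Cfsg.IsPrimitiveUnderConj D)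
    (h6 : ∀ f : Fin 6 → G, Rel6 D f → False) {m : ℕ} (hm : m ≤ 3) {j : G} {l l' : List G}
    (hl : (l.Nodup ∧ l.length = m ∧ (∀ a ∈ l, a ∈ D) ∧ (∀ a ∈ l, ∀ b ∈ l, Commute a b) ∧ l.prod = j))
    (hl' : (l'.Nodup ∧ l'.length = m ∧ (∀ a ∈ l', a ∈ D) ∧ (∀ a ∈ l', ∀ b ∈ l', Commute a b) ∧
      l'.prod = j)) : ∀ x ∈ l, x ∈ l' := by
  obtain ⟨d1, e1, D1, C1, P1⟩ := hl
  obtain ⟨d2, e2, D2, C2, P2⟩ := hl'
  interval_cases m
  · rw [List.length_eq_zero_iff] at e1
    subst e1
    intro x hx
    exact absurd hx (List.not_mem_nil)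
  · obtain ⟨a, rfl⟩ := List.length_eq_one_iff.1 e1
    obtain ⟨b, rfl⟩ := List.length_eq_one_iff.1 e2
    rw [List.prod_singleton] at P1 P2
    rw [P1, P2]
    exact fun x hx => hx
  · obtain ⟨a, b, rfl⟩ := List.length_eq_two.1 e1
    obtain ⟨c, e, rfl⟩ := List.length_eq_two.1 e2
    have hne : a ≠ b := by simpa using d1
    simp only [List.prod_cons, List.prod_nil, mul_one] at P1 P2
    have hj : a * b = c * e := by rw [P1, P2]
    have hab := C1 a (by simp) b (by simp)
    have hce := C2 c (by simp) e (by simp)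
    have ha := D1 a (by simp)
    have hb := D1 b (by simp)
    have hc := D2 c (by simp)
    have he := D2 e (by simp)
    intro x hx
    rw [List.mem_pair] at hx ⊢
    rcases hx with rfl | rfl
    · exact uniq2 hD hp ha hb hc he hab hce hne hj
    · exact uniq2 hD hp hb ha hc he hab.symm hce hne.symm (by rw [← hj, hab.eq])
  · obtain ⟨a, b, c, rfl⟩ := List.length_eq_three.1 e1
    obtain ⟨p, q, r, rfl⟩ := List.length_eq_three.1 e2
    have m : (a ≠ b ∧ a ≠ c) ∧ b ≠ c := by simpa using d1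
    have n : (p ≠ q ∧ p ≠ r) ∧ q ≠ r := by simpa using d2
    simp only [List.prod_cons, List.prod_nil, mul_one] at P1 P2
    have hj : a * b * c = p * q * r := by rw [mul_assoc, mul_assoc, P1, P2]
    have hab := C1 a (by simp) b (by simp)
    have hac := C1 a (by simp) c (by simp)
    have hbc := C1 b (by simp) c (by simp)
    have hpq := C2 p (by simp) q (by simp)
    have hpr := C2 p (by simp) r (by simp)
    have hqr := C2 q (by simp) r (by simp)
    have ha := D1 a (by simp)
    have hb := D1 b (by simp)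
    have hc := D1 c (by simp)
    have hpp := D2 p (by simp)
    have hq := D2 q (by simp)
    have hr := D2 r (by simp)
    intro x hx
    simp only [List.mem_cons, List.not_mem_nil, or_false] at hx ⊢
    rcases hx with rfl | rfl | rfl
    · exact mem3 hD hp h6 ha hb hc hpp hq hr hab hac hbc hpq hpr hqr m.1.1 m.1.2 m.2
        n.1.1 n.1.2 n.2 hj
    · exact mem3 hD hp h6 hb ha hc hpp hq hr hab.symm hbc hac hpq hpr hqr m.1.1.symm m.2 m.1.2
        n.1.1 n.1.2 n.2 (by rw [← hj, hab.eq])
    · exact mem3 hD hp h6 hc ha hb hpp hq hr hac.symm hbc.symm hab hpq hpr hqr m.1.2.symm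
        m.2.symm m.1.1 n.1.1 n.1.2 n.2 (by rw [← hj, ← hac.eq, mul_assoc, ← hbc.eq, mul_assoc])

/-- commuting members are interchanged by an element centralizing a third one -/
theorem swap_mem (hD : Cfsg.IsThreeTranspositionClass D) (hp : Cfsg.IsPrimitiveUnderConj D)
    {x y z : G} (hx : x ∈ D) (hy : y ∈ D) (hz : z ∈ D) (hxy : Commute x y) (hxz : Commute x z)
    (hyz : Commute y z) (n1 : x ≠ y) (n2 : x ≠ z) (n3 : y ≠ z) :
    ∃ g : G, g * x * g⁻¹ = y ∧ g * y * g⁻¹ = x ∧ g * z * g⁻¹ = z := by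
  have h := tt_of_class hD
  have hw : ∃ a ∈ D, ∃ b ∈ D, a ≠ b ∧ Commute a b := ⟨x, hx, y, hy, n1, hxy⟩
  have hx' : x ∈ Dc D z := ⟨hx, n2, hxz.symm⟩
  have hy' : y ∈ Dc D z := ⟨hy, n3, hyz.symm⟩
  have hcon := dc_connected hD hp hw hz hx' hy'
  rcases h.dist_set (fun a ha => ha.1) (h.dc_closed (d := z)) hx' hcon with h1 | h1 | h1
  · exact absurd h1 n1
  · exact absurd hxy h1
  · obtain ⟨b, hb, hxb, hby⟩ := h1
    have e : y * x * b * x * y = x * y * b * y * x := by
      have h2 : y * x = x * y := hxy.symm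
      calc y * x * b * x * y = (y * x) * b * (x * y) := by group
        _ = (x * y) * b * (y * x) := by rw [h2]
        _ = _ := by group
    refine ⟨b * (x * y * b * y * x), h.str_conj2 hx hb.1 hy hxb hby hxy, ?_, ?_⟩
    · have h3 := h.str_conj2 hy hb.1 hx (fun h' => hby h'.symm) (fun h' => hxb h'.symm) hxy.symm
      rwa [e] at h3
    · have hzb : Commute z b := hb.2.2
      have hc : Commute z (b * (x * y * b * y * x)) :=
        hzb.mul_right ((((hxz.symm.mul_right hyz.symm).mul_right hzb).mul_right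
          hyz.symm).mul_right hxz.symm)
      rw [← hc.eq]
      group

end uniq

end Cfsg.Agent.H29
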