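import Cfsg.Prelude.Def_SporadicCombinatorics
import Cfsg.Agent.H7.Steiner12

/-!
The ternary code of length 12: generator words, systematic form, masks of supports.
-/
set_option autoImplicit false

namespace Cfsg.Agent.H29.TG
open Cfsg Cfsg.Agent.H7.E12

/-- index of a position -/
def ix (p : ArrayPt) : ℕ := 3 * p.1.val + p.2.val

/-- the information positions -/
def ip : Fin 6 → ArrayPt := ![(0,0), (0,1), (0,2), (1,0), (1,1), (2,0)]

/-- the six generator words -/
def gl (j p : ℕ) : ℕ :=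
  (([[1, 0, 0, 0, 0, 1, 0, 0, 1, 1, 1, 2],
    [0, 1, 0, 0, 0, 1, 0, 2, 2, 2, 0, 2],
    [0, 0, 1, 0, 0, 1, 0, 1, 0, 2, 1, 1],
    [0, 0, 0, 1, 0, 2, 0, 2, 1, 2, 1, 0],
    [0, 0, 0, 0, 1, 2, 0, 1, 2, 0, 1, 2],
    [0, 0, 0, 0, 0, 0, 1, 1, 1, 2, 2, 2]] : List (List ℕ)).getD j []).getD p 0

/-- the six generator words -/
def gw (j : Fin 6) : ArrayPt → ZMod 3 := fun p => (gl j (ix p) : ℕ)

theorem tet_mem {t : Fin 4 → ZMod 3} (ht : t ∈ tetracode) : ∃ a b : ZMod 3, t = ![b, a, a + b, a + 2 * b] := by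
  obtain ⟨a, b, h⟩ := Submodule.mem_span_pair.1 ht
  refine ⟨a, b, ?_⟩
  rw [← h]
  funext i
  fin_cases i <;> simp [mul_comm]

theorem tet_mem' (a b : ZMod 3) : ![b, a, a + b, a + 2 * b] ∈ tetracode := by
  refine Submodule.mem_span_pair.2 ⟨a, b, ?_⟩
  funext i
  fin_cases i <;> simp [mul_comm]

theorem gw_mem (j : Fin 6) : gw j ∈ ternaryGolayCode := by
  have key : ∀ j : Fin 6, ∃ s : ZMod 3, (∀ i : Fin 4, ∑ r : ZMod 3, gw j (i, r) = -s) ∧
      ∀ a b : ZMod 3, ∑ i : Fin 4, gw j (i, (![b, a, a + b, a + 2 * b] : Fin 4 → ZMod 3) i) = s := by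
    decide +kernel
  obtain ⟨s, h1, h2⟩ := key j
  refine ⟨s, h1, fun t ht => ?_⟩
  obtain ⟨a, b, rfl⟩ := tet_mem ht
  exact h2 a b

theorem sum3 (f : ZMod 3 → ZMod 3) : ∑ r : ZMod 3, f r = f 0 + f 1 + f 2 := Fin.sum_univ_three f

theorem zero_of_info {x : ArrayPt → ZMod 3} (hx : x ∈ ternaryGolayCode) (h : ∀ j, x (ip j) = 0) : x = 0 := by
  obtain ⟨s, h1, h2⟩ := hx
  have e0 : x (0, 0) = 0 := h 0
  have e1 : x (0, 1) = 0 := h 1
  have e2 : x (0, 2) = 0 := h 2
  have e3 : x (1, 0) = 0 := h 3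
  have e4 : x (1, 1) = 0 := h 4
  have e5 : x (2, 0) = 0 := h 5
  have hs : s = 0 := by
    have := h1 0
    rw [sum3, e0, e1, e2] at this
    simpa using this.symm
  subst hs
  have e6 : x (1, 2) = 0 := by
    have := h1 1
    rw [sum3, e3, e4] at this
    simpa using this
  have c0 : ∀ r : ZMod 3, x (0, r) = 0 := by
    intro r
    fin_cases r
    · exact e0
    · exact e1
    · exact e2
  have c1 : ∀ r : ZMod 3, x (1, r) = 0 := by
    intro r
    fin_cases r
    · exact e3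
    · exact e4
    · exact e6
  have key : ∀ a b : ZMod 3, x (2, a + b) + x (3, a + 2 * b) = 0 := by
    intro a b
    have := h2 _ (tet_mem' a b)
    rw [Fin.sum_univ_four] at this
    have h3 : x (0, b) + x (1, a) + x (2, a + b) + x (3, a + 2 * b) = 0 := this
    rw [c0, c1, zero_add, zero_add] at h3
    exact h3
  have c3 : ∀ r : ZMod 3, x (3, r) = 0 := by
    intro r
    have := key (-r) r
    rw [neg_add_cancel, e5, zero_add] at this
    rw [show (-r + 2 * r : ZMod 3) = r by ring] at this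
    exact this
  have c2 : ∀ r : ZMod 3, x (2, r) = 0 := by
    intro r
    have := key r 0
    rw [add_zero, c3, add_zero] at this
    exact this
  funext p
  obtain ⟨i, r⟩ := p
  fin_cases i
  · exact c0 r
  · exact c1 r
  · exact c2 r
  · exact c3 r

/-- systematic encoding -/
def enc (a : Fin 6 → ZMod 3) : ArrayPt → ZMod 3 :=
  fun p => a 0 * gw 0 p + a 1 * gw 1 p + a 2 * gw 2 p + a 3 * gw 3 p + a 4 * gw 4 p + a 5 * gw 5 p

theorem enc_eq (a : Fin 6 → ZMod 3) : enc a = ∑ j, a j • gw j := by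
  funext p
  rw [Finset.sum_apply, Fin.sum_univ_six]
  rfl

theorem enc_mem (a : Fin 6 → ZMod 3) : enc a ∈ ternaryGolayCode := by
  rw [enc_eq]
  exact Submodule.sum_mem _ fun j _ => Submodule.smul_mem _ _ (gw_mem j)

theorem enc_ip (a : Fin 6 → ZMod 3) (j : Fin 6) : enc a (ip j) = a j := by
  have h : ∀ j k : Fin 6, gw k (ip j) = if k = j then 1 else 0 := by decide +kernel
  rw [enc_eq, Finset.sum_apply]
  simp only [Pi.smul_apply, smul_eq_mul, h, mul_ite, mul_one, mul_zero, Finset.sum_ite_eq', Finset.mem_univ, if_true]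

theorem enc_inj : Function.Injective enc := by
  intro a b h
  funext j
  rw [← enc_ip a, ← enc_ip b, h]

theorem mem_iff {x : ArrayPt → ZMod 3} : x ∈ ternaryGolayCode ↔ enc (fun j => x (ip j)) = x := by
  constructor
  · intro h
    have h1 : x - enc (fun j => x (ip j)) = 0 := by
      apply zero_of_info (Submodule.sub_mem _ h (enc_mem _))
      intro j
      rw [Pi.sub_apply, enc_ip, sub_self]
    exact (sub_eq_zero.1 h1).symm
  · intro h
    rw [← h]; exact enc_mem _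

theorem mem_range {x : ArrayPt → ZMod 3} : x ∈ ternaryGolayCode ↔ ∃ a, enc a = x :=
  ⟨fun h => ⟨_, mem_iff.1 h⟩, fun ⟨a, h⟩ => h ▸ enc_mem a⟩

/-- six trits from a number -/
def dig (n : ℕ) : Fin 6 → ZMod 3 := fun j => ((n / 3 ^ (j : ℕ)) : ℕ)

/-- the six-tuples as a product -/
def tup (a : ZMod 3 × ZMod 3 × ZMod 3 × ZMod 3 × ZMod 3 × ZMod 3) : Fin 6 → ZMod 3 :=
  ![a.1, a.2.1, a.2.2.1, a.2.2.2.1, a.2.2.2.2.1, a.2.2.2.2.2]

def tupE : (ZMod 3 × ZMod 3 × ZMod 3 × ZMod 3 × ZMod 3 × ZMod 3) ≃ (Fin 6 → ZMod 3) where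
  toFun := tup
  invFun f := (f 0, f 1, f 2, f 3, f 4, f 5)
  left_inv := fun _ => rfl
  right_inv := fun f => by funext i; fin_cases i <;> rfl

/-- the position with a given index -/
def pt (k : ℕ) : ArrayPt := (⟨(k / 3) % 4, Nat.mod_lt _ (by norm_num)⟩, ((k % 3 : ℕ) : ZMod 3))

theorem ix_lt (p : ArrayPt) : ix p < 12 := by revert p; decide
theorem pt_ix (p : ArrayPt) : pt (ix p) = p := by revert p; decide
theorem ix_pt (k : ℕ) (h : k < 12) : ix (pt k) = k := by revert h; revert k; decide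

/-- the mask of the support -/
def sm (x : ArrayPt → ZMod 3) : ℕ :=
  ((List.range 12).foldl (fun m k => if x (pt k) = 0 then m else m ||| 2 ^ k) 0)

/-- numbering of the positions -/
def e12 : Fin 12 ≃ ArrayPt where
  toFun i := pt i
  invFun p := ⟨ix p, ix_lt p⟩
  left_inv := fun i => Fin.ext (ix_pt i i.2)
  right_inv := pt_ix

/-- the set of a mask -/
def TS (m : ℕ) : Finset ArrayPt := (S m).map e12.toEmbedding

theorem mem_TS {m : ℕ} {p : ArrayPt} : p ∈ TS m ↔ m.testBit (ix p) = true := by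
  rw [TS, Finset.mem_map_equiv, mem_S]
  rfl

theorem card_TS (m : ℕ) : (TS m).card = pc m := by rw [TS, Finset.card_map, card_S]

theorem TS_and (m n : ℕ) : TS (m &&& n) = TS m ∩ TS n := by rw [TS, S_and, Finset.map_inter]; rfl
theorem TS_or (m n : ℕ) : TS (m ||| n) = TS m ∪ TS n := by rw [TS, S_or, Finset.map_union]; rfl

theorem TS_exists (s : Finset ArrayPt) : ∃ m, m < 2 ^ 12 ∧ TS m = s := by
  obtain ⟨m, hm, h⟩ := exists_mask (s.map e12.symm.toEmbedding)
  refine ⟨m, hm, ?_⟩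
  rw [TS, h, Finset.map_map]
  ext p
  simp

theorem TS_inj {m n : ℕ} (hm : m < 2 ^ 12) (hn : n < 2 ^ 12) (h : TS m = TS n) : m = n :=
  S_inj hm hn (Finset.map_injective _ h)

end Cfsg.Agent.H29.TG
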