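import Cfsg.Agent.H29.TernG

/-!
The hexads of the ternary code of length 12.
-/
set_option autoImplicit false

namespace Cfsg.Agent.H29.TG
open Cfsg Cfsg.Agent.H7.E12

/-- the mask of the support -/
def msk (x : ArrayPt → ZMod 3) : ℕ := Nat.ofBits (fun k : Fin 12 => decide (x (pt k) ≠ 0))

theorem TS_msk (x : ArrayPt → ZMod 3) : TS (msk x) = ternarySupport x := by
  ext p
  rw [mem_TS, ternarySupport, Finset.mem_filter, msk, Nat.testBit_ofBits_lt _ _ (ix_lt p), decide_eq_true_iff, pt_ix]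
  simp

theorem msk_lt (x : ArrayPt → ZMod 3) : msk x < 2 ^ 12 := Nat.ofBits_lt_two_pow _

/-- the 132 hexads -/
def hexL : List ℕ := [63, 222, 237, 243, 347, 366, 373, 413, 427, 438, 455, 504, 591, 630, 633, 667, 679, 700, 725, 746, 791, 813, 826, 860, 867, 910, 945, 969, 978, 996, 1117, 1127, 1146, 1175, 1198, 1209, 1227, 1268, 1295, 1331, 1340, 1366, 1385, 1434, 1445, 1484, 1489, 1506, 1566, 1579, 1589, 1619, 1644, 1677, 1714, 1734, 1752, 1761, 1817, 1830, 1861, 1866, 1904, 1923, 1940, 1960, 2135, 2155, 2172, 2191, 2229, 2234, 2265, 2278, 2334, 2343, 2361, 2381, 2418, 2451, 2476, 2506, 2516, 2529, 2589, 2606, 2611, 2650, 2661, 2710, 2729, 2755, 2764, 2800, 2827, 2868, 2886, 2897, 2920, 2949, 2968, 2978, 3099, 3117, 3126, 3150, 3185, 3228, 3235, 3269, 3282, 3304, 3349, 3370, 3395, 3416, 3428, 3462, 3465, 3504, 3591, 3640, 3657, 3668, 3682, 3722, 3729, 3748, 3852, 3858, 3873, 4032]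

/-- words with the given supports -/
def hexA : List ℕ := [229, 696, 289, 574, 439, 318, 667, 154, 61, 102, 499, 594, 565, 579, 379, 112, 22, 117, 415, 543, 97, 37, 192, 711, 247, 66, 163, 514, 327, 252, 604, 259, 354, 187, 39, 190, 301, 657, 49, 85, 144, 417, 541, 219, 10, 279, 325, 489, 156, 34, 100, 652, 306, 64, 165, 264, 432, 487, 217, 12, 262, 516, 567, 7, 90, 27, 346, 517, 441, 43, 91, 138, 703, 255, 120, 25, 109, 307, 651, 166, 63, 273, 576, 244, 208, 48, 169, 462, 496, 174, 55, 250, 522, 324, 58, 171, 507, 568, 270, 19, 189, 3, 142, 73, 183, 552, 406, 225, 4, 505, 570, 513, 172, 57, 493, 675, 495, 21, 28, 81, 13, 108, 271, 333, 246, 30, 82, 9, 36, 84, 1, 243]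

set_option maxRecDepth 100000 in
theorem chk1 : ∀ a : ZMod 3 × ZMod 3 × ZMod 3 × ZMod 3 × ZMod 3 × ZMod 3,
    (!(pc (msk (enc (tup a))) == 6) || hexL.elem (msk (enc (tup a)))) = true := by decide +kernel

set_option maxRecDepth 100000 in
theorem chk2 : ((hexL.zip hexA).all fun q => msk (enc (dig q.2)) == q.1) = true := by decide +kernel

set_option maxRecDepth 100000 in
theorem chk3 : hexL = (hexL.zip hexA).map Prod.fst := by decide +kernel

set_option maxRecDepth 100000 in
theorem chk4 : (hexL.all fun m => pc m == 6 && decide (m < 2 ^ 12)) = true := by decide +kernel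

set_option maxRecDepth 100000 in
theorem chk5 : ((List.range 4096).all fun s => !(pc s == 5) || (hexL.filter fun m => s &&& m == s).length == 1) = true := by
  decide +kernel

theorem hexL_nodup : hexL.Nodup := by decide +kernel

/-- the hexad system -/
def tHex : Set (Finset ArrayPt) := {h : Finset ArrayPt | ∃ x ∈ ternaryGolayCode, ternarySupport x = h ∧ h.card = 6}

theorem tHex_iff {h : Finset ArrayPt} : h ∈ tHex ↔ ∃ m ∈ hexL, h = TS m := by
  constructor
  · rintro ⟨x, hx, rfl, hc⟩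
    obtain ⟨a, rfl⟩ := mem_range.1 hx
    refine ⟨msk (enc a), ?_, (TS_msk _).symm⟩
    have h1 := chk1 (tupE.symm a)
    rw [show tup (tupE.symm a) = a from tupE.apply_symm_apply a] at h1
    rw [← TS_msk, card_TS] at hc
    rw [hc] at h1
    simpa using h1
  · rintro ⟨m, hm, rfl⟩
    have h1 := List.all_eq_true.1 chk4 m hm
    rw [Bool.and_eq_true, beq_iff_eq] at h1
    rw [chk3, List.mem_map] at hm
    obtain ⟨⟨m', n⟩, hmn, rfl⟩ := hm
    have h2 := List.all_eq_true.1 chk2 _ hmn
    rw [beq_iff_eq] at h2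
    refine ⟨enc (dig n), enc_mem _, ?_, by rw [card_TS]; exact h1.1⟩
    rw [← TS_msk, h2]

theorem hexL_lt {m : ℕ} (hm : m ∈ hexL) : m < 2 ^ 12 := by
  have h1 := List.all_eq_true.1 chk4 m hm
  rw [Bool.and_eq_true] at h1
  exact of_decide_eq_true h1.2

theorem hexL_pc {m : ℕ} (hm : m ∈ hexL) : pc m = 6 := by
  have h1 := List.all_eq_true.1 chk4 m hm
  rw [Bool.and_eq_true, beq_iff_eq] at h1
  exact h1.1

theorem tHex_steiner : IsSteinerSystem 5 6 tHex := by
  constructor
  · rintro b ⟨x, _, _, h⟩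
    exact h
  · intro s hs
    obtain ⟨t, ht, rfl⟩ := TS_exists s
    have h1 := List.all_eq_true.1 chk5 t (List.mem_range.2 ht)
    rw [card_TS] at hs
    rw [hs] at h1
    simp only [beq_self_eq_true, Bool.not_true, Bool.false_or, beq_iff_eq] at h1
    obtain ⟨m, hm⟩ := List.length_eq_one_iff.1 h1
    have hm1 : m ∈ hexL.filter fun m => t &&& m == t := by rw [hm]; exact List.mem_singleton.2 rfl
    rw [List.mem_filter, beq_iff_eq] at hm1
    refine ⟨TS m, ⟨tHex_iff.2 ⟨m, hm1.1, rfl⟩, ?_⟩, ?_⟩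
    · rw [← Finset.inter_eq_left, ← TS_and, hm1.2]
    · rintro b ⟨hb, hsb⟩
      obtain ⟨m', hm', rfl⟩ := tHex_iff.1 hb
      have h3 : t &&& m' = t := by
        rw [← Finset.inter_eq_left, ← TS_and] at hsb
        exact TS_inj (lt_of_le_of_lt Nat.and_le_left ht) ht hsb
      have h4 : m' ∈ hexL.filter fun m => t &&& m == t := by
        rw [List.mem_filter, beq_iff_eq]; exact ⟨hm', h3⟩
      rw [hm, List.mem_singleton] at h4
      rw [h4]

theorem tHex_ncard : tHex.ncard = 132 := by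
  have e : tHex = ((hexL.toFinset.image TS : Finset _) : Set _) := by
    ext h
    rw [tHex_iff, Finset.coe_image, List.coe_toFinset]
    constructor
    · rintro ⟨m, hm, rfl⟩; exact ⟨m, hm, rfl⟩
    · rintro ⟨m, hm, rfl⟩; exact ⟨m, hm, rfl⟩
  rw [e, Set.ncard_coe_finset, Finset.card_image_of_injOn, List.toFinset_card_of_nodup hexL_nodup]
  · rfl
  · intro a ha b hb h
    rw [List.coe_toFinset] at ha hb
    exact TS_inj (hexL_lt ha) (hexL_lt hb) h

end Cfsg.Agent.H29.TG
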