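import Mathlib

/-!
Theta sums: products of one-dimensional sums, one-dimensional functional equation.
-/
set_option autoImplicit false

namespace Cfsg.Agent.H29
open Complex

theorem prod_sum (n : ℕ) (f : Fin n → ℤ → ℂ) (hf : ∀ i, Summable fun k => ‖f i k‖) :
    (Summable fun x : Fin n → ℤ => ‖∏ i, f i (x i)‖) ∧ ∑' x : Fin n → ℤ, ∏ i, f i (x i) = ∏ i, ∑' k, f i k := by
  induction n with
  | zero =>
    constructor
    · exact (hasSum_fintype _).summable
    · rw [tsum_fintype]; simp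
  | succ n ih =>
    obtain ⟨h1, h2⟩ := ih (fun i => f i.succ) (fun i => hf i.succ)
    have e1 : ∀ y : ℤ × (Fin n → ℤ), ∏ i, f i ((Fin.consEquiv (fun _ : Fin (n + 1) => ℤ)) y i) = f 0 y.1 * ∏ i : Fin n, f i.succ (y.2 i) := by
      intro y
      rw [Fin.prod_univ_succ]
      simp [Fin.consEquiv]
    constructor
    · rw [← (Fin.consEquiv (fun _ : Fin (n + 1) => ℤ)).summable_iff]
      refine Summable.congr ((hf 0).mul_norm h1) ?_
      intro y
      show _ = ‖∏ i, f i ((Fin.consEquiv (fun _ : Fin (n + 1) => ℤ)) y i)‖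
      rw [e1]
    · rw [← (Fin.consEquiv (fun _ : Fin (n + 1) => ℤ)).tsum_eq, Fin.prod_univ_succ, ← h2,
        tsum_mul_tsum_of_summable_norm (hf 0) h1]
      exact tsum_congr e1

/-- one-dimensional shifted theta sum -/
theorem theta1 (τ : ℂ) (hτ : 0 < τ.im) (d : ℝ) (hd : 0 < d) (u : ℝ) :
    (Summable fun y : ℤ => ‖cexp (Real.pi * I * τ * (d * (y + u) ^ 2))‖) ∧
    ∑' y : ℤ, cexp (Real.pi * I * τ * (d * (y + u) ^ 2)) =
      1 / (-I * (τ * d)) ^ (1 / 2 : ℂ) * ∑' k : ℤ, cexp (2 * Real.pi * I * k * u) * cexp (Real.pi * I * (-1 / τ) * (k ^ 2 / d)) := by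
  have hd0 : (d : ℂ) ≠ 0 := by exact_mod_cast hd.ne'
  have hτ0 : τ ≠ 0 := by rintro rfl; simp at hτ
  have him : 0 < (τ * d).im := by
    rw [im_mul_ofReal]; positivity
  have e1 : ∀ y : ℤ, cexp (Real.pi * I * τ * (d * (y + u) ^ 2)) =
      cexp (Real.pi * I * τ * d * u ^ 2) * jacobiTheta₂_term y (τ * d * u) (τ * d) := by
    intro y
    rw [jacobiTheta₂_term, ← Complex.exp_add]
    congr 1
    ring
  have hs := (summable_jacobiTheta₂_term_iff (τ * d * u) (τ * d)).2 him
  constructor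
  · simp_rw [e1, norm_mul]
    exact hs.norm.mul_left _
  · rw [tsum_congr e1, tsum_mul_left]
    change _ * jacobiTheta₂ (τ * d * u) (τ * d) = _
    rw [jacobiTheta₂_functional_equation]
    have e2 : τ * d * u / (τ * d) = u := by field_simp
    rw [e2]
    have e3 : cexp (-Real.pi * I * (τ * d * u) ^ 2 / (τ * d)) = cexp (- (Real.pi * I * τ * d * u ^ 2)) := by
      congr 1
      field_simp
    have e4 : jacobiTheta₂ (u : ℂ) (-1 / (τ * d)) = ∑' k : ℤ, cexp (2 * Real.pi * I * k * u) * cexp (Real.pi * I * (-1 / τ) * (k ^ 2 / d)) := by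
      rw [jacobiTheta₂]
      apply tsum_congr
      intro k
      rw [jacobiTheta₂_term, ← Complex.exp_add]
      congr 1
      field_simp
    rw [e3, e4, Complex.exp_neg]
    have e5 : cexp (Real.pi * I * τ * d * u ^ 2) ≠ 0 := Complex.exp_ne_zero _
    field_simp

end Cfsg.Agent.H29
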