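import Cfsg.Agent.H29.ThetaA

/-!
Transformation of the theta series of a unimodular integral form.
-/
set_option autoImplicit false

namespace Cfsg.Agent.H29
open Complex Matrix

variable {n : ℕ}

/-- real version of an integral vector -/
def rv (x : Fin n → ℤ) : Fin n → ℝ := fun i => (x i : ℝ)
/-- real version of an integral matrix -/
def rm (B : Matrix (Fin n) (Fin n) ℤ) : Matrix (Fin n) (Fin n) ℝ := B.map (Int.cast : ℤ → ℝ)

theorem rv_add (x y : Fin n → ℤ) : rv (x + y) = rv x + rv y := by ext i; simp [rv]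
theorem rv_mulVec (B : Matrix (Fin n) (Fin n) ℤ) (x : Fin n → ℤ) : rv (B *ᵥ x) = rm B *ᵥ rv x := by
  ext i
  simp [rv, rm, mulVec, dotProduct]
theorem rv_dot (x y : Fin n → ℤ) : rv x ⬝ᵥ rv y = ((x ⬝ᵥ y : ℤ) : ℝ) := by
  simp [rv, dotProduct]
theorem rm_mul (A B : Matrix (Fin n) (Fin n) ℤ) : rm (A * B) = rm A * rm B := by
  unfold rm
  exact Matrix.map_mul (f := Int.castRingHom ℝ)
theorem rm_transpose (A : Matrix (Fin n) (Fin n) ℤ) : rm Aᵀ = (rm A)ᵀ := rfl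
theorem rm_diagonal (d : Fin n → ℤ) : rm (diagonal d) = diagonal (rv d) := by
  unfold rm rv
  rw [Matrix.diagonal_map (by simp)]
theorem rm_det (A : Matrix (Fin n) (Fin n) ℤ) : (rm A).det = (A.det : ℝ) := by
  unfold rm
  exact ((Int.castRingHom ℝ).map_det A).symm
theorem rv_inj {x y : Fin n → ℤ} (h : rv x = rv y) : x = y := by
  ext i
  have := congrFun h i
  simpa [rv] using this

/-- the integral quadratic form -/
def qf (B : Matrix (Fin n) (Fin n) ℤ) (x : Fin n → ℤ) : ℤ := x ⬝ᵥ (B *ᵥ x)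

/-- value of the form in diagonal coordinates -/
theorem qf_diag {B M : Matrix (Fin n) (Fin n) ℤ} {d : Fin n → ℤ} (hD : Mᵀ * B * M = diagonal d) {x : Fin n → ℤ} {w : Fin n → ℝ}
    (hw : rm M *ᵥ w = rv x) : ((qf B x : ℤ) : ℝ) = ∑ i, (d i : ℝ) * w i ^ 2 := by
  have h1 : ((qf B x : ℤ) : ℝ) = rv x ⬝ᵥ (rm B *ᵥ rv x) := by
    unfold qf
    rw [← rv_mulVec, rv_dot]
  rw [h1, ← hw]
  have h2 : (rm M *ᵥ w) ⬝ᵥ (rm B *ᵥ (rm M *ᵥ w)) = w ⬝ᵥ ((rm (Mᵀ * B * M)) *ᵥ w) := by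
    rw [rm_mul, rm_mul, rm_transpose, ← Matrix.mulVec_mulVec, ← Matrix.mulVec_mulVec, Matrix.dotProduct_mulVec w, Matrix.vecMul_transpose]
  rw [h2, hD, rm_diagonal]
  simp only [dotProduct, Matrix.mulVec_diagonal, rv]
  apply Finset.sum_congr rfl
  intro i _
  ring

/-- the sublattice -/
def sub (M : Matrix (Fin n) (Fin n) ℤ) : AddSubgroup (Fin n → ℤ) := (Matrix.mulVecLin M).toAddMonoidHom.range

theorem mem_sub {M : Matrix (Fin n) (Fin n) ℤ} {x : Fin n → ℤ} : x ∈ sub M ↔ ∃ y, M *ᵥ y = x := Iff.rfl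

theorem sub_finite {M : Matrix (Fin n) (Fin n) ℤ} (hM : M.det ≠ 0) : Finite ((Fin n → ℤ) ⧸ sub M) := by
  have h1 : ∀ x : (Fin n → ℤ) ⧸ sub M, M.det • x = 0 := by
    intro x
    obtain ⟨x, rfl⟩ := QuotientAddGroup.mk_surjective x
    rw [← QuotientAddGroup.mk_zsmul, QuotientAddGroup.eq_zero_iff, mem_sub]
    refine ⟨M.adjugate *ᵥ x, ?_⟩
    rw [Matrix.mulVec_mulVec, Matrix.mul_adjugate, Matrix.smul_mulVec, Matrix.one_mulVec]
  have : Module.Finite ℤ ((Fin n → ℤ) ⧸ sub M) :=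
    Module.Finite.of_surjective (QuotientAddGroup.mk' (sub M)).toIntLinearMap (QuotientAddGroup.mk'_surjective _)
  apply Module.finite_of_fg_torsion
  intro x
  exact ⟨⟨M.det, mem_nonZeroDivisors_of_ne_zero hM⟩, h1 x⟩

theorem mulVec_inj {M : Matrix (Fin n) (Fin n) ℤ} (hM : M.det ≠ 0) {x y : Fin n → ℤ} (h : M *ᵥ x = M *ᵥ y) : x = y := by
  have h1 : M.adjugate *ᵥ (M *ᵥ x) = M.adjugate *ᵥ (M *ᵥ y) := by rw [h]
  rw [Matrix.mulVec_mulVec, Matrix.mulVec_mulVec, Matrix.adjugate_mul, Matrix.smul_mulVec, Matrix.smul_mulVec, Matrix.one_mulVec,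
    Matrix.one_mulVec] at h1
  ext i
  have h2 := congrFun h1 i
  simp only [Pi.smul_apply, smul_eq_mul] at h2
  exact mul_left_cancel₀ hM h2

/-- splitting a lattice into cosets -/
noncomputable def cosetEquiv {M : Matrix (Fin n) (Fin n) ℤ} (hM : M.det ≠ 0) :
    ((Fin n → ℤ) ⧸ sub M) × (Fin n → ℤ) ≃ (Fin n → ℤ) :=
  Equiv.ofBijective (fun p => Quotient.out p.1 + M *ᵥ p.2) (by
    constructor
    · rintro ⟨a, x⟩ ⟨b, y⟩ h
      have h' : Quotient.out a + M *ᵥ x = Quotient.out b + M *ᵥ y := h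
      have e : a = b := by
        have h1 := congrArg (QuotientAddGroup.mk (s := sub M)) h'
        rw [QuotientAddGroup.mk_add, QuotientAddGroup.mk_add, (QuotientAddGroup.eq_zero_iff _).2 (mem_sub.2 ⟨x, rfl⟩),
          (QuotientAddGroup.eq_zero_iff _).2 (mem_sub.2 ⟨y, rfl⟩), add_zero, add_zero] at h1
        rw [← QuotientAddGroup.out_eq' a, ← QuotientAddGroup.out_eq' b]
        exact h1
      subst e
      rw [mulVec_inj hM (add_left_cancel h')]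
    · intro x
      have h1 : -(Quotient.out (QuotientAddGroup.mk (s := sub M) x)) + x ∈ sub M := by
        rw [← QuotientAddGroup.eq]
        exact QuotientAddGroup.out_eq' _
      obtain ⟨y, hy⟩ := mem_sub.1 h1
      refine ⟨(QuotientAddGroup.mk x, y), ?_⟩
      show Quotient.out _ + M *ᵥ y = x
      rw [hy]; abel)

noncomputable def uu (M : Matrix (Fin n) (Fin n) ℤ) (x : Fin n → ℤ) : Fin n → ℝ := (rm M)⁻¹ *ᵥ rv x

theorem rm_inv {M : Matrix (Fin n) (Fin n) ℤ} (hM : M.det ≠ 0) : rm M * (rm M)⁻¹ = 1 ∧ (rm M)⁻¹ * rm M = 1 := by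
  have h : IsUnit (rm M).det := by
    rw [rm_det, isUnit_iff_ne_zero]; exact_mod_cast hM
  exact ⟨Matrix.mul_nonsing_inv _ h, Matrix.nonsing_inv_mul _ h⟩

theorem uu_spec {M : Matrix (Fin n) (Fin n) ℤ} (hM : M.det ≠ 0) (x : Fin n → ℤ) : rm M *ᵥ uu M x = rv x := by
  unfold uu
  rw [Matrix.mulVec_mulVec, (rm_inv hM).1, Matrix.one_mulVec]

theorem uu_mul {M : Matrix (Fin n) (Fin n) ℤ} (hM : M.det ≠ 0) (y : Fin n → ℤ) : uu M (M *ᵥ y) = rv y := by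
  unfold uu
  rw [rv_mulVec, Matrix.mulVec_mulVec, (rm_inv hM).2, Matrix.one_mulVec]

theorem uu_add (M : Matrix (Fin n) (Fin n) ℤ) (x y : Fin n → ℤ) : uu M (x + y) = uu M x + uu M y := by
  unfold uu
  rw [rv_add, Matrix.mulVec_add]

theorem qf_coset {B M : Matrix (Fin n) (Fin n) ℤ} {d : Fin n → ℤ} (hD : Mᵀ * B * M = diagonal d) (hM : M.det ≠ 0)
    (c y : Fin n → ℤ) : ((qf B (c + M *ᵥ y) : ℤ) : ℂ) = ∑ i, ((d i : ℝ) : ℂ) * ((y i : ℂ) + (uu M c i : ℝ)) ^ 2 := by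
  have h := qf_diag (w := uu M c + rv y) hD (x := c + M *ᵥ y) (by
    rw [Matrix.mulVec_add, uu_spec hM, rv_add, rv_mulVec])
  have h2 : ((qf B (c + M *ᵥ y) : ℤ) : ℂ) = (((qf B (c + M *ᵥ y) : ℤ) : ℝ) : ℂ) := by push_cast; rfl
  rw [h2, h]
  push_cast
  apply Finset.sum_congr rfl
  intro i _
  simp only [Pi.add_apply, rv]
  push_cast
  ring

/-- dual Gaussian -/
noncomputable def GG (d : Fin n → ℤ) (τ : ℂ) (k : Fin n → ℤ) : ℂ := cexp (Real.pi * I * (-1 / τ) * ∑ i, (k i : ℂ) ^ 2 / ((d i : ℝ) : ℂ))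
/-- character -/
noncomputable def CH (u : Fin n → ℝ) (k : Fin n → ℤ) : ℂ := cexp (2 * Real.pi * I * ((∑ i, (k i : ℝ) * u i : ℝ) : ℂ))

theorem neg_inv_im {τ : ℂ} (hτ : 0 < τ.im) : 0 < (-1 / τ).im := by
  have h0 : τ ≠ 0 := by rintro rfl; simp at hτ
  have h1 : 0 < normSq τ := normSq_pos.2 h0
  rw [neg_div, neg_im, one_div, inv_im, neg_div, neg_neg]
  positivity

theorem fiber_sum {B M : Matrix (Fin n) (Fin n) ℤ} {d : Fin n → ℤ} (hD : Mᵀ * B * M = diagonal d) (hM : M.det ≠ 0)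
    (hd : ∀ i, 0 < d i) {τ : ℂ} (hτ : 0 < τ.im) (c : Fin n → ℤ) :
    (Summable fun y : Fin n → ℤ => ‖cexp (Real.pi * I * τ * (qf B (c + M *ᵥ y) : ℤ))‖) ∧
    (Summable fun k : Fin n → ℤ => ‖CH (uu M c) k * GG d τ k‖) ∧
    ∑' y : Fin n → ℤ, cexp (Real.pi * I * τ * (qf B (c + M *ᵥ y) : ℤ)) =
      (∏ i, 1 / (-I * (τ * (d i : ℝ))) ^ (1 / 2 : ℂ)) * ∑' k : Fin n → ℤ, CH (uu M c) k * GG d τ k := by
  have hdR : ∀ i, (0 : ℝ) < (d i : ℝ) := fun i => by exact_mod_cast hd i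
  have e1 : ∀ y : Fin n → ℤ, cexp (Real.pi * I * τ * (qf B (c + M *ᵥ y) : ℤ)) =
      ∏ i, cexp (Real.pi * I * τ * ((d i : ℝ) * ((y i : ℂ) + (uu M c i : ℝ)) ^ 2)) := by
    intro y
    rw [qf_coset hD hM, ← Complex.exp_sum, Finset.mul_sum]
  obtain ⟨s1, t1⟩ := prod_sum n (fun i k => cexp (Real.pi * I * τ * ((d i : ℝ) * ((k : ℂ) + (uu M c i : ℝ)) ^ 2)))
    (fun i => (theta1 τ hτ (d i) (hdR i) (uu M c i)).1)
  have hs2 : ∀ i, Summable fun k : ℤ => ‖cexp (2 * Real.pi * I * k * (uu M c i)) * cexp (Real.pi * I * (-1 / τ) * (k ^ 2 / (d i : ℝ)))‖ := by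
    intro i
    have h1 := (theta1 (-1 / τ) (neg_inv_im hτ) (1 / (d i : ℝ)) (by have := hdR i; positivity) 0).1
    refine h1.congr ?_
    intro k
    rw [norm_mul]
    have h2 : ‖cexp (2 * Real.pi * I * k * (uu M c i))‖ = 1 := by
      have : (2 * Real.pi * I * k * (uu M c i) : ℂ) = ((2 * Real.pi * k * (uu M c i) : ℝ) : ℂ) * I := by push_cast; ring
      rw [this, Complex.norm_exp_ofReal_mul_I]
    rw [h2, one_mul]
    congr 2
    push_cast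
    ring
  obtain ⟨s2, t2⟩ := prod_sum n (fun i k => cexp (2 * Real.pi * I * k * (uu M c i)) * cexp (Real.pi * I * (-1 / τ) * (k ^ 2 / (d i : ℝ)))) hs2
  have e2 : ∀ k : Fin n → ℤ, CH (uu M c) k * GG d τ k =
      ∏ i, cexp (2 * Real.pi * I * (k i) * (uu M c i)) * cexp (Real.pi * I * (-1 / τ) * ((k i : ℂ) ^ 2 / (d i : ℝ))) := by
    intro k
    rw [Finset.prod_mul_distrib, ← Complex.exp_sum, ← Complex.exp_sum, CH, GG]
    congr 2
    · push_cast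
      rw [Finset.mul_sum]
      apply Finset.sum_congr rfl
      intro i _; ring
    · rw [Finset.mul_sum]
  refine ⟨?_, ?_, ?_⟩
  · exact s1.congr fun y => by rw [e1]
  · exact s2.congr fun y => by rw [e2]
  · rw [tsum_congr e1, t1, tsum_congr e2, t2, ← Finset.prod_mul_distrib]
    apply Finset.prod_congr rfl
    intro i _
    rw [(theta1 τ hτ (d i) (hdR i) (uu M c i)).2]

theorem CH_add (M : Matrix (Fin n) (Fin n) ℤ) (k c c' : Fin n → ℤ) : CH (uu M (c + c')) k = CH (uu M c) k * CH (uu M c') k := by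
  unfold CH
  rw [← Complex.exp_add, uu_add]
  congr 1
  rw [← mul_add]
  congr 1
  rw [← Complex.ofReal_add, ← Finset.sum_add_distrib]
  congr 1
  apply Finset.sum_congr rfl
  intro i _
  simp only [Pi.add_apply]; ring

theorem exp_int (m : ℤ) : cexp (2 * Real.pi * I * ((m : ℝ) : ℂ)) = 1 := by
  rw [Complex.exp_eq_one_iff]
  exact ⟨m, by push_cast; ring⟩

theorem CH_mul {M : Matrix (Fin n) (Fin n) ℤ} (hM : M.det ≠ 0) (k y : Fin n → ℤ) : CH (uu M (M *ᵥ y)) k = 1 := by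
  unfold CH
  rw [uu_mul hM]
  have : ∑ i, (k i : ℝ) * rv y i = ((∑ i, k i * y i : ℤ) : ℝ) := by simp [rv]
  rw [this, exp_int]

theorem phi_diag {B M : Matrix (Fin n) (Fin n) ℤ} {d : Fin n → ℤ} (hD : Mᵀ * B * M = diagonal d) (hM : M.det ≠ 0)
    (x : Fin n → ℤ) (i : Fin n) : (((Mᵀ *ᵥ (B *ᵥ x)) i : ℤ) : ℝ) = d i * uu M x i := by
  have h : rv (Mᵀ *ᵥ (B *ᵥ x)) = rm (Mᵀ * B * M) *ᵥ uu M x := by
    rw [rv_mulVec, rv_mulVec, rm_mul, rm_mul, ← Matrix.mulVec_mulVec, ← Matrix.mulVec_mulVec, uu_spec hM]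
  have h2 := congrFun h i
  rw [hD, rm_diagonal, Matrix.mulVec_diagonal] at h2
  exact h2

theorem GG_phi {B M : Matrix (Fin n) (Fin n) ℤ} {d : Fin n → ℤ} (hD : Mᵀ * B * M = diagonal d) (hM : M.det ≠ 0)
    (hd : ∀ i, 0 < d i) (τ : ℂ) (x : Fin n → ℤ) : GG d τ (Mᵀ *ᵥ (B *ᵥ x)) = cexp (Real.pi * I * (-1 / τ) * (qf B x : ℤ)) := by
  unfold GG
  congr 2
  have h := qf_diag (w := uu M x) hD (x := x) (uu_spec hM x)
  have h2 : ((qf B x : ℤ) : ℂ) = (((qf B x : ℤ) : ℝ) : ℂ) := by push_cast; rfl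
  rw [h2, h]
  push_cast
  apply Finset.sum_congr rfl
  intro i _
  have h3 : (((Mᵀ *ᵥ (B *ᵥ x)) i : ℤ) : ℂ) = (d i : ℂ) * (uu M x i : ℂ) := by
    have := phi_diag hD hM x i
    exact_mod_cast congrArg (fun r : ℝ => (r : ℂ)) this
  have h4 : (d i : ℂ) ≠ 0 := by exact_mod_cast (hd i).ne'
  rw [h3]
  field_simp

theorem CH_phi {B M : Matrix (Fin n) (Fin n) ℤ} (hM : M.det ≠ 0) (x c : Fin n → ℤ) :
    CH (uu M c) (Mᵀ *ᵥ (B *ᵥ x)) = 1 := by
  unfold CH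
  have h : ∑ i, (((Mᵀ *ᵥ (B *ᵥ x)) i : ℤ) : ℝ) * uu M c i = (((B *ᵥ x) ⬝ᵥ c : ℤ) : ℝ) := by
    have h1 : ∑ i, (((Mᵀ *ᵥ (B *ᵥ x)) i : ℤ) : ℝ) * uu M c i = rv (Mᵀ *ᵥ (B *ᵥ x)) ⬝ᵥ uu M c := rfl
    rw [h1, rv_mulVec, rm_transpose, Matrix.mulVec_transpose, ← Matrix.dotProduct_mulVec, uu_spec hM, rv_dot]
  rw [h, exp_int]

theorem exists_phi {B M : Matrix (Fin n) (Fin n) ℤ} (hM : M.det ≠ 0) (hB : B.det = 1) (k : Fin n → ℤ)
    (h : ∀ c, CH (uu M c) k = 1) : ∃ x, Mᵀ *ᵥ (B *ᵥ x) = k := by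
  have h1 : ∀ j, ∃ z : ℤ, ∑ i, (k i : ℝ) * uu M (Pi.single j 1) i = z := by
    intro j
    have h2 := h (Pi.single j 1)
    unfold CH at h2
    rw [Complex.exp_eq_one_iff] at h2
    obtain ⟨z, hz⟩ := h2
    refine ⟨z, ?_⟩
    have h3 : (2 * Real.pi * I : ℂ) ≠ 0 := by
      simp [Real.pi_ne_zero]
    have h4 : ((∑ i, (k i : ℝ) * uu M (Pi.single j 1) i : ℝ) : ℂ) = z := by
      apply mul_left_cancel₀ h3
      rw [hz]; ring
    exact_mod_cast h4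
  choose z hz using h1
  have h5 : rv z = rv k ᵥ* (rm M)⁻¹ := by
    ext j
    rw [rv, ← hz j]
    simp only [vecMul, dotProduct, rv]
    apply Finset.sum_congr rfl
    intro i _
    congr 1
    unfold uu
    have : rv (Pi.single j (1 : ℤ)) = (Pi.single j (1 : ℝ) : Fin n → ℝ) := by
      ext l
      by_cases hl : l = j
      · subst hl; simp [rv]
      · simp [rv, hl]
    rw [this, Matrix.mulVec_single_one]
    rfl
  have h6 : Mᵀ *ᵥ z = k := by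
    apply rv_inj
    rw [rv_mulVec, rm_transpose, Matrix.mulVec_transpose, h5, Matrix.vecMul_vecMul, (rm_inv hM).2, Matrix.vecMul_one]
  refine ⟨B.adjugate *ᵥ z, ?_⟩
  have h7 : B *ᵥ (B.adjugate *ᵥ z) = z := by
    rw [Matrix.mulVec_mulVec, Matrix.mul_adjugate, hB, one_smul, Matrix.one_mulVec]
  rw [h7, h6]

theorem char_sum {B M : Matrix (Fin n) (Fin n) ℤ} (hM : M.det ≠ 0) (hB : B.det = 1) [Fintype ((Fin n → ℤ) ⧸ sub M)] (k : Fin n → ℤ) :
    (k ∈ Set.range (fun x => Mᵀ *ᵥ (B *ᵥ x)) →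
      ∑ a : (Fin n → ℤ) ⧸ sub M, CH (uu M (Quotient.out a)) k = (Fintype.card ((Fin n → ℤ) ⧸ sub M) : ℂ)) ∧
    (k ∉ Set.range (fun x => Mᵀ *ᵥ (B *ᵥ x)) → ∑ a : (Fin n → ℤ) ⧸ sub M, CH (uu M (Quotient.out a)) k = 0) := by
  classical
  constructor
  · rintro ⟨x, rfl⟩
    simp only [CH_phi hM]
    simp
  · intro hk
    have h1 : ∃ c, CH (uu M c) k ≠ 1 := by
      by_contra hall
      push Not at hall
      exact hk (exists_phi hM hB k hall)
    obtain ⟨c, hc⟩ := h1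
    have hdesc : ∀ (a : (Fin n → ℤ) ⧸ sub M) (b : Fin n → ℤ), QuotientAddGroup.mk b = a → CH (uu M (Quotient.out a)) k = CH (uu M b) k := by
      intro a b hb
      have h2 : -(Quotient.out a) + b ∈ sub M := by
        rw [← QuotientAddGroup.eq, hb]
        exact QuotientAddGroup.out_eq' _
      obtain ⟨y, hy⟩ := mem_sub.1 h2
      have h3 : b = Quotient.out a + M *ᵥ y := by rw [hy]; abel
      rw [h3, CH_add, CH_mul hM, mul_one]
    have h4 : (∑ a : (Fin n → ℤ) ⧸ sub M, CH (uu M (Quotient.out a)) k) * CH (uu M c) k =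
        ∑ a : (Fin n → ℤ) ⧸ sub M, CH (uu M (Quotient.out a)) k := by
      rw [Finset.sum_mul]
      rw [← Equiv.sum_comp (Equiv.addRight (QuotientAddGroup.mk (s := sub M) c))
        (fun a : (Fin n → ℤ) ⧸ sub M => CH (uu M (Quotient.out a)) k)]
      apply Finset.sum_congr rfl
      intro a _
      rw [← CH_add]
      symm
      apply hdesc
      rw [QuotientAddGroup.mk_add]
      show _ = a + _
      congr 1
      exact QuotientAddGroup.out_eq' _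
    have h5 : (∑ a : (Fin n → ℤ) ⧸ sub M, CH (uu M (Quotient.out a)) k) * (CH (uu M c) k - 1) = 0 := by
      rw [mul_sub, h4, mul_one, sub_self]
    rcases mul_eq_zero.1 h5 with h6 | h6
    · exact h6
    · exact absurd (sub_eq_zero.1 h6) hc

/-- the theta series -/
noncomputable def TH (B : Matrix (Fin n) (Fin n) ℤ) (τ : ℂ) : ℂ := ∑' x : Fin n → ℤ, cexp (Real.pi * I * τ * (qf B x : ℤ))

theorem TH_summable {B M : Matrix (Fin n) (Fin n) ℤ} {d : Fin n → ℤ} (hD : Mᵀ * B * M = diagonal d) (hM : M.det ≠ 0)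
    (hd : ∀ i, 0 < d i) {τ : ℂ} (hτ : 0 < τ.im) :
    Summable fun x : Fin n → ℤ => ‖cexp (Real.pi * I * τ * (qf B x : ℤ))‖ := by
  have := sub_finite hM
  have := Fintype.ofFinite ((Fin n → ℤ) ⧸ sub M)
  rw [← (cosetEquiv hM).summable_iff]
  exact (summable_prod_of_nonneg (f := fun p : ((Fin n → ℤ) ⧸ sub M) × (Fin n → ℤ) =>
    ‖cexp (Real.pi * I * τ * (qf B (cosetEquiv hM p) : ℤ))‖) (fun _ => norm_nonneg _)).2
    ⟨fun a => (fiber_sum hD hM hd hτ (Quotient.out a)).1, (hasSum_fintype _).summable⟩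

theorem TH_transform {B M : Matrix (Fin n) (Fin n) ℤ} {d : Fin n → ℤ} (hD : Mᵀ * B * M = diagonal d) (hM : M.det ≠ 0)
    (hd : ∀ i, 0 < d i) (hB : B.det = 1) {τ : ℂ} (hτ : 0 < τ.im) :
    TH B τ = (∏ i, 1 / (-I * (τ * (d i : ℝ))) ^ (1 / 2 : ℂ)) * (Nat.card ((Fin n → ℤ) ⧸ sub M) : ℂ) * TH B (-1 / τ) := by
  classical
  have := sub_finite hM
  have := Fintype.ofFinite ((Fin n → ℤ) ⧸ sub M)
  have hs := TH_summable hD hM hd hτ
  have hs' : Summable fun p : ((Fin n → ℤ) ⧸ sub M) × (Fin n → ℤ) => cexp (Real.pi * I * τ * (qf B (cosetEquiv hM p) : ℤ)) :=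
    ((cosetEquiv hM).summable_iff (f := fun x => cexp (Real.pi * I * τ * (qf B x : ℤ)))).2 hs.of_norm
  unfold TH
  rw [← (cosetEquiv hM).tsum_eq, hs'.tsum_prod, tsum_fintype]
  have e1 : ∀ a : (Fin n → ℤ) ⧸ sub M, ∑' y : Fin n → ℤ, cexp (Real.pi * I * τ * (qf B (cosetEquiv hM (a, y)) : ℤ)) =
      (∏ i, 1 / (-I * (τ * (d i : ℝ))) ^ (1 / 2 : ℂ)) * ∑' k : Fin n → ℤ, CH (uu M (Quotient.out a)) k * GG d τ k :=
    fun a => (fiber_sum hD hM hd hτ (Quotient.out a)).2.2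
  rw [Finset.sum_congr rfl fun a _ => e1 a, ← Finset.mul_sum, mul_assoc]
  congr 1
  have e2 : ∑ a : (Fin n → ℤ) ⧸ sub M, ∑' k : Fin n → ℤ, CH (uu M (Quotient.out a)) k * GG d τ k =
      ∑' k : Fin n → ℤ, ∑ a : (Fin n → ℤ) ⧸ sub M, CH (uu M (Quotient.out a)) k * GG d τ k :=
    (Summable.tsum_finsetSum fun a _ => (fiber_sum hD hM hd hτ (Quotient.out a)).2.1.of_norm).symm
  rw [e2]
  have hphi : Function.Injective (fun x : Fin n → ℤ => Mᵀ *ᵥ (B *ᵥ x)) := by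
    intro x y h
    have h1 : B *ᵥ x = B *ᵥ y := mulVec_inj (by rwa [Matrix.det_transpose]) h
    exact mulVec_inj (by rw [hB]; norm_num) h1
  have e3 : ∑' k : Fin n → ℤ, ∑ a : (Fin n → ℤ) ⧸ sub M, CH (uu M (Quotient.out a)) k * GG d τ k =
      ∑' x : Fin n → ℤ, (Nat.card ((Fin n → ℤ) ⧸ sub M) : ℂ) * GG d τ (Mᵀ *ᵥ (B *ᵥ x)) := by
    rw [← hphi.tsum_eq]
    · apply tsum_congr
      intro x
      rw [← Finset.sum_mul, (char_sum hM hB _).1 ⟨x, rfl⟩, Nat.card_eq_fintype_card]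
    · intro k hk
      by_contra h
      apply hk
      show ∑ a : (Fin n → ℤ) ⧸ sub M, CH (uu M (Quotient.out a)) k * GG d τ k = 0
      rw [← Finset.sum_mul, (char_sum hM hB _).2 h, zero_mul]
  rw [e3, tsum_mul_left]
  congr 1
  exact tsum_congr fun x => GG_phi hD hM hd τ x

end Cfsg.Agent.H29
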