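import Cfsg.Agent.H29.ThetaB

/-!
Diagonalisation of integral forms over a sublattice; theta series in dimension 24.
-/
set_option autoImplicit false

namespace Cfsg.Agent.H29
open Complex Matrix

variable {n : ℕ}

theorem exists_orth (n : ℕ) (Bq : Matrix (Fin n) (Fin n) ℚ) (hsymm : Bq.IsSymm) :
    ∃ P : Matrix (Fin n) (Fin n) ℚ, P.det ≠ 0 ∧ ∀ i j, i ≠ j → (Pᵀ * Bq * P) i j = 0 := by
  classical
  have hBq : LinearMap.IsSymm (Matrix.toBilin' Bq) := by
    constructor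
    intro x y
    simp only [RingHom.id_apply, Matrix.toBilin'_apply']
    rw [dotProduct_comm, ← Matrix.vecMul_transpose, hsymm.eq, ← Matrix.dotProduct_mulVec]
  have : Invertible (2 : ℚ) := invertibleOfNonzero (by norm_num)
  obtain ⟨v, hv⟩ := LinearMap.BilinForm.exists_orthogonal_basis hBq
  let e : Fin (Module.finrank ℚ (Fin n → ℚ)) ≃ Fin n := finCongr (by simp)
  let w := v.reindex e
  let P : Matrix (Fin n) (Fin n) ℚ := Matrix.of fun i j => w j i
  refine ⟨P, ?_, ?_⟩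
  · have h1 : IsUnit ((Pi.basisFun ℚ (Fin n)).toMatrix w).det := by
      rw [← Matrix.isUnit_iff_isUnit_det]
      have := (Pi.basisFun ℚ (Fin n)).invertibleToMatrix w
      exact isUnit_of_invertible _
    have h2 : P = (Pi.basisFun ℚ (Fin n)).toMatrix w := by
      ext i j
      simp [P, Module.Basis.toMatrix_apply]
    rw [h2]
    exact h1.ne_zero
  · intro i j hij
    have h3 : (Pᵀ * Bq * P) i j = Matrix.toBilin' Bq (w i) (w j) := by
      rw [Matrix.toBilin'_apply', Matrix.mul_assoc]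
      simp only [Matrix.mul_apply, dotProduct, mulVec, transpose_apply, P, Matrix.of_apply]
    rw [h3]
    have h4 := hv (i := e.symm i) (j := e.symm j) (fun h => hij (e.symm.injective h))
    simpa [w] using h4

theorem exists_diag (B : Matrix (Fin n) (Fin n) ℤ) (hsymm : B.IsSymm) (hpos : ∀ x : Fin n → ℤ, x ≠ 0 → 0 < x ⬝ᵥ (B *ᵥ x)) :
    ∃ (M : Matrix (Fin n) (Fin n) ℤ) (d : Fin n → ℤ), M.det ≠ 0 ∧ (∀ i, 0 < d i) ∧ Mᵀ * B * M = diagonal d := by
  classical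
  have hs : (B.map (Int.cast : ℤ → ℚ)).IsSymm := hsymm.map _
  obtain ⟨P, hP, hPo⟩ := exists_orth n (B.map (Int.cast : ℤ → ℚ)) hs
  -- clear denominators
  let N : ℤ := ∏ i, ∏ j, ((P i j).den : ℤ)
  have hN : N ≠ 0 := by
    apply Finset.prod_ne_zero_iff.2
    intro i _
    apply Finset.prod_ne_zero_iff.2
    intro j _
    exact_mod_cast (P i j).den_nz
  have hz : ∀ i j, ∃ z : ℤ, (z : ℚ) = N * P i j := by
    intro i j
    have h1 : ((P i j).den : ℤ) ∣ N :=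
      (Finset.dvd_prod_of_mem (fun j => ((P i j).den : ℤ)) (Finset.mem_univ j)).trans
        (Finset.dvd_prod_of_mem (fun i => ∏ j, ((P i j).den : ℤ)) (Finset.mem_univ i))
    obtain ⟨c, hc⟩ := h1
    refine ⟨c * (P i j).num, ?_⟩
    rw [hc]
    have h2 : (P i j).den * P i j = (P i j).num := Rat.den_mul_eq_num _
    push_cast
    rw [mul_comm ((P i j).den : ℚ), mul_assoc, h2]
  choose Z hZ using hz
  let M : Matrix (Fin n) (Fin n) ℤ := Matrix.of Z
  have hM : M.map (Int.cast : ℤ → ℚ) = (N : ℚ) • P := by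
    ext i j
    simp [M, hZ]
  have hdet : M.det ≠ 0 := by
    have h1 : ((M.det : ℤ) : ℚ) = ((N : ℚ) • P).det := by
      rw [← hM]; exact (Int.castRingHom ℚ).map_det M
    rw [Matrix.det_smul] at h1
    intro h2
    rw [h2] at h1
    have h3 : ((N : ℚ) ^ Fintype.card (Fin n) * P.det) ≠ 0 := mul_ne_zero (pow_ne_zero _ (by exact_mod_cast hN)) hP
    exact h3 (by rw [← h1]; simp)
  have hoff : ∀ i j, i ≠ j → (Mᵀ * B * M) i j = 0 := by
    intro i j hij
    have h1 : (((Mᵀ * B * M) i j : ℤ) : ℚ) = (((N : ℚ) • P)ᵀ * B.map (Int.cast : ℤ → ℚ) * ((N : ℚ) • P)) i j := by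
      rw [← hM]
      have h2 : (Mᵀ * B * M).map (Int.castRingHom ℚ) = (M.map (Int.castRingHom ℚ))ᵀ * B.map (Int.castRingHom ℚ) * M.map (Int.castRingHom ℚ) := by
        rw [Matrix.map_mul, Matrix.map_mul, Matrix.transpose_map]
      exact congrFun (congrFun h2 i) j
    rw [Matrix.transpose_smul, Matrix.smul_mul, Matrix.smul_mul, Matrix.mul_smul, Matrix.smul_apply, Matrix.smul_apply, hPo i j hij] at h1
    simpa using h1
  refine ⟨M, fun i => (Mᵀ * B * M) i i, hdet, ?_, ?_⟩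
  · intro i
    have h1 : (Mᵀ * B * M) i i = (M *ᵥ Pi.single i 1) ⬝ᵥ (B *ᵥ (M *ᵥ Pi.single i 1)) := by
      rw [Matrix.mulVec_single_one, Matrix.mul_assoc, Matrix.mul_apply']
      rfl
    show 0 < (Mᵀ * B * M) i i
    rw [h1]
    apply hpos
    intro h0
    have h2 : (Pi.single i 1 : Fin n → ℤ) = 0 := mulVec_inj hdet (by rw [h0, Matrix.mulVec_zero])
    have h3 := congrFun h2 i
    simp at h3
  · ext i j
    by_cases hij : i = j
    · subst hij; simp
    · rw [Matrix.diagonal_apply_ne _ hij]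
      exact hoff i j hij

/-- hypotheses on the form -/
structure GoodForm (B : Matrix (Fin n) (Fin n) ℤ) : Prop where
  symm : B.IsSymm
  pos : ∀ x : Fin n → ℤ, x ≠ 0 → 0 < x ⬝ᵥ (B *ᵥ x)
  even : ∀ x : Fin n → ℤ, (2 : ℤ) ∣ x ⬝ᵥ (B *ᵥ x)
  det : B.det = 1

theorem good_summable {B : Matrix (Fin n) (Fin n) ℤ} (hB : GoodForm B) {τ : ℂ} (hτ : 0 < τ.im) :
    Summable fun x : Fin n → ℤ => ‖cexp (Real.pi * I * τ * (qf B x : ℤ))‖ := by
  obtain ⟨M, d, hM, hd, hD⟩ := exists_diag B hB.symm hB.pos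
  exact TH_summable hD hM hd hτ

theorem sqrt_prod {τ : ℂ} (hτ : 0 < τ.im) (d : Fin 24 → ℤ) (hd : ∀ i, 0 < d i) :
    ∃ K : ℝ, 0 < K ∧ (∏ i, 1 / (-I * (τ * (d i : ℝ))) ^ (1 / 2 : ℂ)) = K / τ ^ 12 ∧
      (∏ i, 1 / (-I * (I * (d i : ℝ))) ^ (1 / 2 : ℂ)) = (K : ℂ) := by
  have hτ0 : τ ≠ 0 := by rintro rfl; simp at hτ
  have key : ∀ σ : ℂ, σ ≠ 0 → ∏ i, 1 / (-I * (σ * (d i : ℝ))) ^ (1 / 2 : ℂ) = ((∏ i, 1 / Real.sqrt (d i) : ℝ) : ℂ) / σ ^ 12 := by
    intro σ hσ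
    have h1 : ∀ i, (-I * (σ * (d i : ℝ))) ^ (1 / 2 : ℂ) = (Real.sqrt (d i) : ℂ) * (-I * σ) ^ (1 / 2 : ℂ) := by
      intro i
      have hdi : (0 : ℝ) < d i := by exact_mod_cast hd i
      have hne : -I * σ ≠ 0 := mul_ne_zero (neg_ne_zero.2 I_ne_zero) hσ
      have e1 : -I * (σ * (d i : ℝ)) = ((d i : ℝ) : ℂ) * (-I * σ) := by ring
      have hdc : ((d i : ℝ) : ℂ) ≠ 0 := by exact_mod_cast hdi.ne'
      have e2 : (Real.sqrt (d i) : ℂ) = ((d i : ℝ) : ℂ) ^ (1 / 2 : ℂ) := by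
        rw [Real.sqrt_eq_rpow, Complex.ofReal_cpow hdi.le]
        norm_num
      rw [e1, e2, Complex.cpow_def_of_ne_zero (mul_ne_zero hdc hne), Complex.log_ofReal_mul hdi hne, add_mul,
        Complex.exp_add, Complex.cpow_def_of_ne_zero hne, Complex.cpow_def_of_ne_zero hdc, Complex.ofReal_log hdi.le]
    simp only [h1]
    have h2 : ((-I * σ) ^ (1 / 2 : ℂ)) ^ 24 = σ ^ 12 := by
      rw [← Complex.cpow_nat_mul]
      have : ((24 : ℕ) : ℂ) * (1 / 2) = ((12 : ℕ) : ℂ) := by norm_num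
      rw [this, Complex.cpow_natCast, mul_pow, neg_pow]
      have : I ^ 12 = 1 := by
        rw [show 12 = 4 * 3 by norm_num, pow_mul, I_pow_four, one_pow]
      rw [this]; norm_num
    have h3 : ∏ i : Fin 24, 1 / ((Real.sqrt (d i) : ℂ) * (-I * σ) ^ (1 / 2 : ℂ)) =
        (∏ i : Fin 24, 1 / (Real.sqrt (d i) : ℂ)) * (1 / (-I * σ) ^ (1 / 2 : ℂ)) ^ 24 := by
      have : ∀ i : Fin 24, 1 / ((Real.sqrt (d i) : ℂ) * (-I * σ) ^ (1 / 2 : ℂ)) =
          1 / (Real.sqrt (d i) : ℂ) * (1 / (-I * σ) ^ (1 / 2 : ℂ)) := by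
        intro i; rw [one_div_mul_one_div]
      rw [Finset.prod_congr rfl fun i _ => this i, Finset.prod_mul_distrib, Finset.prod_const, Finset.card_univ, Fintype.card_fin]
    rw [h3, _root_.one_div_pow, h2]
    push_cast
    ring
  refine ⟨∏ i, 1 / Real.sqrt (d i), ?_, key τ hτ0, ?_⟩
  · apply Finset.prod_pos
    intro i _
    have : (0 : ℝ) < d i := by exact_mod_cast hd i
    positivity
  · have := key I I_ne_zero
    rw [this, show (I : ℂ) ^ 12 = 1 by rw [show 12 = 4 * 3 by norm_num, pow_mul, I_pow_four, one_pow]]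
    simp

theorem TH_I_ne {B : Matrix (Fin n) (Fin n) ℤ} (hB : GoodForm B) : TH B I ≠ 0 := by
  have hs := good_summable hB (τ := I) (by simp)
  have e1 : ∀ x : Fin n → ℤ, cexp (Real.pi * I * I * (qf B x : ℤ)) = ((Real.exp (-Real.pi * qf B x) : ℝ) : ℂ) := by
    intro x
    rw [Complex.ofReal_exp]
    congr 1
    push_cast
    rw [mul_assoc (Real.pi : ℂ), I_mul_I]; ring
  have hs' : Summable fun x : Fin n → ℤ => Real.exp (-Real.pi * qf B x) := by
    refine hs.congr ?_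
    intro x
    rw [e1, Complex.norm_real, Real.norm_eq_abs, abs_of_pos (Real.exp_pos _)]
  unfold TH
  rw [tsum_congr e1, ← Complex.ofReal_tsum]
  have : 0 < ∑' x : Fin n → ℤ, Real.exp (-Real.pi * qf B x) := hs'.tsum_pos (fun _ => (Real.exp_pos _).le) 0 (Real.exp_pos _)
  exact_mod_cast this.ne'

/-- the modular transformation in dimension 24 -/
theorem TH_S {B : Matrix (Fin 24) (Fin 24) ℤ} (hB : GoodForm B) {τ : ℂ} (hτ : 0 < τ.im) : TH B (-1 / τ) = τ ^ 12 * TH B τ := by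
  obtain ⟨M, d, hM, hd, hD⟩ := exists_diag B hB.symm hB.pos
  obtain ⟨K, hK, h1, h2⟩ := sqrt_prod hτ d hd
  have t1 := TH_transform hD hM hd hB.det hτ
  have t2 := TH_transform hD hM hd hB.det (τ := I) (by simp)
  have hτ0 : τ ≠ 0 := by rintro rfl; simp at hτ
  rw [h1] at t1
  have e1 : -1 / I = I := by rw [div_eq_iff I_ne_zero, I_mul_I]
  rw [h2, e1] at t2
  have h3 : (K : ℂ) * (Nat.card ((Fin 24 → ℤ) ⧸ sub M) : ℂ) = 1 := by
    have := TH_I_ne hB
    exact mul_right_cancel₀ this (by rw [one_mul]; exact t2.symm)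
  have h4 : (K : ℂ) / τ ^ 12 * (Nat.card ((Fin 24 → ℤ) ⧸ sub M) : ℂ) = 1 / τ ^ 12 := by
    rw [← h3]; ring
  rw [h4] at t1
  rw [t1]
  field_simp

theorem TH_T {B : Matrix (Fin n) (Fin n) ℤ} (hB : GoodForm B) (τ : ℂ) : TH B (τ + 1) = TH B τ := by
  unfold TH
  apply tsum_congr
  intro x
  obtain ⟨m, hm⟩ := hB.even x
  have e : (Real.pi * I * (τ + 1) * (qf B x : ℤ) : ℂ) = Real.pi * I * τ * (qf B x : ℤ) + m * (2 * Real.pi * I) := by
    unfold qf
    rw [hm]; push_cast; ring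
  rw [e, Complex.exp_add, Complex.exp_int_mul_two_pi_mul_I, mul_one]

end Cfsg.Agent.H29
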