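import Cfsg.Agent.H29.ThetaC

/-!
The theta series as a modular form of weight 12.
-/
set_option autoImplicit false

namespace Cfsg.Agent.H29
open UpperHalfPlane hiding I
open Complex Matrix ModularForm SlashInvariantForm Function
open scoped MatrixGroups CongruenceSubgroup

variable {n : ℕ}

theorem qf_nonneg {B : Matrix (Fin n) (Fin n) ℤ} (hB : GoodForm B) (x : Fin n → ℤ) : 0 ≤ qf B x := by
  by_cases h : x = 0
  · subst h; simp [qf]
  · exact (hB.pos x h).le

theorem fib_finite {B : Matrix (Fin n) (Fin n) ℤ} (hB : GoodForm B) (m : ℤ) : {x : Fin n → ℤ | qf B x = m}.Finite := by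
  have hs := good_summable hB (τ := I) (by simp)
  have h1 := hs.tendsto_cofinite_zero
  have h2 : ∀ᶠ x in Filter.cofinite, ‖cexp (Real.pi * I * I * (qf B x : ℤ))‖ < Real.exp (-Real.pi * m) := by
    exact h1.eventually (gt_mem_nhds (Real.exp_pos _))
  rw [Filter.eventually_cofinite] at h2
  refine h2.subset ?_
  intro x hx
  rw [Set.mem_ofPred_eq] at hx ⊢
  rw [not_lt, hx]
  have e : (Real.pi * I * I * (m : ℤ) : ℂ) = ((-Real.pi * m : ℝ) : ℂ) := by
    push_cast
    rw [mul_assoc (Real.pi : ℂ), I_mul_I]; ring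
  rw [e, ← Complex.ofReal_exp, Complex.norm_real, Real.norm_eq_abs, abs_of_pos (Real.exp_pos _)]

/-- number of vectors of norm `2 m` -/
noncomputable def rep (B : Matrix (Fin n) (Fin n) ℤ) (m : ℕ) : ℕ := {x : Fin n → ℤ | qf B x = 2 * m}.ncard

theorem TH_hasSum {B : Matrix (Fin n) (Fin n) ℤ} (hB : GoodForm B) {τ : ℂ} (hτ : 0 < τ.im) :
    HasSum (fun m : ℕ => (rep B m : ℂ) * cexp (2 * Real.pi * I * τ) ^ m) (TH B τ) := by
  have hs := good_summable hB hτ
  have hs' : HasSum (fun x : Fin n → ℤ => cexp (Real.pi * I * τ * (qf B x : ℤ))) (TH B τ) := hs.of_norm.hasSum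
  let g : (Fin n → ℤ) → ℕ := fun x => (qf B x / 2).toNat
  have hg : ∀ x, qf B x = 2 * (g x : ℤ) := by
    intro x
    obtain ⟨m, hm⟩ := hB.even x
    have h1 : qf B x = 2 * m := hm
    have h2 := qf_nonneg hB x
    show qf B x = 2 * ((qf B x / 2).toNat : ℤ)
    rw [h1] at h2 ⊢
    rw [Int.mul_ediv_cancel_left _ (by norm_num), Int.toNat_of_nonneg (by linarith)]
  have h3 := ((Equiv.sigmaFiberEquiv g).hasSum_iff.mpr hs').sigma (g := fun m => (rep B m : ℂ) * cexp (2 * Real.pi * I * τ) ^ m) ?_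
  · exact h3
  · intro m
    have hset : {x : Fin n → ℤ | g x = m} = {x : Fin n → ℤ | qf B x = 2 * m} := by
      ext x
      rw [Set.mem_ofPred_eq, Set.mem_ofPred_eq, hg x]
      constructor
      · intro h; rw [h]
      · intro h; omega
    have hfin : {x : Fin n → ℤ | g x = m}.Finite := by rw [hset]; exact fib_finite hB _
    have : Fintype {x : Fin n → ℤ // g x = m} := hfin.fintype
    have h4 : (rep B m : ℂ) * cexp (2 * Real.pi * I * τ) ^ m = ∑ x : {x : Fin n → ℤ // g x = m}, cexp (Real.pi * I * τ * (qf B x.1 : ℤ)) := by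
      have h5 : ∀ x : {x : Fin n → ℤ // g x = m}, cexp (Real.pi * I * τ * (qf B x.1 : ℤ)) = cexp (2 * Real.pi * I * τ) ^ m := by
        intro x
        rw [← Complex.exp_nat_mul, hg x.1, x.2]
        congr 1; push_cast; ring
      rw [Finset.sum_congr rfl fun x _ => h5 x, Finset.sum_const, Finset.card_univ, nsmul_eq_mul, ← Nat.card_eq_fintype_card]
      congr 2
      unfold rep
      rw [← hset, ← Nat.card_coe_set_eq]
      rfl
    rw [h4]
    exact hasSum_fintype _

theorem norm_term {B : Matrix (Fin n) (Fin n) ℤ} (x : Fin n → ℤ) (τ : ℂ) :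
    ‖cexp (Real.pi * I * τ * (qf B x : ℤ))‖ = Real.exp (-Real.pi * τ.im * qf B x) := by
  rw [Complex.norm_exp]
  congr 1
  have : (Real.pi * I * τ * (qf B x : ℤ) : ℂ) = ((Real.pi * (qf B x : ℤ) : ℝ) : ℂ) * (I * τ) := by push_cast; ring
  rw [this, Complex.re_ofReal_mul]
  simp
  ring

theorem TH_diff {B : Matrix (Fin n) (Fin n) ℤ} (hB : GoodForm B) {z : ℂ} (hz : 0 < z.im) : DifferentiableAt ℂ (TH B) z := by
  let U : Set ℂ := {w | z.im / 2 < w.im}
  have hU : IsOpen U := isOpen_lt continuous_const Complex.continuous_im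
  have hzU : z ∈ U := by show z.im / 2 < z.im; linarith
  have hs := good_summable hB (τ := I * ((z.im / 2 : ℝ) : ℂ)) (by simp; linarith)
  have h1 : DifferentiableOn ℂ (fun w => ∑' x : Fin n → ℤ, cexp (Real.pi * I * w * (qf B x : ℤ))) U := by
    refine differentiableOn_tsum_of_summable_norm hs ?_ hU ?_
    · intro x
      fun_prop
    · intro x w hw
      rw [norm_term, norm_term]
      apply Real.exp_le_exp.2
      have h2 : (0 : ℝ) ≤ qf B x := by exact_mod_cast qf_nonneg hB x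
      have h3 : (I * ((z.im / 2 : ℝ) : ℂ)).im = z.im / 2 := by simp
      rw [h3]
      have h4 : z.im / 2 ≤ w.im := le_of_lt hw
      have h5 := mul_le_mul_of_nonneg_right h4 h2
      nlinarith [Real.pi_pos]
  exact (h1 z hzU).differentiableAt (hU.mem_nhds hzU)

theorem TH_hasSum' {B : Matrix (Fin n) (Fin n) ℤ} (hB : GoodForm B) (τ : ℍ) :
    HasSum (fun m : ℕ => (rep B m : ℂ) • (Periodic.qParam 1 (τ : ℂ)) ^ m) (TH B τ) := by
  have h := TH_hasSum hB τ.im_pos
  unfold Periodic.qParam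
  simpa using h

set_option backward.isDefEq.respectTransparency.types false in
theorem TH_slash_T {B : Matrix (Fin 24) (Fin 24) ℤ} (hB : GoodForm B) :
    ((fun τ : ℍ => TH B τ) ∣[(12 : ℤ)] ModularGroup.T) = fun τ : ℍ => TH B τ := by
  ext z
  rw [SL_slash_apply, denom, modular_T_smul, ModularGroup.T]
  simp
  rw [add_comm]
  exact TH_T hB z

set_option backward.isDefEq.respectTransparency.types false in
theorem TH_slash_S {B : Matrix (Fin 24) (Fin 24) ℤ} (hB : GoodForm B) :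
    ((fun τ : ℍ => TH B τ) ∣[(12 : ℤ)] ModularGroup.S) = fun τ : ℍ => TH B τ := by
  ext z
  suffices TH B (-(↑z)⁻¹) * ((z : ℂ) ^ 12)⁻¹ = TH B z by
    rw [SL_slash_apply, UpperHalfPlane.modular_S_smul]
    simpa [denom, ModularGroup.S]
  have h := TH_S hB z.im_pos
  rw [neg_div, one_div] at h
  change TH B (-(↑z)⁻¹) = (z : ℂ) ^ 12 * TH B z at h
  rw [h]
  have hz := z.ne_zero
  field_simp

/-- the theta series as a modular form -/
noncomputable def ThetaForm {B : Matrix (Fin 24) (Fin 24) ℤ} (hB : GoodForm B) : ModularForm 𝒮ℒ 12 where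
  toFun := fun τ : ℍ => TH B τ
  slash_action_eq' A hA := by
    obtain ⟨A, rfl⟩ := hA
    exact slash_action_generators_SL2Z (TH_slash_S hB) (TH_slash_T hB) A
  holo' := by
    rw [UpperHalfPlane.mdifferentiable_iff]
    refine .congr (fun z hz ↦ (TH_diff hB hz).differentiableWithinAt) fun z hz ↦ ?_
    simp [ofComplex_apply_of_im_pos hz]
  bdd_at_cusps' hc := by
    rw [Subgroup.IsArithmetic.isCusp_iff_isCusp_SL2Z] at hc
    rw [OnePoint.isBoundedAt_iff_forall_SL2Z hc]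
    intro γ _
    rw [slash_action_generators_SL2Z (TH_slash_S hB) (TH_slash_T hB)]
    exact isBoundedAtImInfty_of_hasSum_qExpansion one_pos (TH_hasSum' hB)

theorem theta_coeff {B : Matrix (Fin 24) (Fin 24) ℤ} (hB : GoodForm B) (m : ℕ) :
    (qExpansion 1 (ThetaForm hB)).coeff m = (rep B m : ℂ) := by
  have hf : ∀ τ : ℍ, HasSum (fun m : ℕ => (rep B m : ℂ) • (Periodic.qParam 1 (τ : ℂ)) ^ m) (ThetaForm hB τ) := TH_hasSum' hB
  exact (ModularFormClass.qExpansion_coeff_unique (c := fun m => (rep B m : ℂ)) one_pos one_mem_strictPeriods_SL hf m).symm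

theorem c4 (m : ℕ) (hm : m ≠ 0) : (qExpansion 1 E₄).coeff m = 240 * (ArithmeticFunction.sigma 3 m : ℂ) := by
  rw [EisensteinSeries.E_qExpansion_coeff _ ⟨2, rfl⟩, if_neg hm]
  norm_num [show bernoulli 4 = -1 / 30 by decide +kernel]

theorem c6 (m : ℕ) (hm : m ≠ 0) : (qExpansion 1 E₆).coeff m = -504 * (ArithmeticFunction.sigma 5 m : ℂ) := by
  rw [EisensteinSeries.E_qExpansion_coeff _ ⟨3, rfl⟩, if_neg hm]
  norm_num [show bernoulli 6 = 1 / 42 by decide +kernel]

theorem e4 : (qExpansion 1 E₄).coeff 0 = 1 ∧ (qExpansion 1 E₄).coeff 1 = 240 ∧ (qExpansion 1 E₄).coeff 2 = 2160 ∧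
    (qExpansion 1 E₄).coeff 3 = 6720 ∧ (qExpansion 1 E₄).coeff 4 = 17520 := by
  refine ⟨EisensteinSeries.E_qExpansion_coeff_zero _ ⟨2, rfl⟩, ?_, ?_, ?_, ?_⟩
  · rw [c4 1 (by norm_num), show ArithmeticFunction.sigma 3 1 = 1 by decide +kernel]; norm_num
  · rw [c4 2 (by norm_num), show ArithmeticFunction.sigma 3 2 = 9 by decide +kernel]; norm_num
  · rw [c4 3 (by norm_num), show ArithmeticFunction.sigma 3 3 = 28 by decide +kernel]; norm_num
  · rw [c4 4 (by norm_num), show ArithmeticFunction.sigma 3 4 = 73 by decide +kernel]; norm_num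

theorem e6 : (qExpansion 1 E₆).coeff 0 = 1 ∧ (qExpansion 1 E₆).coeff 1 = -504 ∧ (qExpansion 1 E₆).coeff 2 = -16632 ∧
    (qExpansion 1 E₆).coeff 3 = -122976 ∧ (qExpansion 1 E₆).coeff 4 = -532728 := by
  refine ⟨EisensteinSeries.E_qExpansion_coeff_zero _ ⟨3, rfl⟩, ?_, ?_, ?_, ?_⟩
  · rw [c6 1 (by norm_num), show ArithmeticFunction.sigma 5 1 = 1 by decide +kernel]; norm_num
  · rw [c6 2 (by norm_num), show ArithmeticFunction.sigma 5 2 = 33 by decide +kernel]; norm_num
  · rw [c6 3 (by norm_num), show ArithmeticFunction.sigma 5 3 = 244 by decide +kernel]; norm_num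
  · rw [c6 4 (by norm_num), show ArithmeticFunction.sigma 5 4 = 1057 by decide +kernel]; norm_num

/-- comparison form -/
noncomputable def Fcmp : ModularForm 𝒮ℒ 12 :=
  (7 / 12 : ℂ) • (E₄.pow 3).mcast (by norm_num) + (5 / 12 : ℂ) • (E₆.pow 2).mcast (by norm_num)

theorem q_lin (f g : ModularForm 𝒮ℒ 12) (a b : ℂ) :
    qExpansion 1 (⇑(a • f + b • g) : ℍ → ℂ) = a • qExpansion 1 (⇑f : ℍ → ℂ) + b • qExpansion 1 (⇑g : ℍ → ℂ) := by
  have h1 := ModularForm.qExpansion_smul one_pos one_mem_strictPeriods_SL a f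
  have h2 := ModularForm.qExpansion_smul one_pos one_mem_strictPeriods_SL b g
  have h3 := ModularForm.qExpansion_add one_pos one_mem_strictPeriods_SL (a • f) (b • g)
  have e1 : (⇑(a • f + b • g) : ℍ → ℂ) = ⇑(a • f) + ⇑(b • g) := rfl
  have e2 : (⇑(a • f) : ℍ → ℂ) = a • ⇑f := rfl
  have e3 : (⇑(b • g) : ℍ → ℂ) = b • ⇑g := rfl
  rw [e1, h3, e2, e3, h1, h2]

theorem Fcmp_q : qExpansion 1 Fcmp = (7 / 12 : ℂ) • (qExpansion 1 E₄) ^ 3 + (5 / 12 : ℂ) • (qExpansion 1 E₆) ^ 2 := by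
  unfold Fcmp
  rw [q_lin, ModularForm.qExpansion_mcast, ModularForm.qExpansion_mcast,
    ModularForm.qExpansion_pow one_pos one_mem_strictPeriods_SL E₄ 3,
    ModularForm.qExpansion_pow one_pos one_mem_strictPeriods_SL E₆ 2]

theorem Fcmp_coeff : (qExpansion 1 Fcmp).coeff 0 = 1 ∧ (qExpansion 1 Fcmp).coeff 1 = 0 ∧ (qExpansion 1 Fcmp).coeff 2 = 196560 ∧
    (qExpansion 1 Fcmp).coeff 3 = 16773120 ∧ (qExpansion 1 Fcmp).coeff 4 = 398034000 := by
  rw [Fcmp_q]
  obtain ⟨a0, a1, a2, a3, a4⟩ := e4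
  obtain ⟨b0, b1, b2, b3, b4⟩ := e6
  generalize qExpansion 1 E₄ = p at *
  generalize qExpansion 1 E₆ = q at *
  rw [PowerSeries.coeff_zero_eq_constantCoeff] at a0 b0
  refine ⟨?_, ?_, ?_, ?_, ?_⟩ <;>
  · simp [pow_succ, PowerSeries.coeff_mul, Finset.Nat.antidiagonal_succ, a0, a1, a2, a3, a4, b0, b1, b2, b3, b4]
    norm_num

theorem rep_zero {B : Matrix (Fin n) (Fin n) ℤ} (hB : GoodForm B) : rep B 0 = 1 := by
  unfold rep
  have : {x : Fin n → ℤ | qf B x = 2 * ((0 : ℕ) : ℤ)} = {0} := by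
    ext x
    rw [Set.mem_ofPred_eq, Set.mem_singleton_iff]
    constructor
    · intro h
      by_contra h0
      have := hB.pos x h0
      unfold qf at h
      rw [h] at this
      simp at this
    · rintro rfl; simp [qf]
  rw [this, Set.ncard_singleton]

theorem theta_eq {B : Matrix (Fin 24) (Fin 24) ℤ} (hB : GoodForm B) (h2 : rep B 1 = 0) : ThetaForm hB = Fcmp := by
  rw [← sub_eq_zero]
  apply ModularForm.sturm_bound_levelOne
  have h3 : qExpansion 1 (⇑(ThetaForm hB) - ⇑Fcmp : ℍ → ℂ) = qExpansion 1 (ThetaForm hB) - qExpansion 1 Fcmp :=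
    ModularForm.qExpansion_sub one_pos one_mem_strictPeriods_SL (ThetaForm hB) Fcmp
  have h3' : (⇑(ThetaForm hB - Fcmp) : ℍ → ℂ) = ⇑(ThetaForm hB) - ⇑Fcmp := rfl
  rw [h3', h3]
  have h4 : ((1 : ℕ) : ℕ∞) < (qExpansion 1 (ThetaForm hB) - qExpansion 1 Fcmp).order := by
    have h5 : ((2 : ℕ) : ℕ∞) ≤ (qExpansion 1 (ThetaForm hB) - qExpansion 1 Fcmp).order := by
      apply PowerSeries.nat_le_order
      intro i hi
      rw [map_sub, theta_coeff]
      interval_cases i
      · rw [rep_zero hB, Fcmp_coeff.1]; simp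
      · rw [h2, Fcmp_coeff.2.1]; simp
    refine lt_of_lt_of_le ?_ h5
    exact_mod_cast (by norm_num : 1 < 2)
  exact_mod_cast h4

end Cfsg.Agent.H29
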